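/-
Project J4K (S3321): the finite model. `N0` is the natural module of `SL2(4)` with the action of `Sym(5)`,
`W0` is `F2^3`, `U0 = N0 ⊗ W0`.
-/
import Mathlib

set_option autoImplicit false

namespace Cfsg.Agent.J4K

open Equiv

/-- `F4^2` coded as `a + 4 b` -/
def N0 : Type := Fin 16
/-- `F2^3` -/
def W0 : Type := Fin 8

instance : DecidableEq N0 := inferInstanceAs (DecidableEq (Fin 16))
instance : Fintype N0 := inferInstanceAs (Fintype (Fin 16))
instance : DecidableEq W0 := inferInstanceAs (DecidableEq (Fin 8))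
instance : Fintype W0 := inferInstanceAs (Fintype (Fin 8))
instance (P : N0 → Prop) [DecidablePred P] : Decidable (∀ c, P c) := @Nat.decidableForallFin 16 P ‹_›
instance (P : N0 → Prop) [DecidablePred P] : Decidable (∃ c, P c) := @Nat.decidableExistsFin 16 P ‹_›
instance (P : W0 → Prop) [DecidablePred P] : Decidable (∀ c, P c) := @Nat.decidableForallFin 8 P ‹_›
instance (P : W0 → Prop) [DecidablePred P] : Decidable (∃ c, P c) := @Nat.decidableExistsFin 8 P ‹_›

/-- the vector with code `k` -/
def nv (k : ℕ) : N0 := (⟨k % 16, Nat.mod_lt _ (by decide)⟩ : Fin 16)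
/-- the vector with code `k` -/
def wv (k : ℕ) : W0 := (⟨k % 8, Nat.mod_lt _ (by decide)⟩ : Fin 8)
/-- the code -/
def N0.cd (c : N0) : ℕ := Fin.val (n := 16) c
/-- the code -/
def W0.cd (c : W0) : ℕ := Fin.val (n := 8) c

instance : Zero N0 := ⟨nv 0⟩
instance : Add N0 := ⟨fun a b => nv (a.cd ^^^ b.cd)⟩
instance : Neg N0 := ⟨fun a => a⟩
instance : Zero W0 := ⟨wv 0⟩
instance : Add W0 := ⟨fun a b => wv (a.cd ^^^ b.cd)⟩
instance : Neg W0 := ⟨fun a => a⟩

instance : AddCommGroup N0 where
  nsmul := nsmulRec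
  zsmul := zsmulRec
  add_assoc := by decide
  zero_add := by decide
  add_zero := by decide
  neg_add_cancel := by decide
  add_comm := by decide

instance : AddCommGroup W0 where
  nsmul := nsmulRec
  zsmul := zsmulRec
  add_assoc := by decide
  zero_add := by decide
  add_zero := by decide
  neg_add_cancel := by decide
  add_comm := by decide

/-- `L/Z`: the coefficients of `w0, w1, w2` -/
abbrev U0 : Type := N0 × N0 × N0
/-- matrices: the images of `w0, w1, w2` -/
abbrev M3 : Type := W0 × W0 × W0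

theorem card_N0 : Nat.card N0 = 16 := by rw [Nat.card_eq_fintype_card]; rfl
theorem card_W0 : Nat.card W0 = 8 := by rw [Nat.card_eq_fintype_card]; rfl
theorem card_U0 : Nat.card U0 = 4096 := by simp only [Nat.card_prod, card_N0]
theorem N0.add_self (a : N0) : a + a = 0 := by revert a; decide
theorem W0.add_self (a : W0) : a + a = 0 := by revert a; decide
theorem U0.add_self (a : U0) : a + a = 0 :=
  Prod.ext (N0.add_self _) (Prod.ext (N0.add_self _) (N0.add_self _))
theorem N0.neg_eq (a : N0) : -a = a := rfl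
theorem W0.neg_eq (a : W0) : -a = a := rfl
theorem U0.neg_eq (a : U0) : -a = a := rfl
theorem U0.eq_of_add {a b : U0} (h : a + b = 0) : a = b := by
  rw [add_eq_zero_iff_eq_neg, U0.neg_eq] at h; exact h
theorem W0.eq_of_add {a b : W0} (h : a + b = 0) : a = b := by
  rw [add_eq_zero_iff_eq_neg, W0.neg_eq] at h; exact h
theorem N0.eq_of_add {a b : N0} (h : a + b = 0) : a = b := by
  rw [add_eq_zero_iff_eq_neg, N0.neg_eq] at h; exact h

/-- coordinate `i` -/
def bit (c : W0) (i : ℕ) : Bool := c.cd.testBit i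
/-- scalar multiple -/
def sm (b : Bool) (a : N0) : N0 := if b then a else 0
/-- scalar multiple -/
def smW (b : Bool) (a : W0) : W0 := if b then a else 0
/-- the vector with the given coordinates -/
def mkW (a b c : Bool) : W0 := smW a (wv 1) + smW b (wv 2) + smW c (wv 4)
/-- matrix times vector -/
def ap (t : M3) (c : W0) : W0 := smW (bit c 0) t.1 + smW (bit c 1) t.2.1 + smW (bit c 2) t.2.2
/-- matrix product -/
def mm (t u : M3) : M3 := (ap t u.1, ap t u.2.1, ap t u.2.2)
/-- identity matrix -/
def e3 : M3 := (wv 1, wv 2, wv 4)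
/-- invertible matrix -/
def Inv3 (t : M3) : Prop := ∀ c, ap t c = 0 → c = 0
instance (t : M3) : Decidable (Inv3 t) := inferInstanceAs (Decidable (∀ c, ap t c = 0 → c = 0))
/-- cross product -/
def cross (a b : W0) : W0 :=
  mkW (xor (bit a 1 && bit b 2) (bit a 2 && bit b 1)) (xor (bit a 2 && bit b 0) (bit a 0 && bit b 2))
    (xor (bit a 0 && bit b 1) (bit a 1 && bit b 0))
/-- the action on `Z = Λ²W` (coordinates `w1∧w2, w2∧w0, w0∧w1`) -/
def zc (t : M3) (c : W0) : W0 := ap (cross t.2.1 t.2.2, cross t.2.2 t.1, cross t.1 t.2.1) c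
/-- the action of a matrix on `N ⊗ W` -/
def lin (t : M3) (a : U0) : U0 :=
  (sm (bit t.1 0) a.1 + sm (bit t.2.1 0) a.2.1 + sm (bit t.2.2 0) a.2.2,
   sm (bit t.1 1) a.1 + sm (bit t.2.1 1) a.2.1 + sm (bit t.2.2 1) a.2.2,
   sm (bit t.1 2) a.1 + sm (bit t.2.1 2) a.2.1 + sm (bit t.2.2 2) a.2.2)

/-- digit `i` in base 16 -/
def dg (n i : ℕ) : ℕ := (n >>> (4 * i)) % 16
/-- digit as a point -/
def dp (n i : ℕ) : Fin 5 := ⟨dg n i % 5, Nat.mod_lt _ (by decide)⟩
/-- the vector belonging to the double transposition fixing `f` and exchanging `a`, `b` -/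
def tbl (f a b : Fin 5) : N0 :=
  nv (dg 0x1320102303201023100079e00000700e990e07e0970060db600bd00000db006bd0600af05a050ff500a000005fa000c840c0480840c048c0000000
    (25 * f.1 + 5 * a.1 + b.1))
/-- action of a permutation of the five `F4`-points: the nonzero vector `c` is the double transposition
fixing `dp FP c` and exchanging `dp PA c`, `dp PB c` -/
def actF (f : Fin 5 → Fin 5) (c : N0) : N0 :=
  if c = 0 then 0 else
    tbl (f (dp 0x1320213032104440 c.cd)) (f (dp 0x1000100010000 c.cd)) (f (dp 0x3432422311442310 c.cd))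
/-- the action of `Sym(5) = ΣL2(4)` on `N0` -/
def act (s : Perm (Fin 5)) (c : N0) : N0 := actF s c
/-- the action of `Sym(5) × GL3(2)` on `U0` -/
def ac (s : Perm (Fin 5)) (t : M3) (a : U0) : U0 := lin t (act s a.1, act s a.2.1, act s a.2.2)
/-- the symplectic form `Tr det` -/
def B0 (c d : N0) : Bool :=
  Nat.testBit 0x5a5aa55a55aaaaaa96966996996666663c3cc33c33ccccccf0f00ff0ff000000 (16 * c.cd + d.cd)
/-- commutator map -/
def be (a b : U0) : W0 :=
  mkW (xor (B0 a.2.1 b.2.2) (B0 a.2.2 b.2.1)) (xor (B0 a.2.2 b.1) (B0 a.1 b.2.2))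
    (xor (B0 a.1 b.2.1) (B0 a.2.1 b.1))
/-- squaring map -/
def qq (a : U0) : W0 := mkW (B0 a.2.1 a.2.2) (B0 a.2.2 a.1) (B0 a.1 a.2.1)
/-- the `F4`-point fixed by the four-group `V4` -/
def Ell (c : N0) : Prop := c.cd < 4
instance (c : N0) : Decidable (Ell c) := inferInstanceAs (Decidable (c.cd < 4))

/-- function from its values -/
def v5 (a b c d e : Fin 5) : Fin 5 → Fin 5 := fun i =>
  if i = 0 then a else if i = 1 then b else if i = 2 then c else if i = 3 then d else e

/-- the 120 permutations as functions -/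
def pl : List (Fin 5 → Fin 5) :=
  (List.finRange 5).flatMap fun a => ((List.finRange 5).filter fun b => a ≠ b).flatMap fun b =>
    ((List.finRange 5).filter fun c => a ≠ c ∧ b ≠ c).flatMap fun c =>
      ((List.finRange 5).filter fun d => a ≠ d ∧ b ≠ d ∧ c ≠ d).flatMap fun d =>
        ((List.finRange 5).filter fun e => a ≠ e ∧ b ≠ e ∧ c ≠ e ∧ d ≠ e).map fun e => v5 a b c d e

theorem mem_pl (s : Perm (Fin 5)) : (s : Fin 5 → Fin 5) ∈ pl := by
  have e : (s : Fin 5 → Fin 5) = v5 (s 0) (s 1) (s 2) (s 3) (s 4) := by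
    funext i; fin_cases i <;> rfl
  have hn : ∀ i j : Fin 5, i ≠ j → s i ≠ s j := fun i j h => s.injective.ne h
  simp only [pl, List.mem_flatMap, List.mem_filter, List.mem_map, List.mem_finRange, true_and,
    decide_eq_true_eq]
  exact ⟨s 0, s 1, hn _ _ (by decide), s 2, ⟨hn _ _ (by decide), hn _ _ (by decide)⟩, s 3,
    ⟨hn _ _ (by decide), hn _ _ (by decide), hn _ _ (by decide)⟩, s 4,
    ⟨hn _ _ (by decide), hn _ _ (by decide), hn _ _ (by decide), hn _ _ (by decide)⟩, e.symm⟩

/-- statements on all permutations of five points: `perm_forall (P := fun f => ..) (by decide +kernel) s` -/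
theorem perm_forall {P : (Fin 5 → Fin 5) → Prop} [DecidablePred P]
    (h : (pl.all fun f => decide (P f)) = true) (s : Perm (Fin 5)) : P s :=
  of_decide_eq_true (List.all_eq_true.1 h _ (mem_pl s))

/-- statements on all matrices -/
theorem mat_forall {P : M3 → Prop} (h : ∀ a b c : W0, P (a, b, c)) (t : M3) : P t := h t.1 t.2.1 t.2.2
/-- statements on all vectors -/
theorem u_forall {P : U0 → Prop} (h : ∀ a b c : N0, P (a, b, c)) (t : U0) : P t := h t.1 t.2.1 t.2.2

/-- the 3-cycle `(1 2 3)` -/
def xq : Perm (Fin 5) := swap 1 2 * swap 2 3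
/-- the transposition `(2 3)` -/
def th : Perm (Fin 5) := swap 2 3
/-- order 3, fixes `w2` and `z` -/
def tp : M3 := (wv 2, wv 3, wv 4)
/-- order 7, normalised by `tp` (`tp ty tp⁻¹ = ty²`, `ty³ = ty + 1`) -/
def ty : M3 := (wv 5, wv 3, wv 2)
/-- involution inverting `tp` -/
def ti : M3 := (wv 2, wv 1, wv 4)
/-- `tv w`, `w ∈ ⟨w0, w1⟩`: the transvection `w2 ↦ w2 + w` -/
def tv (w : W0) : M3 := (wv 1, wv 2, wv 4 + w)

theorem act_zero (s : Perm (Fin 5)) : act s 0 = 0 := by simp [act, actF]
theorem act_one (c : N0) : act 1 c = c := by revert c; decide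
theorem act_swap_mul (s : Perm (Fin 5)) (i j : Fin 5) (c : N0) :
    act (swap i j * s) c = act (swap i j) (act s c) := by
  have h1 : ∀ i j f a b : Fin 5, f ≠ a → f ≠ b → a ≠ b →
      actF (swap i j) (tbl f a b) = tbl (swap i j f) (swap i j a) (swap i j b) := by decide +kernel
  have h2 : ∀ c : N0, c ≠ 0 → dp 0x1320213032104440 c.cd ≠ dp 0x1000100010000 c.cd ∧
      dp 0x1320213032104440 c.cd ≠ dp 0x3432422311442310 c.cd ∧
      dp 0x1000100010000 c.cd ≠ dp 0x3432422311442310 c.cd := by decide +kernel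
  by_cases hc : c = 0
  · rw [hc, act_zero, act_zero, act_zero]
  · obtain ⟨a1, a2, a3⟩ := h2 c hc
    have e : act s c = tbl (s (dp 0x1320213032104440 c.cd)) (s (dp 0x1000100010000 c.cd))
        (s (dp 0x3432422311442310 c.cd)) := if_neg hc
    rw [e, act, act, h1 _ _ _ _ _ (s.injective.ne a1) (s.injective.ne a2) (s.injective.ne a3)]
    exact if_neg hc
theorem act_mul (s r : Perm (Fin 5)) (c : N0) : act (s * r) c = act s (act r c) := by
  induction s using Perm.swap_induction_on generalizing c with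
  | one => rw [one_mul, act_one]
  | swap_mul f i j _ ih => rw [mul_assoc, act_swap_mul, act_swap_mul, ih]
theorem act_add (s : Perm (Fin 5)) (c d : N0) : act s (c + d) = act s c + act s d := by
  have h : ∀ i j : Fin 5, i < j → ∀ c d, act (swap i j) (c + d) = act (swap i j) c + act (swap i j) d := by
    decide +kernel
  induction s using Perm.swap_induction_on with
  | one => simp only [act_one]
  | swap_mul f i j hij ih =>
    rw [act_mul, act_mul, act_mul, ih]
    rcases lt_or_gt_of_ne hij with h' | h'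
    · exact h _ _ h' _ _
    · rw [swap_comm]; exact h _ _ h' _ _
theorem B0_act (s : Perm (Fin 5)) (c d : N0) : B0 (act s c) (act s d) = B0 c d := by
  have h : ∀ i j : Fin 5, i < j → ∀ c d, B0 (act (swap i j) c) (act (swap i j) d) = B0 c d := by
    decide +kernel
  induction s using Perm.swap_induction_on with
  | one => simp only [act_one]
  | swap_mul f i j hij ih =>
    rw [act_mul, act_mul, ← ih]
    rcases lt_or_gt_of_ne hij with h' | h'
    · exact h _ _ h' _ _
    · rw [swap_comm]; exact h _ _ h' _ _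
theorem act_inv_act (s : Perm (Fin 5)) (c : N0) : act s⁻¹ (act s c) = c := by
  rw [← act_mul, inv_mul_cancel, act_one]
theorem act_act_inv (s : Perm (Fin 5)) (c : N0) : act s (act s⁻¹ c) = c := by
  rw [← act_mul, mul_inv_cancel, act_one]
theorem act_eq_zero {s : Perm (Fin 5)} {c : N0} (h : act s c = 0) : c = 0 := by
  rw [← act_inv_act s c, h, act_zero]

/-- stabiliser of the vector `nv 1`, dihedral of order 8 -/
def D0 : Subgroup (Perm (Fin 5)) where
  carrier := {s | act s (nv 1) = nv 1}
  mul_mem' {a b} ha hb := by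
    change act _ _ = _ at ha hb ⊢; rw [act_mul, hb, ha]
  one_mem' := act_one _
  inv_mem' {a} ha := by
    change act _ _ = _ at ha ⊢
    conv_lhs => rw [← ha]
    exact act_inv_act _ _
/-- the four-group on `0,1,2,3` -/
def V4 : Subgroup (Perm (Fin 5)) where
  carrier := {s | act s (nv 1) = nv 1 ∧ act s (nv 2) = nv 2}
  mul_mem' {a b} ha hb := by
    obtain ⟨a1, a2⟩ := ha; obtain ⟨b1, b2⟩ := hb
    exact ⟨by rw [act_mul, b1, a1], by rw [act_mul, b2, a2]⟩
  one_mem' := ⟨act_one _, act_one _⟩
  inv_mem' {a} ha := by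
    obtain ⟨a1, a2⟩ := ha
    refine ⟨?_, ?_⟩
    · conv_lhs => rw [← a1]
      exact act_inv_act _ _
    · conv_lhs => rw [← a2]
      exact act_inv_act _ _
theorem mem_D0 {s : Perm (Fin 5)} : s ∈ D0 ↔ act s (nv 1) = nv 1 := Iff.rfl
theorem mem_V4 {s : Perm (Fin 5)} : s ∈ V4 ↔ act s (nv 1) = nv 1 ∧ act s (nv 2) = nv 2 := Iff.rfl
instance (s : Perm (Fin 5)) : Decidable (s ∈ D0) := decidable_of_iff _ mem_D0.symm
instance (s : Perm (Fin 5)) : Decidable (s ∈ V4) := decidable_of_iff _ mem_V4.symm
theorem V4_le_D0 : V4 ≤ D0 := fun _ h => h.1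
theorem card_D0 : Nat.card D0 = 8 := by
  rw [Nat.card_eq_fintype_card, Fintype.card_subtype]; decide +kernel
theorem card_V4 : Nat.card V4 = 4 := by
  rw [Nat.card_eq_fintype_card, Fintype.card_subtype]; decide +kernel
theorem act_V4 {s : Perm (Fin 5)} (hs : s ∈ V4) {c : N0} (hc : Ell c) : act s c = c := by
  have h3 : act s (nv 3) = nv 3 := by
    rw [show nv 3 = nv 1 + nv 2 by decide, act_add, hs.1, hs.2]
  have : c = 0 ∨ c = nv 1 ∨ c = nv 2 ∨ c = nv 3 := by revert c; decide
  rcases this with rfl | rfl | rfl | rfl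
  exacts [act_zero _, hs.1, hs.2, h3]
theorem V4_sq {s : Perm (Fin 5)} (hs : s ∈ V4) : s * s = 1 := by
  have := perm_forall (P := fun f => actF f (nv 1) = nv 1 → actF f (nv 2) = nv 2 → ∀ i, f (f i) = i)
    (by decide +kernel) s hs.1 hs.2
  exact Equiv.ext this

theorem sm_add (b : Bool) (c d : N0) : sm b (c + d) = sm b c + sm b d := by cases b <;> simp [sm]
theorem act_sm (s : Perm (Fin 5)) (b : Bool) (c : N0) : act s (sm b c) = sm b (act s c) := by
  cases b <;> simp [sm, act_zero]
theorem lin_add (t : M3) (a b : U0) : lin t (a + b) = lin t a + lin t b := by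
  simp only [lin, Prod.fst_add, Prod.snd_add, sm_add, Prod.mk_add_mk]
  refine Prod.ext ?_ (Prod.ext ?_ ?_) <;> (simp only; abel)
theorem ac_add (s : Perm (Fin 5)) (t : M3) (a b : U0) : ac s t (a + b) = ac s t a + ac s t b := by
  simp only [ac, ← lin_add, Prod.fst_add, Prod.snd_add, act_add, Prod.mk_add_mk]
theorem ac_zero (s : Perm (Fin 5)) (t : M3) : ac s t 0 = 0 := by
  have := ac_add s t 0 0
  rw [add_zero] at this
  exact left_eq_add.1 this
theorem lin_e3 (a : U0) : lin e3 a = a := by
  have h : bit (wv 1) 0 = true ∧ bit (wv 1) 1 = false ∧ bit (wv 1) 2 = false ∧ bit (wv 2) 0 = false ∧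
      bit (wv 2) 1 = true ∧ bit (wv 2) 2 = false ∧ bit (wv 4) 0 = false ∧ bit (wv 4) 1 = false ∧
      bit (wv 4) 2 = true := by decide
  simp [lin, e3, sm, h]
theorem ac_e3 (s : Perm (Fin 5)) (a : U0) : ac s e3 a = (act s a.1, act s a.2.1, act s a.2.2) := lin_e3 _
theorem ac_one (t : M3) (a : U0) : ac 1 t a = lin t a := by simp only [ac, act_one]
theorem zc_e3 (c : W0) : zc e3 c = c := by revert c; decide
theorem bit_add (c d : W0) (i : ℕ) (hi : i < 3) : bit (c + d) i = xor (bit c i) (bit d i) := by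
  revert c d i; decide
theorem smW_xor (a b : Bool) (w : W0) : smW (xor a b) w = smW a w + smW b w := by
  revert a b w; decide
theorem ap_add (t : M3) (c d : W0) : ap t (c + d) = ap t c + ap t d := by
  simp only [ap, bit_add c d 0 (by decide), bit_add c d 1 (by decide), bit_add c d 2 (by decide), smW_xor]
  abel
theorem zc_add (t : M3) (c d : W0) : zc t (c + d) = zc t c + zc t d := ap_add _ _ _
theorem zc_zero (t : M3) : zc t 0 = 0 := by
  have := zc_add t 0 0
  rw [add_zero] at this
  exact left_eq_add.1 this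
theorem mm_e3 (t : M3) : mm t e3 = t := mat_forall (P := fun t => mm t e3 = t) (by decide +kernel) t
theorem e3_mm (t : M3) : mm e3 t = t := mat_forall (P := fun t => mm e3 t = t) (by decide +kernel) t
theorem ap_ap (t u : M3) (c : W0) : ap (mm t u) c = ap t (ap u c) := by
  have h : ∀ (b : Bool) (w : W0), ap t (smW b w) = smW b (ap t w) := fun b w => by
    cases b
    · have := ap_add t 0 0
      rw [add_zero] at this
      simpa [smW] using left_eq_add.1 this
    · simp [smW]
  conv_rhs => rw [ap.eq_1 u, ap_add, ap_add, h, h, h]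
  rfl
theorem mm_assoc (t u v : M3) : mm (mm t u) v = mm t (mm u v) := by
  simp only [mm, ← ap_ap]
theorem B0_comm (c d : N0) : B0 c d = B0 d c := by revert c d; decide +kernel
theorem B0_add_left (c d e : N0) : B0 (c + d) e = xor (B0 c e) (B0 d e) := by revert c d e; decide +kernel
theorem B0_add_right (c d e : N0) : B0 c (d + e) = xor (B0 c d) (B0 c e) := by revert c d e; decide +kernel
theorem B0_self (c : N0) : B0 c c = false := by revert c; decide
theorem B0_zero_left (c : N0) : B0 0 c = false := by revert c; decide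
theorem B0_zero_right (c : N0) : B0 c 0 = false := by revert c; decide
theorem mkW_xor (a b c d e f : Bool) : mkW (xor a d) (xor b e) (xor c f) = mkW a b c + mkW d e f := by
  revert a b c d e f; decide
theorem be_comm (a b : U0) : be a b = be b a := by
  simp only [be, B0_comm a.1, B0_comm a.2.1, B0_comm a.2.2]
  congr 1 <;> exact Bool.xor_comm _ _
theorem be_add_left (a b c : U0) : be (a + b) c = be a c + be b c := by
  simp only [be, Prod.fst_add, Prod.snd_add, B0_add_left, ← mkW_xor]
  congr 1 <;> simp only [Bool.xor_assoc, Bool.xor_left_comm]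
theorem be_add_right (a b c : U0) : be a (b + c) = be a b + be a c := by
  rw [be_comm, be_add_left, be_comm b, be_comm c]
theorem card_inv3 : Nat.card {t : M3 // Inv3 t} = 168 := by
  rw [Nat.card_eq_fintype_card, Fintype.card_subtype]; decide +kernel

end Cfsg.Agent.J4K
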