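/-
Project J4K (S3321): definitions. `Co`: coordinates for `K = 2^(3+12).(S5 × L3(2))`; `Sec`: the complement
`S5`, the elements `p`, `io`; `Qd`: the extraspecial group `Q = O_2(C(z))`.
-/
import Cfsg.Statements.S3321
import Cfsg.Agent.J4K.Model
import Cfsg.Agent.H70.Conj

set_option autoImplicit false

namespace Cfsg.Agent.J4K

open Subgroup Equiv Cfsg.Agent.H70

/-- coordinates -/
structure Co (G : Type*) [Group G] where
  K : Subgroup G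
  L : Subgroup G
  ze : W0 → G
  ph : G → U0
  pi : G → Perm (Fin 5)
  rh : G → M3
  L_le : L ≤ K
  ze_add : ∀ c d, ze (c + d) = ze c * ze d
  ze_inj : Function.Injective ze
  ze_mem : ∀ c, ze c ∈ L
  mem_K : ∀ g, (∀ c, ∃ d, g * ze c * g⁻¹ = ze d) → g ∈ K
  ph_mul : ∀ {a b}, a ∈ L → b ∈ L → ph (a * b) = ph a + ph b
  ph_surj : ∀ v, ∃ a ∈ L, ph a = v
  ph_ze : ∀ c, ph (ze c) = 0
  ph_ker : ∀ {a}, a ∈ L → ph a = 0 → ∃ c, a = ze c
  comm : ∀ {a b}, a ∈ L → b ∈ L → a * b = b * a * ze (be (ph a) (ph b))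
  sq : ∀ {a}, a ∈ L → a * a = ze (qq (ph a))
  pi_mul : ∀ {a b}, a ∈ K → b ∈ K → pi (a * b) = pi a * pi b
  rh_mul : ∀ {a b}, a ∈ K → b ∈ K → rh (a * b) = mm (rh a) (rh b)
  rh_inv3 : ∀ {a}, a ∈ K → Inv3 (rh a)
  mem_L : ∀ {k}, k ∈ K → (k ∈ L ↔ pi k = 1 ∧ rh k = e3)
  surj : ∀ s t, Inv3 t → ∃ k ∈ K, pi k = s ∧ rh k = t
  conj_ph : ∀ {k a}, k ∈ K → a ∈ L → ph (k * a * k⁻¹) = ac (pi k) (rh k) (ph a)
  conj_ze : ∀ {k}, k ∈ K → ∀ c, k * ze c * k⁻¹ = ze (zc (rh k) c)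

namespace Co

variable {G : Type*} [Group G] (C : Co G)

/-- the 2-central involution `w0 ∧ w1` -/
def z : G := C.ze (wv 4)
/-- `C(z)` -/
def H : Subgroup G := centralizer ({C.z} : Set G)
/-- `a ≡ b` modulo `z` -/
def Md (a b : G) : Prop := a = b ∨ a = b * C.z

theorem ze_zero : C.ze 0 = 1 := by
  have := C.ze_add 0 0
  rw [add_zero] at this
  exact left_eq_mul.1 this
theorem ze_sq (c : W0) : C.ze c * C.ze c = 1 := by rw [← C.ze_add, W0.add_self, C.ze_zero]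
theorem ze_inv (c : W0) : (C.ze c)⁻¹ = C.ze c := inv_eq_of_mul_eq_one_right (C.ze_sq c)
theorem ze_eq_one {c : W0} (h : C.ze c = 1) : c = 0 := C.ze_inj (h.trans C.ze_zero.symm)
theorem ze_comm (c d : W0) : C.ze c * C.ze d = C.ze d * C.ze c := by rw [← C.ze_add, ← C.ze_add, add_comm]
theorem z_sq : C.z * C.z = 1 := C.ze_sq _
theorem z_inv : C.z⁻¹ = C.z := C.ze_inv _
theorem z_ne_one : C.z ≠ 1 := fun h => absurd (C.ze_eq_one h) (by decide)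
theorem orderOf_z : orderOf C.z = 2 := orderOf_eq_prime (by rw [pow_two]; exact C.z_sq) C.z_ne_one
theorem z_mem_L : C.z ∈ C.L := C.ze_mem _
theorem mem_H {g : G} : g ∈ C.H ↔ g * C.z = C.z * g := mem_centralizer_singleton_iff

/-- the centre of `L` -/
def Zs : Subgroup G where
  carrier := {g | ∃ c, g = C.ze c}
  mul_mem' := by rintro _ _ ⟨c, rfl⟩ ⟨d, rfl⟩; exact ⟨c + d, (C.ze_add c d).symm⟩
  one_mem' := ⟨0, C.ze_zero.symm⟩
  inv_mem' := by rintro _ ⟨c, rfl⟩; exact ⟨c, C.ze_inv c⟩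
theorem mem_Zs {g : G} : g ∈ C.Zs ↔ ∃ c, g = C.ze c := Iff.rfl
theorem ze_mem_Zs (c : W0) : C.ze c ∈ C.Zs := ⟨c, rfl⟩
theorem Zs_le : C.Zs ≤ C.L := by rintro _ ⟨c, rfl⟩; exact C.ze_mem c
theorem card_Zs : Nat.card C.Zs = 8 := by
  rw [← card_W0]
  exact (Nat.card_congr (Equiv.ofBijective (fun c => (⟨C.ze c, c, rfl⟩ : C.Zs))
    ⟨fun a b h => C.ze_inj (congrArg Subtype.val h), by rintro ⟨_, c, rfl⟩; exact ⟨c, rfl⟩⟩)).symm

theorem pi_L {a : G} (ha : a ∈ C.L) : C.pi a = 1 := ((C.mem_L (C.L_le ha)).1 ha).1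
theorem rh_L {a : G} (ha : a ∈ C.L) : C.rh a = e3 := ((C.mem_L (C.L_le ha)).1 ha).2
theorem pi_one : C.pi 1 = 1 := C.pi_L (one_mem _)
theorem rh_one : C.rh 1 = e3 := C.rh_L (one_mem _)
theorem pi_inv {a : G} (ha : a ∈ C.K) : C.pi a⁻¹ = (C.pi a)⁻¹ :=
  eq_inv_of_mul_eq_one_left (by rw [← C.pi_mul (inv_mem ha) ha, inv_mul_cancel, C.pi_one])
theorem rh_inv_mul {a : G} (ha : a ∈ C.K) : mm (C.rh a⁻¹) (C.rh a) = e3 := by
  rw [← C.rh_mul (inv_mem ha) ha, inv_mul_cancel, C.rh_one]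
theorem rh_mul_inv {a : G} (ha : a ∈ C.K) : mm (C.rh a) (C.rh a⁻¹) = e3 := by
  rw [← C.rh_mul ha (inv_mem ha), mul_inv_cancel, C.rh_one]
theorem rh_inv_e3 {a : G} (ha : a ∈ C.K) (h : C.rh a = e3) : C.rh a⁻¹ = e3 := by
  have := C.rh_inv_mul ha; rwa [h, mm_e3] at this
theorem pi_pow {a : G} (ha : a ∈ C.K) (n : ℕ) : C.pi (a ^ n) = C.pi a ^ n := by
  induction n with
  | zero => rw [pow_zero, pow_zero, C.pi_one]
  | succ n ih => rw [pow_succ, pow_succ, C.pi_mul (pow_mem ha n) ha, ih]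
/-- `pi` as a homomorphism on a subgroup of `K` -/
def piH (A : Subgroup G) (hA : A ≤ C.K) : A →* Perm (Fin 5) :=
  MonoidHom.mk' (fun a => C.pi a) fun a b => C.pi_mul (hA a.2) (hA b.2)
theorem piH_apply (A : Subgroup G) (hA : A ≤ C.K) (a : A) : C.piH A hA a = C.pi a := rfl
theorem conj_mem_L {k a : G} (hk : k ∈ C.K) (ha : a ∈ C.L) : k * a * k⁻¹ ∈ C.L := by
  have h1 := C.L_le ha
  refine (C.mem_L (mul_mem (mul_mem hk h1) (inv_mem hk))).2 ⟨?_, ?_⟩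
  · rw [C.pi_mul (mul_mem hk h1) (inv_mem hk), C.pi_mul hk h1, C.pi_L ha, C.pi_inv hk, mul_one,
      mul_inv_cancel]
  · rw [C.rh_mul (mul_mem hk h1) (inv_mem hk), C.rh_mul hk h1, C.rh_L ha, mm_e3, C.rh_mul_inv hk]
theorem ph_one : C.ph 1 = 0 := by rw [← C.ze_zero, C.ph_ze]
theorem ph_inv {a : G} (ha : a ∈ C.L) : C.ph a⁻¹ = C.ph a :=
  U0.eq_of_add (by rw [← C.ph_mul (inv_mem ha) ha, inv_mul_cancel, C.ph_one])
theorem ph_eq {a b : G} (ha : a ∈ C.L) (hb : b ∈ C.L) (h : C.ph a = C.ph b) : ∃ c, a = b * C.ze c := by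
  obtain ⟨c, hc⟩ := C.ph_ker (mul_mem (inv_mem hb) ha)
    (by rw [C.ph_mul (inv_mem hb) ha, C.ph_inv hb, h, U0.add_self])
  exact ⟨c, by rw [← hc, mul_inv_cancel_left]⟩
theorem ze_comm_of_rh {k : G} (hk : k ∈ C.K) (h : C.rh k = e3) (c : W0) : k * C.ze c = C.ze c * k := by
  have := C.conj_ze hk c
  rw [h, zc_e3] at this
  exact mul_inv_eq_iff_eq_mul.1 this
theorem ze_comm_L {a : G} (ha : a ∈ C.L) (c : W0) : a * C.ze c = C.ze c * a :=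
  C.ze_comm_of_rh (C.L_le ha) (C.rh_L ha) c
theorem comm_iff {a b : G} (ha : a ∈ C.L) (hb : b ∈ C.L) : a * b = b * a ↔ be (C.ph a) (C.ph b) = 0 := by
  rw [C.comm ha hb, mul_eq_left]
  exact ⟨C.ze_eq_one, fun h => by rw [h, C.ze_zero]⟩
theorem conj_L {a b : G} (ha : a ∈ C.L) (hb : b ∈ C.L) :
    a * b * a⁻¹ = b * C.ze (be (C.ph a) (C.ph b)) := by
  rw [C.comm ha hb, mul_assoc b, C.ze_comm_L ha, ← mul_assoc, mul_inv_cancel_right]
theorem L_le_H : C.L ≤ C.H := fun _ ha => C.mem_H.2 (C.ze_comm_L ha _)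
theorem mem_H_of_rh {k : G} (hk : k ∈ C.K) (h : zc (C.rh k) (wv 4) = wv 4) : k ∈ C.H := by
  have := C.conj_ze hk (wv 4)
  rw [h] at this
  exact C.mem_H.2 (mul_inv_eq_iff_eq_mul.1 this)
theorem zc_of_mem_H {k : G} (hk : k ∈ C.K) (h : k ∈ C.H) : zc (C.rh k) (wv 4) = wv 4 := by
  apply C.ze_inj
  rw [← C.conj_ze hk]
  exact mul_inv_eq_iff_eq_mul.2 (C.mem_H.1 h)
theorem K_eq : C.K = normalizer (C.Zs : Set G) := by
  ext g
  refine ⟨fun hg => mem_normalizer_iff.2 fun a => ⟨?_, ?_⟩, fun hg => C.mem_K g fun c => ?_⟩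
  · rintro ⟨c, rfl⟩; exact ⟨_, C.conj_ze hg c⟩
  · rintro ⟨c, hc⟩
    refine ⟨zc (C.rh g⁻¹) c, ?_⟩
    rw [← C.conj_ze (inv_mem hg), ← hc]; group
  · exact (mem_normalizer_iff.1 hg _).1 (C.ze_mem_Zs c)
/-- `ph` as a homomorphism -/
def phH : C.L →* Multiplicative U0 :=
  MonoidHom.mk' (fun a => Multiplicative.ofAdd (C.ph a)) fun a b => by
    rw [← ofAdd_add]; exact congrArg _ (C.ph_mul a.2 b.2)
theorem card_L : Nat.card C.L = 2 ^ 15 := by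
  have h1 : C.phH.range = ⊤ := MonoidHom.range_eq_top.2 fun v => by
    obtain ⟨a, ha, h⟩ := C.ph_surj v.toAdd
    exact ⟨⟨a, ha⟩, congrArg Multiplicative.ofAdd h⟩
  have h2 : C.phH.ker = C.Zs.subgroupOf C.L := by
    ext a
    exact ⟨fun h => C.ph_ker a.2 h, fun ⟨c, hc⟩ => by
      change Multiplicative.ofAdd (C.ph (C.L.subtype a)) = 1; rw [hc, C.ph_ze]; rfl⟩
  have h3 := C.phH.ker.index_mul_card
  rw [index_ker, h1, h2, Nat.card_congr (subgroupOfEquivOfLe C.Zs_le).toEquiv, C.card_Zs, card_top,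
    Nat.card_congr Multiplicative.toAdd, card_U0] at h3
  omega

theorem Md.refl (a : G) : C.Md a a := Or.inl rfl
variable {C} in
theorem Md.symm {a b : G} (h : C.Md a b) : C.Md b a := by
  rcases h with rfl | rfl
  · exact Or.inl rfl
  · exact Or.inr (by rw [mul_assoc, C.z_sq, mul_one])
variable {C} in
theorem Md.trans {a b c : G} (h : C.Md a b) (h' : C.Md b c) : C.Md a c := by
  rcases h with rfl | rfl
  · exact h'
  · rcases h' with rfl | rfl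
    · exact Or.inr rfl
    · exact Or.inl (by rw [mul_assoc, C.z_sq, mul_one])
variable {C} in
theorem Md.mul {a b c d : G} (hd : d ∈ C.H) (h : C.Md a b) (h' : C.Md c d) : C.Md (a * c) (b * d) := by
  have e := C.mem_H.1 hd
  rcases h with rfl | rfl <;> rcases h' with rfl | rfl
  · exact Or.inl rfl
  · exact Or.inr (mul_assoc _ _ _).symm
  · exact Or.inr (by rw [mul_assoc, ← e, mul_assoc])
  · exact Or.inl (by rw [e, mul_assoc, ← mul_assoc C.z, C.z_sq, one_mul])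
variable {C} in
theorem Md.conj {a b h : G} (hh : h ∈ C.H) (h' : C.Md a b) : C.Md (h * a * h⁻¹) (h * b * h⁻¹) := by
  rcases h' with rfl | rfl
  · exact Or.inl rfl
  · exact Or.inr (by rw [mul_assoc (h * b), C.mem_H.1 (inv_mem hh)]; group)
variable {C} in
theorem Md.inv {a b : G} (hb : b ∈ C.H) (h : C.Md a b) : C.Md a⁻¹ b⁻¹ := by
  rcases h with rfl | rfl
  · exact Or.inl rfl
  · exact Or.inr (by rw [mul_inv_rev, C.z_inv, C.mem_H.1 (inv_mem hb)])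
variable {C} in
theorem Md.mem {a b : G} {A : Subgroup G} (h : C.Md a b) (hz : C.z ∈ A) (hb : b ∈ A) : a ∈ A := by
  rcases h with rfl | rfl
  exacts [hb, mul_mem hb hz]

end Co

/-- the complement `S5`, the element `p` of order 3, an element inverting it, lifts of `N ⊗ w2` -/
structure Sec (G : Type*) [Group G] extends Co G where
  sg : Perm (Fin 5) →* G
  p : G
  io : G
  el : N0 → G
  sg_mem : ∀ s, sg s ∈ K
  pi_sg : ∀ s, pi (sg s) = s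
  rh_sg : ∀ s, rh (sg s) = e3
  p_mem : p ∈ K
  pi_p : pi p = 1
  rh_p : rh p = tp
  p3 : p ^ 3 = 1
  p_sg : ∀ s, sg s * p = p * sg s
  io_mem : io ∈ K
  pi_io : pi io = 1
  rh_io : rh io = ti
  io_p : io * p * io⁻¹ = p⁻¹
  el_mem : ∀ u, el u ∈ L
  ph_el : ∀ u, ph (el u) = (0, 0, u)
  p_el : ∀ u, el u * p = p * el u
  sg_cent : ∀ s ∈ V4, ∀ a ∈ L, Ell (ph a).1 → Ell (ph a).2.1 → Ell (ph a).2.2 → sg s * a = a * sg s

namespace Sec

variable {G : Type*} [Group G] (S : Sec G)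

/-- `X = C(z) ∩ C(p)`, will be `6.M22` -/
def X : Subgroup G := S.H ⊓ centralizer ({S.p} : Set G)
theorem mem_X {g : G} : g ∈ S.X ↔ g ∈ S.H ∧ g * S.p = S.p * g :=
  and_congr Iff.rfl mem_centralizer_singleton_iff
/-- `E = C_L(p)`, elementary of order 32 -/
def E : Subgroup G := S.L ⊓ centralizer ({S.p} : Set G)
theorem mem_E {g : G} : g ∈ S.E ↔ g ∈ S.L ∧ g * S.p = S.p * g :=
  and_congr Iff.rfl mem_centralizer_singleton_iff
/-- the members of `K ∩ C(p)` over `A × 1`, order `32 |A|` -/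
def XA (A : Subgroup (Perm (Fin 5))) : Subgroup G where
  carrier := {g | g ∈ S.K ∧ g * S.p = S.p * g ∧ S.rh g = e3 ∧ S.pi g ∈ A}
  mul_mem' := by
    rintro a b ⟨a1, a2, a3, a4⟩ ⟨b1, b2, b3, b4⟩
    refine ⟨mul_mem a1 b1, by rw [mul_assoc, b2, ← mul_assoc, a2, mul_assoc], ?_, ?_⟩
    · rw [S.rh_mul a1 b1, a3, b3, mm_e3]
    · rw [S.pi_mul a1 b1]; exact mul_mem a4 b4
  one_mem' := ⟨one_mem _, by rw [one_mul, mul_one], S.rh_one, by rw [S.pi_one]; exact one_mem _⟩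
  inv_mem' := by
    rintro a ⟨a1, a2, a3, a4⟩
    exact ⟨inv_mem a1, (show Commute a S.p from a2).inv_left, S.rh_inv_e3 a1 a3,
      by rw [S.pi_inv a1]; exact inv_mem a4⟩
theorem mem_XA {A : Subgroup (Perm (Fin 5))} {g : G} :
    g ∈ S.XA A ↔ g ∈ S.K ∧ g * S.p = S.p * g ∧ S.rh g = e3 ∧ S.pi g ∈ A := Iff.rfl
/-- `X0 = E : S5`, order 3840 -/
abbrev X0 : Subgroup G := S.XA ⊤
/-- `T0 = E : D8`, order 256 -/
abbrev T0 : Subgroup G := S.XA D0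
/-- the second elementary abelian subgroup of order 32 of `T0` -/
def U : Subgroup G where
  carrier := {g | ∃ s ∈ V4, ∃ e ∈ S.E, Ell (S.ph e).1 ∧ Ell (S.ph e).2.1 ∧ Ell (S.ph e).2.2 ∧ g = e * S.sg s}
  mul_mem' := by
    have hE : ∀ c d : N0, Ell c → Ell d → Ell (c + d) := by decide
    rintro _ _ ⟨s, hs, e, he, a1, a2, a3, rfl⟩ ⟨r, hr, f, hf, b1, b2, b3, rfl⟩
    refine ⟨s * r, mul_mem hs hr, e * f, mul_mem he hf, ?_, ?_, ?_, ?_⟩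
    · rw [S.ph_mul he.1 hf.1]; exact hE _ _ a1 b1
    · rw [S.ph_mul he.1 hf.1]; exact hE _ _ a2 b2
    · rw [S.ph_mul he.1 hf.1]; exact hE _ _ a3 b3
    · rw [map_mul, mul_assoc, ← mul_assoc (S.sg s), S.sg_cent s hs f hf.1 b1 b2 b3]; group
  one_mem' := ⟨1, one_mem _, 1, one_mem _, by rw [S.ph_one]; decide, by rw [S.ph_one]; decide,
    by rw [S.ph_one]; decide, by rw [map_one, one_mul]⟩
  inv_mem' := by
    rintro _ ⟨s, hs, e, he, a1, a2, a3, rfl⟩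
    refine ⟨s⁻¹, inv_mem hs, e⁻¹, inv_mem he, by rwa [S.ph_inv he.1], by rwa [S.ph_inv he.1],
      by rwa [S.ph_inv he.1], ?_⟩
    rw [← S.sg_cent s hs e he.1 a1 a2 a3, mul_inv_rev, map_inv]
theorem mem_U {g : G} : g ∈ S.U ↔
    ∃ s ∈ V4, ∃ e ∈ S.E, Ell (S.ph e).1 ∧ Ell (S.ph e).2.1 ∧ Ell (S.ph e).2.2 ∧ g = e * S.sg s := Iff.rfl
/-- a Sylow 2-subgroup of `K`, order `2^21` -/
def S1 : Subgroup G where
  carrier := {g | g ∈ S.K ∧ S.pi g ∈ D0 ∧ zc (S.rh g) (wv 4) = wv 4 ∧ (S.rh g).1 = wv 1}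
  mul_mem' := by
    rintro a b ⟨a1, a2, a3, a4⟩ ⟨b1, b2, b3, b4⟩
    refine ⟨mul_mem a1 b1, by rw [S.pi_mul a1 b1]; exact mul_mem a2 b2,
      S.zc_of_mem_H (mul_mem a1 b1) (mul_mem (S.mem_H_of_rh a1 a3) (S.mem_H_of_rh b1 b3)), ?_⟩
    have h : ∀ t : M3, ap t (wv 1) = t.1 := mat_forall (by decide +kernel)
    rw [S.rh_mul a1 b1]
    change ap _ _ = _
    rw [b4, h, a4]
  one_mem' := ⟨one_mem _, by rw [S.pi_one]; exact one_mem _, by rw [S.rh_one, zc_e3], by rw [S.rh_one]; rfl⟩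
  inv_mem' := by
    rintro a ⟨a1, a2, a3, a4⟩
    refine ⟨inv_mem a1, by rw [S.pi_inv a1]; exact inv_mem a2,
      S.zc_of_mem_H (inv_mem a1) (inv_mem (S.mem_H_of_rh a1 a3)), ?_⟩
    have h : ∀ t : M3, ap t (wv 1) = t.1 := mat_forall (by decide +kernel)
    have h2 := congrArg Prod.fst (S.rh_inv_mul a1)
    change ap _ _ = wv 1 at h2
    rwa [a4, h] at h2
theorem mem_S1 {g : G} :
    g ∈ S.S1 ↔ g ∈ S.K ∧ S.pi g ∈ D0 ∧ zc (S.rh g) (wv 4) = wv 4 ∧ (S.rh g).1 = wv 1 := Iff.rfl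

theorem p_mem_H : S.p ∈ S.H := S.mem_H_of_rh S.p_mem (by rw [S.rh_p]; decide)
theorem io_mem_H : S.io ∈ S.H := S.mem_H_of_rh S.io_mem (by rw [S.rh_io]; decide)
theorem p_ne_one : S.p ≠ 1 := fun h => by
  have := S.rh_p; rw [h, S.rh_one] at this; exact absurd this (by decide)
theorem orderOf_p : orderOf S.p = 3 := orderOf_eq_prime S.p3 S.p_ne_one
theorem p_mem_X : S.p ∈ S.X := S.mem_X.2 ⟨S.p_mem_H, rfl⟩
theorem z_p : S.z * S.p = S.p * S.z := (S.mem_H.1 S.p_mem_H).symm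
theorem z_mem_E : S.z ∈ S.E := S.mem_E.2 ⟨S.z_mem_L, S.z_p⟩
theorem el_mem_E (u : N0) : S.el u ∈ S.E := S.mem_E.2 ⟨S.el_mem u, S.p_el u⟩
theorem XA_le_K (A : Subgroup (Perm (Fin 5))) : S.XA A ≤ S.K := fun _ h => h.1
theorem XA_le_X (A : Subgroup (Perm (Fin 5))) : S.XA A ≤ S.X := fun _ h =>
  S.mem_X.2 ⟨S.mem_H_of_rh h.1 (by rw [h.2.2.1, zc_e3]), h.2.1⟩
theorem XA_mono {A B : Subgroup (Perm (Fin 5))} (h : A ≤ B) : S.XA A ≤ S.XA B := fun _ hg =>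
  ⟨hg.1, hg.2.1, hg.2.2.1, h hg.2.2.2⟩
theorem E_le_XA (A : Subgroup (Perm (Fin 5))) : S.E ≤ S.XA A := fun _ h =>
  ⟨S.L_le h.1, (S.mem_E.1 h).2, S.rh_L h.1, by rw [S.pi_L h.1]; exact one_mem _⟩
theorem sg_mem_XA {A : Subgroup (Perm (Fin 5))} {s : Perm (Fin 5)} (h : s ∈ A) : S.sg s ∈ S.XA A :=
  ⟨S.sg_mem s, S.p_sg s, S.rh_sg s, by rwa [S.pi_sg]⟩
theorem U_le_XA : S.U ≤ S.XA V4 := by
  rintro _ ⟨s, hs, e, he, -, -, -, rfl⟩
  exact mul_mem (S.E_le_XA _ he) (S.sg_mem_XA hs)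
theorem U_le_T0 : S.U ≤ S.T0 := S.U_le_XA.trans (S.XA_mono V4_le_D0)
theorem X_le_H : S.X ≤ S.H := inf_le_left
theorem z_mem_X : S.z ∈ S.X := S.XA_le_X ⊤ (S.E_le_XA _ S.z_mem_E)
theorem z_mem_U : S.z ∈ S.U :=
  ⟨1, one_mem _, S.z, S.z_mem_E, by rw [Co.z, S.ph_ze]; decide, by rw [Co.z, S.ph_ze]; decide,
    by rw [Co.z, S.ph_ze]; decide, by rw [map_one, mul_one]⟩

/-- the central subgroup `⟨p, z⟩` of `X` -/
def C6 : Subgroup S.X := (zpowers (S.p * S.z)).subgroupOf S.X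
theorem C6_le_center : S.C6 ≤ center S.X := by
  rintro a ⟨n, hn⟩
  refine mem_center_iff.2 fun g => Subtype.ext ?_
  have h1 : Commute (g : G) (S.p * S.z) :=
    Commute.mul_right (S.mem_X.1 g.2).2 (S.mem_H.1 (S.mem_X.1 g.2).1)
  change (g : G) * a = a * g
  have hn' : (S.p * S.z) ^ n = (a : G) := hn
  rw [← hn']
  exact h1.zpow_right n
instance : S.C6.Normal := ⟨fun a ha g => by
  rw [mem_center_iff.1 (S.C6_le_center ha) g, mul_inv_cancel_right]; exact ha⟩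
/-- will be `M22` -/
abbrev M : Type _ := S.X ⧸ S.C6

/-- the stabiliser in `X` of `el 1` modulo `z` -/
def Cr : Subgroup G where
  carrier := {g | g ∈ S.X ∧ S.Md (g * S.el (nv 1) * g⁻¹) (S.el (nv 1))}
  mul_mem' := by
    rintro a b ⟨a1, a2⟩ ⟨b1, b2⟩
    refine ⟨mul_mem a1 b1, ?_⟩
    have := (b2.conj (S.X_le_H a1)).trans a2
    rwa [show a * (b * S.el (nv 1) * b⁻¹) * a⁻¹ = a * b * S.el (nv 1) * (a * b)⁻¹ by group] at this
  one_mem' := ⟨one_mem _, Or.inl (by group)⟩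
  inv_mem' := by
    rintro a ⟨a1, a2⟩
    refine ⟨inv_mem a1, ?_⟩
    have := (a2.conj (S.X_le_H (inv_mem a1))).symm
    rwa [show a⁻¹ * (a * S.el (nv 1) * a⁻¹) * a⁻¹⁻¹ = S.el (nv 1) by group] at this
theorem mem_Cr {g : G} : g ∈ S.Cr ↔ g ∈ S.X ∧ S.Md (g * S.el (nv 1) * g⁻¹) (S.el (nv 1)) := Iff.rfl
/-- `D_u = [Q, r]⟨z⟩` for `r ∈ L` with last coordinate `u ≠ 0`: the members of `L` over `u ⊗ ⟨w0, w1⟩` -/
def InD (u : N0) (a : G) : Prop := a ∈ S.L ∧ ∃ b0 b1 : Bool, S.ph a = (sm b0 u, sm b1 u, 0)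
/-- `h Z h⁻¹` is an `X`-conjugate of `Z` -/
def Good (h : G) : Prop := ∃ x ∈ S.X, ∃ k ∈ S.K, h = x * k

end Sec

/-- `Q = O_2(C(z))` when `C(z)` is not contained in `K` -/
structure Qd (G : Type*) [Group G] extends Sec G where
  Q : Subgroup G
  Q_eq : Q = twoCoreOfCentralizer toCo.z
  Q_le_K : Q ≤ K
  Q_le_H : Q ≤ toCo.H
  conj_Q : ∀ {h q}, h ∈ toCo.H → q ∈ Q → h * q * h⁻¹ ∈ Q
  pi_Q : ∀ {q}, q ∈ Q → pi q = 1
  rh_Q : ∀ {q}, q ∈ Q → ∃ w : W0, w.cd < 4 ∧ rh q = tv w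
  surj_Q : ∀ w : W0, w.cd < 4 → ∃ q ∈ Q, rh q = tv w
  mem_Q : ∀ {a}, a ∈ L → (a ∈ Q ↔ (ph a).2.2 = 0)
  sq_Q : ∀ {q}, q ∈ Q → toCo.Md (q * q) 1
  comm_Q : ∀ {q r}, q ∈ Q → r ∈ Q → toCo.Md (q * r) (r * q)
  card_Q : Nat.card Q = 2 ^ 13
  cent_Q : ∀ {h}, h ∈ toCo.H → (∀ q ∈ Q, h * q = q * h) → h ∈ Q
  max_Q : ∀ A : Subgroup G, IsPGroup 2 A → A ≤ toCo.H → toCo.H ≤ normalizer (A : Set G) → A ≤ Q
  not_le : ¬ toCo.H ≤ K

namespace Qd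

variable {G : Type*} [Group G] (D : Qd G)

/-- `h` fixes `q` modulo `z` -/
def Fx (h q : G) : Prop := D.Md (h * q * h⁻¹) q
/-- `h` fixes more than 128 members of `Q` modulo `z` -/
def Big (h : G) : Prop := 128 < Set.ncard {q | q ∈ D.Q ∧ D.Fx h q}

end Qd

end Cfsg.Agent.J4K
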