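/-
Project J4K: fixed points of maps of prime order, existence of permutations by `decide`.
-/
import Cfsg.Agent.J4K.Model

set_option autoImplicit false

namespace Cfsg.Agent.J4K

open Equiv

/-- a map of order dividing `p` on a finite set -/
theorem ncard_modEq_fix {X : Type*} (p : ℕ) [Fact p.Prime] (f : X → X) (S : Set X) (hS : S.Finite)
    (hf : ∀ x ∈ S, f x ∈ S) (hp : ∀ x ∈ S, f^[p] x = x) :
    S.ncard ≡ {x | x ∈ S ∧ f x = x}.ncard [MOD p] := by
  classical
  have := hS.fintype
  let F : Function.End S := fun x => ⟨f x, hf _ x.2⟩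
  have h1 : ∀ n (x : S), ((F ^ n) x : X) = f^[n] x := fun n => by
    induction n with
    | zero => exact fun _ => rfl
    | succ n ih => intro x; rw [pow_succ, Function.iterate_succ_apply]; exact ih (F x)
  have h2 : F ^ p ^ 1 = 1 := funext fun x => Subtype.ext (by rw [pow_one, h1, hp _ x.2]; rfl)
  have h3 := Perm.card_fixedPoints_modEq h2
  rw [← Nat.card_eq_fintype_card, ← Nat.card_eq_fintype_card, Nat.card_coe_set_eq,
    Nat.card_coe_set_eq] at h3
  have h4 : {x | x ∈ S ∧ f x = x} = Subtype.val '' Function.fixedPoints F := by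
    ext x
    exact ⟨fun h => ⟨⟨x, h.1⟩, Subtype.ext h.2, rfl⟩, by
      rintro ⟨y, hy, rfl⟩; exact ⟨y.2, congrArg Subtype.val hy⟩⟩
  rwa [h4, Set.ncard_image_of_injective _ Subtype.val_injective]

theorem exists_fix {X : Type*} (p : ℕ) [Fact p.Prime] (f : X → X) (S : Set X) (hS : S.Finite)
    (hf : ∀ x ∈ S, f x ∈ S) (hp : ∀ x ∈ S, f^[p] x = x) (hc : ¬ p ∣ S.ncard) : ∃ x ∈ S, f x = x := by
  by_contra h
  have h1 := ncard_modEq_fix p f S hS hf hp
  rw [show {x | x ∈ S ∧ f x = x} = ∅ from Set.eq_empty_of_forall_notMem fun x hx => h ⟨x, hx⟩,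
    Set.ncard_empty] at h1
  exact hc ((Nat.modEq_zero_iff_dvd).1 h1)

theorem ncard_coset {G : Type*} [Group G] (N : Subgroup G) (g : G) :
    {k | g⁻¹ * k ∈ N}.ncard = Nat.card N := by
  have : {k | g⁻¹ * k ∈ N} = (fun a => g * a) '' (N : Set G) := by
    ext k
    exact ⟨fun h => ⟨_, h, mul_inv_cancel_left _ _⟩, by
      rintro ⟨a, ha, rfl⟩; change _ * (_ * _) ∈ N; rwa [inv_mul_cancel_left]⟩
  rw [this, Set.ncard_image_of_injective _ (mul_right_injective g)]; rfl

/-- coprime adjustment: `k ↦ a k b` has a fixed point on an invariant coset `g N` -/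
theorem coset_fix {G : Type*} [Group G] [Finite G] (N : Subgroup G) (p : ℕ) [Fact p.Prime]
    (hN : ¬ p ∣ Nat.card N) (g a b : G) (ha : a ^ p = 1) (hb : b ^ p = 1)
    (h : ∀ k, g⁻¹ * k ∈ N → g⁻¹ * (a * k * b) ∈ N) : ∃ k, g⁻¹ * k ∈ N ∧ a * k * b = k := by
  have h1 : ∀ n k, (fun k => a * k * b)^[n] k = a ^ n * k * b ^ n := fun n => by
    induction n with
    | zero => simp
    | succ n ih => intro k; rw [Function.iterate_succ_apply, ih, pow_succ, pow_succ']; group
  exact exists_fix p (fun k => a * k * b) {k | g⁻¹ * k ∈ N} (Set.toFinite _) h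
    (fun k _ => by rw [h1, ha, hb, one_mul, mul_one]) (by rwa [ncard_coset])

/-- an invariant subgroup of a fixed point free automorphism of prime order -/
theorem card_mod_of_fpf {V : Type*} [Group V] [Finite V] (p : ℕ) [Fact p.Prime] (f : MulAut V)
    (hf : f ^ p = 1) (h : ∀ v, f v = v → v = 1) (F : Subgroup V) (hF : ∀ v ∈ F, f v ∈ F) :
    Nat.card F ≡ 1 [MOD p] := by
  have h0 : ∀ n v, f^[n] v = (f ^ n) v := fun n => by
    induction n with
    | zero => exact fun _ => rfl
    | succ n ih => intro v; rw [Function.iterate_succ_apply, ih, pow_succ]; rfl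
  have h1 := ncard_modEq_fix p f (F : Set V) (Set.toFinite _) hF fun v _ => by rw [h0, hf]; rfl
  rwa [show {x | x ∈ (F : Set V) ∧ f x = x} = {1} from Set.eq_singleton_iff_unique_mem.2
    ⟨⟨one_mem _, map_one f⟩, fun x hx => h x hx.2⟩, Set.ncard_singleton] at h1

/-- `perm_exists (P := fun f => ..) (by decide +kernel)` -/
theorem perm_exists {P : (Fin 5 → Fin 5) → Prop} [DecidablePred P]
    (h : (pl.any fun f => decide (P f)) = true) : ∃ s : Perm (Fin 5), P s := by
  have h1 : (pl.all fun f => decide (∀ i j, f i = f j → i = j)) = true := by decide +kernel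
  obtain ⟨f, hf, hP⟩ := List.any_eq_true.1 h
  have h2 : Function.Injective f := fun i j => of_decide_eq_true (List.all_eq_true.1 h1 f hf) i j
  exact ⟨Equiv.ofBijective f (Finite.injective_iff_bijective.1 h2), of_decide_eq_true hP⟩

/-- `Sym(5)` is transitive on the nonzero vectors -/
theorem act_trans {c : N0} (hc : c ≠ 0) : ∃ s : Perm (Fin 5), act s (nv 1) = c := by
  have h : ∀ c : N0, c ≠ 0 → (pl.any fun f => decide (actF f (nv 1) = c)) = true := by decide +kernel
  exact perm_exists (P := fun f => actF f (nv 1) = c) (h c hc)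

/-- `Sym(5)` is transitive on the pairs with `B0 c d` -/
theorem act_trans2 {c d : N0} (h : B0 c d = true) :
    ∃ s : Perm (Fin 5), act s (nv 1) = c ∧ act s (nv 8) = d := by
  have h1 : ∀ d : N0, B0 (nv 1) d = true →
      (pl.any fun f => decide (actF f (nv 1) = nv 1 ∧ actF f (nv 8) = d)) = true := by decide +kernel
  obtain ⟨s, rfl⟩ := act_trans (c := c) (by rintro rfl; rw [B0_zero_left] at h; exact absurd h (by decide))
  rw [← act_act_inv s d, B0_act] at h
  obtain ⟨r, h2, h3⟩ := perm_exists (P := fun f => actF f (nv 1) = nv 1 ∧ actF f (nv 8) = act s⁻¹ d) (h1 _ h)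
  exact ⟨s * r, by rw [act_mul, act.eq_1 r, h2], by rw [act_mul, act.eq_1 r, h3, act_act_inv]⟩

end Cfsg.Agent.J4K
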