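/-
Project J4K: small additions to the model and to the calculus in `K`.
-/
import Cfsg.Agent.J4K.Defs
import Cfsg.Agent.J4K.Fix

set_option autoImplicit false

namespace Cfsg.Agent.J4K

open Subgroup Equiv Cfsg.Agent.H70

theorem lin_tp (a : U0) : lin tp a = (a.2.1, a.1 + a.2.1, a.2.2) := by
  change (0 + a.2.1 + 0, a.1 + a.2.1 + 0, 0 + 0 + a.2.2) = _; simp
theorem lin_ty (a : U0) : lin ty a = (a.1 + a.2.1, a.2.1 + a.2.2, a.1) := by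
  change (a.1 + a.2.1 + 0, 0 + a.2.1 + a.2.2, a.1 + 0 + 0) = _; simp
theorem lin_ti (a : U0) : lin ti a = (a.2.1, a.1, a.2.2) := by
  change (0 + a.2.1 + 0, a.1 + 0 + 0, 0 + 0 + a.2.2) = _; simp
theorem lin_tv {w : W0} (hw : w.cd < 4) (a : U0) :
    lin (tv w) a = (a.1 + sm (bit w 0) a.2.2, a.2.1 + sm (bit w 1) a.2.2, a.2.2) := by
  have h : bit (wv 4 + w) 0 = bit w 0 ∧ bit (wv 4 + w) 1 = bit w 1 ∧ bit (wv 4 + w) 2 = true := by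
    revert w; decide
  have h' : bit (wv 1) 0 = true ∧ bit (wv 1) 1 = false ∧ bit (wv 1) 2 = false ∧ bit (wv 2) 0 = false ∧
      bit (wv 2) 1 = true ∧ bit (wv 2) 2 = false := by decide
  simp [lin, tv, h, h', sm]
theorem tv_zero : tv 0 = e3 := by decide
theorem w_cases {w : W0} (hw : w.cd < 4) : w = 0 ∨ w = wv 1 ∨ w = wv 2 ∨ w = wv 3 := by revert w; decide
/-- matrix power -/
def mpow (t : M3) : ℕ → M3
  | 0 => e3
  | n + 1 => mm (mpow t n) t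

namespace Co

variable {G : Type*} [Group G] (C : Co G)

theorem rh_pow {a : G} (ha : a ∈ C.K) (n : ℕ) : C.rh (a ^ n) = mpow (C.rh a) n := by
  induction n with
  | zero => rw [pow_zero, C.rh_one]; rfl
  | succ n ih => rw [pow_succ, C.rh_mul (pow_mem ha n) ha, ih]; rfl
theorem pow_four {a : G} (ha : a ∈ C.L) : a ^ 4 = 1 := by
  rw [show 4 = 2 * 2 from rfl, pow_mul, pow_two a, C.sq ha, pow_two, C.ze_sq]
theorem coset_L {g k : G} (hg : g ∈ C.K) : g⁻¹ * k ∈ C.L ↔ k ∈ C.K ∧ C.pi k = C.pi g ∧ C.rh k = C.rh g := by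
  refine ⟨fun h => ?_, fun ⟨h1, h2, h3⟩ => (C.mem_L (mul_mem (inv_mem hg) h1)).2 ⟨?_, ?_⟩⟩
  · have h1 := C.L_le h
    rw [← mul_inv_cancel_left g k]
    exact ⟨mul_mem hg h1, by rw [C.pi_mul hg h1, C.pi_L h, mul_one], by rw [C.rh_mul hg h1, C.rh_L h, mm_e3]⟩
  · rw [C.pi_mul (inv_mem hg) h1, C.pi_inv hg, h2, inv_mul_cancel]
  · rw [C.rh_mul (inv_mem hg) h1, h3, C.rh_inv_mul hg]
theorem coset_L' {g k : G} (hg : g ∈ C.K) : k * g⁻¹ ∈ C.L ↔ k ∈ C.K ∧ C.pi k = C.pi g ∧ C.rh k = C.rh g := by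
  rw [← C.coset_L hg]
  refine ⟨fun h => ?_, fun h => ?_⟩
  · simpa [mul_assoc] using C.conj_mem_L (inv_mem hg) h
  · simpa [mul_assoc] using C.conj_mem_L hg h
theorem coset_Z {g k : G} (hg : g ∈ C.L) : g⁻¹ * k ∈ C.Zs ↔ k ∈ C.L ∧ C.ph k = C.ph g := by
  refine ⟨fun ⟨c, h⟩ => ?_, fun ⟨h1, h2⟩ => ?_⟩
  · rw [← mul_inv_cancel_left g k, h]
    exact ⟨mul_mem hg (C.ze_mem c), by rw [C.ph_mul hg (C.ze_mem c), C.ph_ze, add_zero]⟩
  · obtain ⟨c, hc⟩ := C.ph_eq h1 hg h2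
    exact ⟨c, by rw [hc, inv_mul_cancel_left]⟩
theorem pi_conj {k a : G} (hk : k ∈ C.K) (ha : a ∈ C.K) : C.pi (k * a * k⁻¹) = C.pi k * C.pi a * (C.pi k)⁻¹ := by
  rw [C.pi_mul (mul_mem hk ha) (inv_mem hk), C.pi_mul hk ha, C.pi_inv hk]
theorem rh_conj {k a : G} (hk : k ∈ C.K) (ha : a ∈ C.K) :
    mm (C.rh (k * a * k⁻¹)) (C.rh k) = mm (C.rh k) (C.rh a) := by
  rw [← C.rh_mul (mul_mem (mul_mem hk ha) (inv_mem hk)) hk, inv_mul_cancel_right, C.rh_mul hk ha]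
theorem rh_conj_e3 {k a : G} (hk : k ∈ C.K) (ha : a ∈ C.K) (h : C.rh a = e3) : C.rh (k * a * k⁻¹) = e3 := by
  rw [C.rh_mul (mul_mem hk ha) (inv_mem hk), C.rh_mul hk ha, h, mm_e3, C.rh_mul_inv hk]
theorem rh_conj_of_e3 {k a : G} (hk : k ∈ C.K) (ha : a ∈ C.K) (h : C.rh k = e3) :
    C.rh (k * a * k⁻¹) = C.rh a := by
  have := C.rh_conj hk ha
  rwa [h, mm_e3, e3_mm] at this
/-- coprime adjustment in `K` -/
theorem adjust [Finite G] (r : ℕ) [Fact r.Prime] (hr : r ≠ 2) {a b : G} (ha : a ∈ C.K) (hb : b ∈ C.K)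
    (ha' : a ^ r = 1) (hb' : b ^ r = 1) (s : Perm (Fin 5)) {t : M3} (ht : Inv3 t)
    (h1 : C.pi a * s * C.pi b = s) (h2 : mm (mm (C.rh a) t) (C.rh b) = t) :
    ∃ k ∈ C.K, C.pi k = s ∧ C.rh k = t ∧ a * k * b = k := by
  obtain ⟨g, hg, rfl, rfl⟩ := C.surj s t ht
  obtain ⟨k, k1, k2⟩ := coset_fix C.L r (fun h => hr ((Nat.prime_dvd_prime_iff_eq Fact.out Nat.prime_two).1
    ((Fact.out : r.Prime).dvd_of_dvd_pow (C.card_L ▸ h)))) g a b ha' hb' fun k hk => by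
      obtain ⟨e1, e2, e3⟩ := (C.coset_L hg).1 hk
      exact (C.coset_L hg).2 ⟨mul_mem (mul_mem ha e1) hb,
        by rw [C.pi_mul (mul_mem ha e1) hb, C.pi_mul ha e1, e2, h1],
        by rw [C.rh_mul (mul_mem ha e1) hb, C.rh_mul ha e1, e3, h2]⟩
  obtain ⟨e1, e2, e3⟩ := (C.coset_L hg).1 k1
  exact ⟨k, e1, e2, e3, k2⟩
/-- an element of odd prime order fixing a class modulo `Z` fixes a member of it -/
theorem adjust_Z [Finite G] (r : ℕ) [Fact r.Prime] (hr : r ≠ 2) {a : G} (ha : a ∈ C.K) (ha' : a ^ r = 1)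
    {v : U0} (hv : ac (C.pi a) (C.rh a) v = v) : ∃ l ∈ C.L, C.ph l = v ∧ a * l * a⁻¹ = l := by
  obtain ⟨g, hg, rfl⟩ := C.ph_surj v
  obtain ⟨k, k1, k2⟩ := coset_fix C.Zs r (fun h => hr ((Nat.prime_dvd_prime_iff_eq Fact.out Nat.prime_two).1
    ((Fact.out : r.Prime).dvd_of_dvd_pow (n := 3) (by rwa [C.card_Zs] at h)))) g a a⁻¹ ha' (by rw [inv_pow, ha', inv_one])
    fun k hk => by
      obtain ⟨e1, e2⟩ := (C.coset_Z hg).1 hk
      exact (C.coset_Z hg).2 ⟨C.conj_mem_L ha e1, by rw [C.conj_ph ha e1, e2, hv]⟩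
  obtain ⟨e1, e2⟩ := (C.coset_Z hg).1 k1
  exact ⟨k, e1, e2, k2⟩

end Co

end Cfsg.Agent.J4K
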