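/-
Project J4K: finite checks and the calculus modulo `z` in `Q`.
-/
import Cfsg.Agent.J4K.Basic
import Cfsg.Agent.H49.Prod

set_option autoImplicit false

namespace Cfsg.Agent.J4K

open Subgroup Equiv Cfsg.Agent.H70

namespace Bk

theorem last : ∀ t : M3, Inv3 t → zc t (wv 4) = wv 4 →
    bit t.1 2 = false ∧ bit t.2.1 2 = false ∧ bit t.2.2 2 = true := mat_forall (by decide +kernel)

theorem s4 : ∀ t : M3, Inv3 t → zc t (wv 4) = wv 4 → ∃ v : W0, v.cd < 4 ∧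
    ((mm (mm (tv v) tp) t = mm t tp ∧ ∃ w : W0, w.cd < 4 ∧
      (t = tv w ∨ t = mm (tv w) tp ∨ t = mm (tv w) (mm tp tp))) ∨ mm (mm (tv v) (mm tp tp)) t = mm t tp) :=
  mat_forall (by decide +kernel)

theorem ord3 : ∀ t : M3, zc t (wv 4) = wv 4 → mm (mm t t) t = e3 → zc t (wv 1) ≠ wv 1 →
    zc t (wv 1) ≠ wv 1 + wv 4 → ∃ w : W0, w.cd < 4 ∧ (t = mm (tv w) tp ∨ t = mm (tv w) (mm tp tp)) :=
  mat_forall (by decide +kernel)

theorem six : ∀ c : W0, c ≠ 0 → c ≠ wv 4 → ∃ a b d : W0, Inv3 (a, b, d) ∧ zc (a, b, d) (wv 4) = wv 4 ∧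
    zc (a, b, d) (wv 1) = c := by decide +kernel

/-- exchanges `w0` and `w2` -/
def t0 : M3 := (wv 4, wv 2, wv 1)

theorem t0_tv : ∀ w v : W0, w.cd < 4 → v.cd < 4 → ∀ t ∈ [tv v, mm (tv v) tp, mm (tv v) (mm tp tp)],
    mm t t0 = mm t0 (tv w) → t = e3 := by decide +kernel

theorem nondeg : ∀ a : N0, a ≠ 0 → ∃ v, B0 a v = true := by decide +kernel

theorem two_perp : ∀ a b : N0, ∃ u v : N0, u ≠ 0 ∧ v ≠ 0 ∧ u + v ≠ 0 ∧ be (0, 0, u) (a, b, 0) = 0 ∧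
    be (0, 0, v) (a, b, 0) = 0 := by decide +kernel

theorem fix3 (s : Perm (Fin 5)) (h : s ^ 3 = 1) (h1 : s ≠ 1) {w : W0} (hw : w.cd < 4) :
    ac s (mm (tv w) tp) (act s (nv 1), nv 1, 0) = (act s (nv 1), nv 1, 0) ∧
    ac s (mm (tv w) (mm tp tp)) (nv 1, act s (nv 1), 0) = (nv 1, act s (nv 1), 0) :=
  (perm_forall (P := fun f => (∀ i, f (f (f i)) = i) → (∀ i, f i = i) ∨ ∀ w : W0, w.cd < 4 →
    lin (mm (tv w) tp) (actF f (actF f (nv 1)), actF f (nv 1), actF f 0) = (actF f (nv 1), nv 1, 0) ∧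
    lin (mm (tv w) (mm tp tp)) (actF f (nv 1), actF f (actF f (nv 1)), actF f 0) = (nv 1, actF f (nv 1), 0))
    (by decide +kernel) s fun i => congrArg (fun g : Perm (Fin 5) => g i) h).resolve_left
      (fun e => h1 (Equiv.ext e)) w hw

theorem md_ze {G : Type*} [Group G] (C : Co G) {a : G} {c d : W0} :
    C.Md (a * C.ze c) (a * C.ze d) ↔ c = d ∨ c = d + wv 4 := by
  rw [Co.Md, Co.z, mul_assoc, ← C.ze_add, mul_right_inj, mul_right_inj, C.ze_inj.eq_iff, C.ze_inj.eq_iff]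

theorem md_ze' {G : Type*} [Group G] (C : Co G) {c d : W0} :
    C.Md (C.ze c) (C.ze d) ↔ c = d ∨ c = d + wv 4 := by
  rw [← md_ze C (a := 1), one_mul, one_mul]

theorem md_ph {G : Type*} [Group G] {C : Co G} {a b : G} (hb : b ∈ C.L) (h : C.Md a b) :
    a ∈ C.L ∧ C.ph a = C.ph b := by
  rcases h with rfl | rfl
  · exact ⟨hb, rfl⟩
  · exact ⟨mul_mem hb C.z_mem_L, by rw [C.ph_mul hb C.z_mem_L, Co.z, C.ph_ze, add_zero]⟩

theorem md_rh {G : Type*} [Group G] {C : Co G} {a b : G} (hb : b ∈ C.K) (h : C.Md a b) : C.rh a = C.rh b := by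
  rcases h with rfl | rfl
  · rfl
  · rw [C.rh_mul hb (C.L_le C.z_mem_L), C.rh_L C.z_mem_L, mm_e3]

theorem last_conj {G : Type*} [Group G] (C : Co G) {k a : G} (hk : k ∈ C.K) (hH : k ∈ C.H) (ha : a ∈ C.L) :
    (C.ph (k * a * k⁻¹)).2.2 = act (C.pi k) (C.ph a).2.2 := by
  obtain ⟨h1, h2, h3⟩ := last _ (C.rh_inv3 hk) (C.zc_of_mem_H hk hH)
  rw [C.conj_ph hk ha]
  simp [ac, lin, h1, h2, h3, sm]

theorem rh_cancel {G : Type*} [Group G] (C : Co G) {k : G} (hk : k ∈ C.K) {t u : M3}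
    (h : mm t (C.rh k) = mm u (C.rh k)) : t = u := by
  rw [← mm_e3 t, ← mm_e3 u, ← C.rh_mul_inv hk, ← mm_assoc, h, mm_assoc]

end Bk

namespace Qd

open Bk

variable {G : Type*} [Group G] (D : Qd G)

theorem bk_zQ (c : W0) : D.ze c ∈ D.Q := (D.mem_Q (D.ze_mem c)).2 (by rw [D.ph_ze]; rfl)

theorem bk_L {q : G} (hq : q ∈ D.Q) (h : D.rh q = tv 0) : q ∈ D.L :=
  (D.mem_L (D.Q_le_K hq)).2 ⟨D.pi_Q hq, h.trans tv_zero⟩

theorem bk_conj' {h q : G} (hh : h ∈ D.H) (hq : q ∈ D.Q) : h⁻¹ * q * h ∈ D.Q := by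
  simpa using D.conj_Q (inv_mem hh) hq

theorem bk_fxQ {q x : G} (hq : q ∈ D.Q) (hx : x ∈ D.Q) : D.Fx q x := by
  have := (D.comm_Q hq hx).mul (inv_mem (D.Q_le_H hq)) (Co.Md.refl _ q⁻¹)
  rwa [mul_inv_cancel_right] at this

variable {D} in
theorem Fx.bk_mul {a b x : G} (ha : a ∈ D.H) (h : D.Fx a x) (h' : D.Fx b x) : D.Fx (a * b) x := by
  have := (Co.Md.conj ha h').trans h
  rwa [show a * (b * x * b⁻¹) * a⁻¹ = a * b * x * (a * b)⁻¹ by group] at this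

variable {D} in
theorem Fx.bk_inv {a x : G} (ha : a ∈ D.H) (h : D.Fx a x) : D.Fx a⁻¹ x := by
  have := (Co.Md.conj (inv_mem ha) h).symm
  rwa [show a⁻¹ * (a * x * a⁻¹) * a⁻¹⁻¹ = x by group] at this

variable {D} in
theorem Fx.bk_conj {a h x : G} (hh : h ∈ D.H) (h' : D.Fx a x) : D.Fx (h * a * h⁻¹) (h * x * h⁻¹) := by
  have := Co.Md.conj hh h'
  rwa [show h * (a * x * a⁻¹) * h⁻¹ = h * a * h⁻¹ * (h * x * h⁻¹) * (h * a * h⁻¹)⁻¹ by group] at this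

theorem bk_fx_of_comm {a x : G} (h : a * x = x * a) : D.Fx a x := Or.inl (by rw [h, mul_inv_cancel_right])

/-- the members of `Q` fixed modulo `z` -/
def bkF {h : G} (hh : h ∈ D.H) : Subgroup G where
  carrier := {q | q ∈ D.Q ∧ D.Fx h q}
  one_mem' := ⟨one_mem _, D.bk_fx_of_comm (by simp)⟩
  mul_mem' := fun {a b} ha hb => ⟨mul_mem ha.1 hb.1, by
    have := Co.Md.mul (D.Q_le_H hb.1) ha.2 hb.2
    rwa [conj_mul] at this⟩
  inv_mem' := fun {a} ha => ⟨inv_mem ha.1, by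
    have := Co.Md.inv (D.Q_le_H ha.1) ha.2
    rwa [conj_inv] at this⟩

theorem bk_cen {y : G} (hy : y ∈ D.L) (hq : y ∈ D.Q) (h : ∀ b ∈ D.L, b ∈ D.Q → y * b = b * y) : y ∈ D.Zs := by
  have h1 : ∀ u v : N0, be (D.ph y) (u, v, 0) = 0 := fun u v => by
    obtain ⟨b, hb, e⟩ := D.ph_surj (u, v, 0)
    rw [← e, ← D.comm_iff hy hb]
    exact h b hb ((D.mem_Q hb).2 (by rw [e]))
  have h2 := (D.mem_Q hy).1 hq
  refine D.ph_ker hy ?_
  revert h1 h2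
  generalize D.ph y = a
  obtain ⟨a, b, c⟩ := a
  rintro h1 rfl
  have := (by decide +kernel : ∀ a b : N0, (∀ v, be (a, b, 0) (v, 0, 0) = 0) → (∀ v, be (a, b, 0) (0, v, 0) = 0) →
    a = 0 ∧ b = 0) a b (fun v => h1 v 0) (h1 0)
  rw [this.1, this.2]; rfl

/-- an element of order three over `tv w · rh s` lies in `Q s` -/
theorem bk_modQ {y s : G} (hy : y ∈ D.K) (hs : s ∈ D.K) (hs' : s ∈ D.H) (y1 : D.pi y = 1) (s1 : D.pi s = 1)
    (y3 : y ^ 3 = 1) (s3 : s ^ 3 = 1) {w : W0} (hw : w.cd < 4) (e : D.rh y = mm (tv w) (D.rh s)) :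
    ∃ q ∈ D.Q, y = q * s := by
  obtain ⟨q, hq, e1⟩ := D.surj_Q w hw
  have hq' := D.Q_le_K hq
  have hl : (q * s)⁻¹ * y ∈ D.L := (D.coset_L (mul_mem hq' hs)).2
    ⟨hy, by rw [D.pi_mul hq' hs, D.pi_Q hq, y1, s1, mul_one], by rw [D.rh_mul hq' hs, e1, e]⟩
  obtain ⟨l, hl', rfl⟩ : ∃ l ∈ D.L, y = q * (s * l) := ⟨_, hl, by group⟩
  have h1 := pow_mul_inv_mem_of_norm hq (t := s * l) (mem_normalizer_iff.2 fun x =>
    ⟨D.conj_Q (mul_mem hs' (D.L_le_H hl')), fun hx => by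
      simpa [mul_assoc] using D.bk_conj' (mul_mem hs' (D.L_le_H hl')) hx⟩) 3
  rw [y3, one_mul, inv_mem_iff] at h1
  have c1 := D.conj_mem_L hs hl'
  have c2 := D.conj_mem_L hs c1
  rw [show (s * l) ^ 3 = s * l * s⁻¹ * (s * (s * l * s⁻¹) * s⁻¹) * s ^ 3 * l by
    simp only [pow_three]; group, s3, mul_one, D.mem_Q (mul_mem (mul_mem c1 c2) hl'),
    D.ph_mul (mul_mem c1 c2) hl', D.ph_mul c1 c2] at h1
  simp only [Prod.snd_add, last_conj _ hs hs' c1, last_conj _ hs hs' hl', s1, act_one, N0.add_self, zero_add] at h1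
  exact ⟨q * (s * l * s⁻¹), mul_mem hq (D.conj_Q hs' ((D.mem_Q hl').2 h1)), by group⟩

/-- `a ∈ [r, Q]` modulo `z` -/
def bkCm (r a : G) : Prop := ∃ q ∈ D.Q, D.Md a (r * q * r⁻¹ * q⁻¹)

theorem bk_inD_of {r a : G} (hr : r ∈ D.L) (h : D.bkCm r a) : D.InD (D.ph r).2.2 a := by
  obtain ⟨q, hq, e⟩ := h
  obtain ⟨w, hw, e1⟩ := D.rh_Q hq
  have c1 := D.conj_mem_L (D.Q_le_K hq) (inv_mem hr)
  rw [show r * q * r⁻¹ * q⁻¹ = r * (q * r⁻¹ * q⁻¹) by group] at e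
  obtain ⟨h1, h2⟩ := md_ph (mul_mem hr c1) e
  refine ⟨h1, bit w 0, bit w 1, ?_⟩
  rw [h2, D.ph_mul hr c1, D.conj_ph (D.Q_le_K hq) (inv_mem hr), D.pi_Q hq, e1, ac_one, lin_tv hw, D.ph_inv hr]
  refine Prod.ext ?_ (Prod.ext ?_ ?_) <;> simp [← add_assoc, N0.add_self]

theorem bk_of_inD {r a : G} (hr : r ∈ D.L) (hr0 : r ∉ D.Q) (h : D.InD (D.ph r).2.2 a) : D.bkCm r a := by
  obtain ⟨ha, b0, b1, e⟩ := h
  obtain ⟨hw, w0, w1⟩ := (by decide : ∀ b0 b1, (mkW b0 b1 false).cd < 4 ∧ bit (mkW b0 b1 false) 0 = b0 ∧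
    bit (mkW b0 b1 false) 1 = b1) b0 b1
  obtain ⟨q, hq, e1⟩ := D.surj_Q _ hw
  have c1 := D.conj_mem_L (D.Q_le_K hq) (inv_mem hr)
  obtain ⟨c, hc⟩ := D.ph_eq ha (mul_mem hr c1) (by
    rw [e, D.ph_mul hr c1, D.conj_ph (D.Q_le_K hq) (inv_mem hr), D.pi_Q hq, e1, ac_one, lin_tv hw, D.ph_inv hr,
      w0, w1]
    refine Prod.ext ?_ (Prod.ext ?_ ?_) <;> simp [← add_assoc, N0.add_self])
  obtain ⟨v, hv⟩ := nondeg _ (mt (D.mem_Q hr).2 hr0)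
  obtain ⟨l, hl, e2⟩ := D.ph_surj (sm (bit c 1) v, sm (bit c 0) v, 0)
  have lQ : l ∈ D.Q := (D.mem_Q hl).2 (by rw [e2])
  have aQ : r * (q * r⁻¹ * q⁻¹) ∈ D.Q := by
    simpa only [mul_assoc] using mul_mem (D.conj_Q (D.L_le_H hr) hq) (inv_mem hq)
  refine ⟨l * q, mul_mem lQ hq, ?_⟩
  have hB : ∀ b, B0 (D.ph r).2.2 (sm b v) = b := fun b => by cases b <;> simp [sm, hv, B0_zero_right]
  have h1 : D.Md (D.ze c) (D.ze (be (D.ph r) (D.ph l))) := (md_ze' _).2 (by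
    rw [e2, be]
    simp only [hB, B0_zero_right, Bool.false_xor, Bool.xor_false]
    exact (by decide : ∀ (c : W0) x, c = mkW (bit c 0) (bit c 1) x ∨ c = mkW (bit c 0) (bit c 1) x + wv 4) c _)
  have h2 := (D.bk_fxQ lQ aQ).symm.mul (D.L_le_H (D.ze_mem _)) h1
  rw [← hc] at h2
  rwa [show r * (l * q) * r⁻¹ * (l * q)⁻¹ = r * l * r⁻¹ * (r * (q * r⁻¹ * q⁻¹) * l⁻¹) by group, D.conj_L hr hl,
    mul_assoc l, ← D.ze_comm_L (mul_mem (mul_mem hr c1) (inv_mem hl)), ← mul_assoc, ← mul_assoc l]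

end Qd

end Cfsg.Agent.J4K
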