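/-
Project J4K: the groups `E`, `U`, `X0`.
-/
import Cfsg.Agent.J4K.Basic

set_option autoImplicit false

namespace Cfsg.Agent.J4K

open Subgroup Equiv Cfsg.Agent.H70

theorem card_of_hom {G B : Type*} [Group G] [Group B] {A N : Subgroup G} (hN : N ≤ A) (f : A →* B)
    (hk : ∀ a : A, f a = 1 ↔ (a : G) ∈ N) : Nat.card A = Nat.card N * Nat.card f.range := by
  have h1 : f.ker = N.subgroupOf A := by ext a; exact hk a
  rw [← f.ker.card_mul_index, index_ker, h1, Nat.card_congr (subgroupOfEquivOfLe hN).toEquiv]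

/-- an element of order four of `D0` -/
def g4 : Perm (Fin 5) := swap 0 3 * swap 0 1 * swap 0 2
/-- double transposition -/
def v1 : Perm (Fin 5) := swap 0 1 * swap 2 3
/-- double transposition -/
def v2 : Perm (Fin 5) := swap 0 2 * swap 1 3
/-- the members of `D0` -/
def dl : List (Perm (Fin 5)) := [1, v1, v2, v1 * v2, th, th * v1, g4, g4 * v1]
theorem mem_dl {s : Perm (Fin 5)} (hs : s ∈ D0) : s ∈ dl := by
  obtain ⟨r, hr, h⟩ := perm_forall (P := fun f => actF f (nv 1) = nv 1 → ∃ r ∈ dl, ∀ i, f i = r i)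
    (by decide +kernel) s hs
  rwa [show s = r from Equiv.ext h]
theorem V4_cases {s : Perm (Fin 5)} (hs : s ∈ V4) : s = 1 ∨ s = v1 ∨ s = v2 ∨ s = v1 * v2 := by
  have h : ∀ s ∈ dl, s ∈ V4 → s = 1 ∨ s = v1 ∨ s = v2 ∨ s = v1 * v2 := by decide +kernel
  exact h s (mem_dl hs.1) hs
theorem v1_mem : v1 ∈ V4 := by decide +kernel
theorem v2_mem : v2 ∈ V4 := by decide +kernel
theorem g4_mem : g4 ∈ D0 := by decide +kernel
theorem g4_fix {c : N0} (h : act g4 c = c) : c = 0 ∨ c = nv 1 := by revert c; decide +kernel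
theorem V4_four {s : Perm (Fin 5)} (hs : s ∈ V4) : s 4 = 4 := by
  rcases V4_cases hs with rfl | rfl | rfl | rfl <;> decide
theorem V4_comm {s r : Perm (Fin 5)} (hs : s ∈ V4) (hr : r ∈ V4) : s * r = r * s := by
  rcases V4_cases hs with rfl | rfl | rfl | rfl <;> rcases V4_cases hr with rfl | rfl | rfl | rfl <;> decide
theorem ell_of_fix {s : Perm (Fin 5)} (hs : s ∈ V4) (h1 : s ≠ 1) {c : N0} (h : act s c = c) : Ell c := by
  revert c
  rcases V4_cases hs with rfl | rfl | rfl | rfl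
  exacts [absurd rfl h1, by decide +kernel, by decide +kernel, by decide +kernel]
theorem ell_act {s : Perm (Fin 5)} (hs : s 4 = 4) {c : N0} (h : Ell c) : Ell (act s c) :=
  perm_forall (P := fun f => f 4 = 4 → ∀ c, Ell c → Ell (actF f c)) (by decide +kernel) s hs c h
theorem conj_V4 {s v : Perm (Fin 5)} (hs : s 4 = 4) (hv : v ∈ V4) : s * v * s⁻¹ ∈ V4 := by
  have h : s⁻¹ 4 = 4 := Perm.inv_eq_iff_eq.2 hs.symm
  constructor <;> rw [act_mul, act_mul, act_V4 hv (ell_act h (by decide)), act_act_inv]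
theorem four_of_conj {s : Perm (Fin 5)} (h : s * v1 * s⁻¹ ∈ V4) : s 4 = 4 := by
  have h1 := V4_four h
  have h2 : ∀ i, v1 i = i → i = 4 := by decide
  rw [Perm.mul_apply, Perm.mul_apply, ← Perm.eq_inv_iff_eq] at h1
  exact (Perm.inv_eq_iff_eq.1 (h2 _ h1)).symm
theorem eq_one_of_act {s : Perm (Fin 5)} (h : ∀ c, act s c = c) : s = 1 :=
  Equiv.ext (perm_forall (P := fun f => actF f (nv 1) = nv 1 → actF f (nv 2) = nv 2 → actF f (nv 4) = nv 4 →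
    ∀ i, f i = i) (by decide +kernel) s (h _) (h _) (h _))
theorem mem_D0_of_norm {s : Perm (Fin 5)} (h : s⁻¹ * g4 * s ∈ D0) : s ∈ D0 := by
  rw [mem_D0, act_mul, act_mul] at h
  have h1 := congrArg (act s) h
  rw [act_act_inv] at h1
  exact (g4_fix h1).resolve_left fun e => absurd (act_eq_zero e) (by decide)
theorem B0_ell {c d : N0} (hc : Ell c) (hd : Ell d) : B0 c d = false := by revert c d; decide
theorem ell_add {c d : N0} (hc : Ell c) (hd : Ell d) : Ell (c + d) := by revert c d; decide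
theorem mkW_zero : mkW false false false = 0 := by decide
theorem ncard_ell : Set.ncard {u : N0 | Ell u} = 4 := by
  rw [Set.ncard_eq_toFinset_card']; decide

namespace Co

variable {G : Type*} [Group G] (C : Co G)

theorem md_iff {a b : G} : C.Md a b ↔ b⁻¹ * a ∈ zpowers C.z := by
  refine ⟨?_, fun ⟨n, hn⟩ => ?_⟩
  · rintro (rfl | rfl)
    · rw [inv_mul_cancel]; exact one_mem _
    · rw [inv_mul_cancel_left]; exact mem_zpowers _
  · have h : C.z ^ n = C.z ^ (n % 2) := by rw [← zpow_mod_orderOf, C.orderOf_z]; rfl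
    change C.z ^ n = _ at hn
    rcases Int.emod_two_eq_zero_or_one n with e | e <;> rw [h, e] at hn
    · exact Or.inl (inv_mul_eq_one.1 (hn.symm.trans (zpow_zero _))).symm
    · exact Or.inr (by rw [zpow_one] at hn; rw [hn, mul_inv_cancel_left])
theorem md_one_iff {a : G} : C.Md a 1 ↔ a ∈ zpowers C.z := by rw [C.md_iff, inv_one, one_mul]
theorem card_z : Nat.card (zpowers C.z) = 2 := by rw [Nat.card_zpowers, C.orderOf_z]
theorem ph_z : C.ph C.z = 0 := C.ph_ze _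
variable {C} in
theorem Md.ph_eq {a b : G} (h : C.Md a b) (hb : b ∈ C.L) : C.ph a = C.ph b := by
  rcases h with rfl | rfl
  exacts [rfl, by rw [C.ph_mul hb C.z_mem_L, C.ph_z, add_zero]]
variable {C} in
theorem Md.pi_eq {a b : G} (h : C.Md a b) (hb : b ∈ C.K) : C.pi a = C.pi b := by
  rcases h with rfl | rfl
  exacts [rfl, by rw [C.pi_mul hb (C.L_le C.z_mem_L), C.pi_L C.z_mem_L, mul_one]]
variable {C} in
theorem Md.rh_eq {a b : G} (h : C.Md a b) (hb : b ∈ C.K) : C.rh a = C.rh b := by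
  rcases h with rfl | rfl
  exacts [rfl, by rw [C.rh_mul hb (C.L_le C.z_mem_L), C.rh_L C.z_mem_L, mm_e3]]
variable {C} in
theorem Md.mul_left {a b : G} (c : G) (h : C.Md a b) : C.Md (c * a) (c * b) := by
  rcases h with rfl | rfl
  exacts [Or.inl rfl, Or.inr (mul_assoc _ _ _).symm]
variable {C} in
theorem Md.mul_right {a b c : G} (hc : c ∈ C.H) (h : C.Md a b) : C.Md (a * c) (b * c) :=
  Md.mul hc h (Md.refl C c)
theorem md_z : C.Md C.z 1 := Or.inr (one_mul _).symm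
theorem z_mem_H : C.z ∈ C.H := C.L_le_H C.z_mem_L
variable {C} in
theorem Md.mem_L {a b : G} (h : C.Md a b) (hb : b ∈ C.L) : a ∈ C.L := h.mem C.z_mem_L hb
variable {C} in
theorem Md.ph_zero {a : G} (h : C.Md a 1) : C.ph a = 0 := (h.ph_eq (one_mem _)).trans C.ph_one

end Co

namespace Sec

variable {G : Type*} [Group G] (S : Sec G)

theorem ph_p {a : G} (ha : a ∈ S.L) : S.ph (S.p * a * S.p⁻¹) = lin tp (S.ph a) := by
  rw [S.conj_ph S.p_mem ha, S.pi_p, S.rh_p, ac_one]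
theorem ph_E {e : G} (he : e ∈ S.E) : (S.ph e).1 = 0 ∧ (S.ph e).2.1 = 0 := by
  have h := S.ph_p he.1
  rw [← (S.mem_E.1 he).2, mul_inv_cancel_right, lin_tp] at h
  have h1 : (S.ph e).1 = 0 := right_eq_add.1 (congrArg (fun v : U0 => v.2.1) h)
  exact ⟨h1, (congrArg Prod.fst h).symm.trans h1⟩
theorem ph_E' {e : G} (he : e ∈ S.E) : S.ph e = (0, 0, (S.ph e).2.2) :=
  Prod.ext (S.ph_E he).1 (Prod.ext (S.ph_E he).2 rfl)
theorem md_of_ph {e f : G} (he : e ∈ S.E) (hf : f ∈ S.E) (h : (S.ph e).2.2 = (S.ph f).2.2) : S.Md e f := by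
  obtain ⟨c, rfl⟩ := S.ph_eq he.1 hf.1 (by rw [S.ph_E' he, S.ph_E' hf, h])
  have h1 := (S.mem_E.1 ((mul_mem_cancel_left hf).1 he)).2
  have h2 := S.conj_ze S.p_mem c
  rw [← h1, mul_inv_cancel_right, S.rh_p] at h2
  have h3 : ∀ c, c = zc tp c → c = 0 ∨ c = wv 4 := by decide
  rcases h3 c (S.ze_inj h2) with rfl | rfl
  exacts [Or.inl (by rw [S.ze_zero, mul_one]), Or.inr rfl]
theorem ce_el (u : N0) : (S.ph (S.el u)).2.2 = u := by rw [S.ph_el]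
theorem md_el {e : G} (he : e ∈ S.E) : S.Md e (S.el (S.ph e).2.2) :=
  S.md_of_ph he (S.el_mem_E _) (S.ce_el _).symm
theorem md_one_of_ce {e : G} (he : e ∈ S.E) (h : (S.ph e).2.2 = 0) : S.Md e 1 :=
  S.md_of_ph he (one_mem _) (by rw [h, S.ph_one]; rfl)
theorem E_sq {e : G} (he : e ∈ S.E) : e * e = 1 := by
  rw [S.sq he.1, S.ph_E' he, qq]
  simp only [B0_zero_left, B0_zero_right, mkW_zero, S.ze_zero]
theorem E_comm {e f : G} (he : e ∈ S.E) (hf : f ∈ S.E) : e * f = f * e := by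
  rw [S.comm_iff he.1 hf.1, S.ph_E' he, S.ph_E' hf, be]
  simp only [B0_zero_left, B0_zero_right, Bool.xor_false, mkW_zero]
theorem card_inf_E {A : Subgroup G} (hz : S.z ∈ A) :
    Nat.card (A ⊓ S.E : Subgroup G) = 2 * Set.ncard {u | S.el u ∈ A} := by
  let f : (A ⊓ S.E : Subgroup G) →* Multiplicative N0 :=
    MonoidHom.mk' (fun a => Multiplicative.ofAdd (S.ph a).2.2) fun a b => by
      rw [← ofAdd_add, Subgroup.coe_mul, S.ph_mul a.2.2.1 b.2.2.1]; rfl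
  rw [card_of_hom (N := zpowers S.z) (zpowers_le.2 (mem_inf.2 ⟨hz, S.z_mem_E⟩)) f fun a =>
    ⟨fun h => S.md_one_iff.1 (S.md_one_of_ce a.2.2 h), fun h => by
      change Multiplicative.ofAdd _ = 1; rw [(S.md_one_iff.2 h).ph_zero]; rfl⟩, S.card_z]
  congr 1
  change Set.ncard (f.range : Set (Multiplicative N0)) = Set.ncard (α := Multiplicative N0) {u | S.el u ∈ A}
  congr 1
  ext u
  exact ⟨by rintro ⟨a, rfl⟩; exact (S.md_el a.2.2).symm.mem hz a.2.1,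
    fun h => ⟨⟨S.el u, h, S.el_mem_E u⟩, S.ce_el u⟩⟩
theorem card_E : Nat.card S.E = 32 := by
  have := S.card_inf_E S.z_mem_E
  rwa [inf_idem, show {u | S.el u ∈ S.E} = Set.univ from Set.eq_univ_of_forall S.el_mem_E, Set.ncard_univ,
    card_N0] at this
theorem mem_E_of_pi {A : Subgroup (Perm (Fin 5))} {g : G} (hg : g ∈ S.XA A) (h : S.pi g = 1) : g ∈ S.E :=
  S.mem_E.2 ⟨(S.mem_L hg.1).2 ⟨h, hg.2.2.1⟩, hg.2.1⟩
theorem XA_dec {A : Subgroup (Perm (Fin 5))} {g : G} (hg : g ∈ S.XA A) :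
    ∃ e ∈ S.E, g = e * S.sg (S.pi g) :=
  ⟨g * (S.sg (S.pi g))⁻¹, S.mem_E_of_pi (mul_mem hg (inv_mem (S.sg_mem_XA hg.2.2.2))) (by
    rw [S.pi_mul hg.1 (inv_mem (S.sg_mem _)), S.pi_inv (S.sg_mem _), S.pi_sg, mul_inv_cancel]), by group⟩
theorem card_le_X0 {B : Subgroup G} (hB : B ≤ S.X0) : Nat.card B =
    Nat.card (B ⊓ S.E : Subgroup G) * Nat.card (S.piH B (hB.trans (S.XA_le_K _))).range :=
  card_of_hom inf_le_left _ fun a => ⟨fun h => ⟨a.2, S.mem_E_of_pi (hB a.2) h⟩, fun h => S.pi_L h.2.1⟩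
theorem card_XA (A : Subgroup (Perm (Fin 5))) : Nat.card (S.XA A) = 32 * Nat.card A := by
  rw [S.card_le_X0 (S.XA_mono le_top), inf_eq_right.2 (S.E_le_XA A), S.card_E]
  rw [show (S.piH (S.XA A) _).range = A from Subgroup.ext fun s =>
    ⟨by rintro ⟨a, rfl⟩; exact a.2.2.2.2, fun h => ⟨⟨_, S.sg_mem_XA h⟩, S.pi_sg s⟩⟩]
theorem card_T0 : Nat.card S.T0 = 256 := by rw [S.card_XA, card_D0]
theorem card_X0 : Nat.card S.X0 = 3840 := by
  rw [S.card_XA, card_top, Nat.card_perm, Nat.card_fin]; rfl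
theorem isPGroup_T0 : IsPGroup 2 S.T0 := IsPGroup.of_card (n := 8) S.card_T0
theorem rh_p_pow (i : ℕ) : S.rh (S.p ^ i) = mpow tp i := by rw [S.rh_pow S.p_mem, S.rh_p]
theorem XK_dec3 {g : G} (hg : g * S.p = S.p * g) (hK : g ∈ S.K) :
    ∃ i : Fin 3, ∃ g0 ∈ S.X0, g = S.p ^ i.1 * g0 := by
  have h : ∀ t : M3, Inv3 t → mm t tp = mm tp t → ∃ i : Fin 3, t = mpow tp i.1 :=
    mat_forall (by decide +kernel)
  obtain ⟨i, hi⟩ := h _ (S.rh_inv3 hK) (by rw [← S.rh_p, ← S.rh_mul hK S.p_mem, hg, S.rh_mul S.p_mem hK])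
  have h1 := pow_mem S.p_mem i.1
  refine ⟨i, (S.p ^ i.1)⁻¹ * g, ⟨mul_mem (inv_mem h1) hK,
    ((Commute.refl S.p).pow_left _).inv_left.mul_left hg, ?_, mem_top _⟩, by group⟩
  rw [S.rh_mul (inv_mem h1) hK, hi, ← S.rh_p_pow, S.rh_inv_mul h1]
theorem XK_dec {g : G} (hg : g ∈ S.X) (hK : g ∈ S.K) : ∃ i : ℕ, ∃ g0 ∈ S.X0, g = S.p ^ i * g0 :=
  let ⟨i, h⟩ := S.XK_dec3 (S.mem_X.1 hg).2 hK; ⟨i, h⟩
theorem rh_p_X0 (i : ℕ) {g : G} (hg : g ∈ S.X0) : S.rh (S.p ^ i * g) = mpow tp i := by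
  rw [S.rh_mul (pow_mem S.p_mem _) hg.1, hg.2.2.1, mm_e3, S.rh_p_pow]
theorem mem_X0_of_two {g : G} (hg : g ∈ S.X) (hK : g ∈ S.K) {n : ℕ} (h2 : g ^ 2 ^ n = 1) : g ∈ S.X0 := by
  obtain ⟨i, g0, h0, rfl⟩ := S.XK_dec hg hK
  have hc : Commute (S.p ^ i) g0 := (show Commute g0 S.p from h0.2.1).symm.pow_left i
  rw [hc.mul_pow, ← pow_mul, ← pow_mod_orderOf, S.orderOf_p] at h2
  have h3 := S.rh_p_X0 (i * 2 ^ n % 3) (pow_mem h0 (2 ^ n))
  rw [h2, S.rh_one] at h3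
  have h4 : ∀ j < 3, e3 = mpow tp j → j = 0 := by decide
  have h5 : 3 ∣ i := (Nat.Coprime.pow_right n (by norm_num : Nat.Coprime 3 2)).dvd_of_dvd_mul_right
    (Nat.dvd_of_mod_eq_zero (h4 _ (Nat.mod_lt _ (by norm_num)) h3))
  rwa [orderOf_dvd_iff_pow_eq_one.1 (S.orderOf_p ▸ h5), one_mul]
theorem card_three {A : Subgroup G} (hp : S.p ∈ A) (hA : A ≤ S.X ⊓ S.K) :
    Nat.card A = 3 * Nat.card (A ⊓ S.X0 : Subgroup G) := by
  let f : Fin 3 × (A ⊓ S.X0 : Subgroup G) → A := fun x => ⟨S.p ^ x.1.1 * x.2, mul_mem (pow_mem hp _) x.2.2.1⟩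
  have h : ∀ i j : Fin 3, mpow tp i.1 = mpow tp j.1 → i = j := by decide
  have hf : Function.Bijective f := by
    refine ⟨fun ⟨i, a⟩ ⟨j, b⟩ e => ?_, fun a => ?_⟩
    · have e : S.p ^ i.1 * a = S.p ^ j.1 * b := congrArg Subtype.val e
      obtain rfl := h i j (by rw [← S.rh_p_X0 _ a.2.2, e, S.rh_p_X0 _ b.2.2])
      exact Prod.ext rfl (Subtype.ext (mul_left_cancel e))
    · obtain ⟨i, g, hg, e⟩ := S.XK_dec3 (S.mem_X.1 (hA a.2).1).2 (hA a.2).2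
      exact ⟨(i, ⟨g, (mul_mem_cancel_left (pow_mem hp i.1)).1 (e ▸ a.2), hg⟩), Subtype.ext e.symm⟩
  rw [← Nat.card_congr (Equiv.ofBijective f hf), Nat.card_prod, Nat.card_fin]
theorem X0_le_XK : S.X0 ≤ S.X ⊓ S.K := le_inf (S.XA_le_X _) (S.XA_le_K _)
theorem card_XK : Nat.card (S.X ⊓ S.K : Subgroup G) = 11520 := by
  rw [S.card_three (mem_inf.2 ⟨S.p_mem_X, S.p_mem⟩) le_rfl, inf_eq_right.2 S.X0_le_XK, S.card_X0]
theorem conj_mem_E {g e : G} (hg : g ∈ S.X) (hK : g ∈ S.K) (he : e ∈ S.E) : g * e * g⁻¹ ∈ S.E :=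
  have h : Commute g S.p := (S.mem_X.1 hg).2
  S.mem_E.2 ⟨S.conj_mem_L hK he.1, (h.mul_left (S.mem_E.1 he).2).mul_left h.inv_left⟩
theorem conj_mem_E0 {g e : G} (hg : g ∈ S.X0) (he : e ∈ S.E) : g * e * g⁻¹ ∈ S.E :=
  S.conj_mem_E (S.XA_le_X _ hg) hg.1 he
theorem ce_conj {g e : G} (hg : g ∈ S.K) (h : S.rh g = e3) (he : e ∈ S.L) :
    (S.ph (g * e * g⁻¹)).2.2 = act (S.pi g) (S.ph e).2.2 := by rw [S.conj_ph hg he, h, ac_e3]
theorem ce_sg (s : Perm (Fin 5)) {e : G} (he : e ∈ S.L) :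
    (S.ph (S.sg s * e * (S.sg s)⁻¹)).2.2 = act s (S.ph e).2.2 := by
  rw [S.ce_conj (S.sg_mem s) (S.rh_sg s) he, S.pi_sg]
theorem ce_mul {a b : G} (ha : a ∈ S.L) (hb : b ∈ S.L) :
    (S.ph (a * b)).2.2 = (S.ph a).2.2 + (S.ph b).2.2 := by rw [S.ph_mul ha hb]; rfl
theorem conj_el {g : G} (hg : g ∈ S.X0) (u : N0) :
    S.Md (g * S.el u * g⁻¹) (S.el (act (S.pi g) u)) :=
  S.md_of_ph (S.conj_mem_E0 hg (S.el_mem_E u)) (S.el_mem_E _)
    (by rw [S.ce_conj hg.1 hg.2.2.1 (S.el_mem u), S.ce_el, S.ce_el])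
theorem sg_X0 (s : Perm (Fin 5)) : S.sg s ∈ S.X0 := S.sg_mem_XA (mem_top s)
theorem trans_E {e : G} (he : e ∈ S.E) (h1 : ¬ S.Md e 1) :
    ∃ g ∈ S.X0, S.Md (g * S.el (nv 1) * g⁻¹) e := by
  obtain ⟨s, hs⟩ := act_trans fun h => h1 (S.md_one_of_ce he h)
  exact ⟨_, S.sg_X0 s, (S.conj_el (S.sg_X0 s) _).trans (by rw [S.pi_sg, hs]; exact (S.md_el he).symm)⟩
theorem U_cent {u a : G} (hu : u ∈ S.U) (ha : a ∈ S.L) (h0 : Ell (S.ph a).1) (h1 : Ell (S.ph a).2.1)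
    (h2 : Ell (S.ph a).2.2) : u * a = a * u := by
  obtain ⟨s, hs, e, he, a0, a1, a2, rfl⟩ := hu
  refine Commute.mul_left ((S.comm_iff he.1 ha).2 ?_) (S.sg_cent s hs a ha h0 h1 h2)
  simp only [be, B0_ell, h0, h1, h2, a0, a1, a2, Bool.xor_false, mkW_zero]
theorem U_sq {u : G} (hu : u ∈ S.U) : u * u = 1 := by
  obtain ⟨s, hs, e, he, a0, a1, a2, rfl⟩ := hu
  rw [mul_assoc, ← mul_assoc (S.sg s), S.sg_cent s hs e he.1 a0 a1 a2, mul_assoc, ← map_mul, V4_sq hs, map_one,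
    mul_one, S.E_sq he]
theorem U_comm {u v : G} (hu : u ∈ S.U) (hv : v ∈ S.U) : u * v = v * u := by
  have h := S.U_sq (mul_mem hu hv)
  rw [eq_inv_of_mul_eq_one_left h, mul_inv_rev,
    ← eq_inv_of_mul_eq_one_left (S.U_sq hu), ← eq_inv_of_mul_eq_one_left (S.U_sq hv)]
theorem mem_U_of {s : Perm (Fin 5)} (hs : s ∈ V4) {e : G} (he : e ∈ S.E) (h : Ell (S.ph e).2.2) :
    e * S.sg s ∈ S.U :=
  ⟨s, hs, e, he, by rw [(S.ph_E he).1]; decide, by rw [(S.ph_E he).2]; decide, h, rfl⟩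
theorem pi_E_sg {e : G} (he : e ∈ S.E) (s : Perm (Fin 5)) : S.pi (e * S.sg s) = s := by
  rw [S.pi_mul (S.L_le he.1) (S.sg_mem s), S.pi_L he.1, S.pi_sg, one_mul]
theorem mem_E_inf_U {e : G} (he : e ∈ S.E) : e ∈ S.U ↔ Ell (S.ph e).2.2 := by
  refine ⟨?_, fun h => by simpa using S.mem_U_of (one_mem _) he h⟩
  rintro ⟨s, -, f, hf, -, -, a2, rfl⟩
  rwa [← S.pi_E_sg hf s, S.pi_L he.1, map_one, mul_one]
theorem el_mem_U {u : N0} (hu : Ell u) : S.el u ∈ S.U :=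
  (S.mem_E_inf_U (S.el_mem_E u)).2 (by rwa [S.ce_el])
theorem sg_mem_U {s : Perm (Fin 5)} (hs : s ∈ V4) : S.sg s ∈ S.U := by
  simpa using S.mem_U_of hs (one_mem _) (by rw [S.ph_one]; decide)
theorem U_le_X0 : S.U ≤ S.X0 := S.U_le_XA.trans (S.XA_mono le_top)
theorem card_U_inf_E : Nat.card (S.U ⊓ S.E : Subgroup G) = 8 := by
  rw [S.card_inf_E S.z_mem_U, show {u | S.el u ∈ S.U} = {u | Ell u} from Set.ext fun u => by
    change S.el u ∈ S.U ↔ Ell u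
    rw [S.mem_E_inf_U (S.el_mem_E u), S.ce_el], ncard_ell]
theorem card_U : Nat.card S.U = 32 := by
  rw [S.card_le_X0 S.U_le_X0, S.card_U_inf_E, show (S.piH S.U _).range = V4 from Subgroup.ext fun s =>
    ⟨by rintro ⟨a, rfl⟩; exact (S.U_le_XA a.2).2.2.2, fun h => ⟨⟨_, S.sg_mem_U h⟩, S.pi_sg s⟩⟩, card_V4]

end Sec

end Cfsg.Agent.J4K
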