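/-
Project J4K: the structure of `X ∩ K`.
-/
import Cfsg.Agent.J4K.XLocA

set_option autoImplicit false

namespace Cfsg.Agent.J4K

open Subgroup Equiv Cfsg.Agent.H70

namespace Sec

variable {G : Type*} [Group G] (S : Sec G)

theorem act_fix_of_sq {a e : G} (ha : a ∈ S.X0) (he : e ∈ S.L) (h1 : S.Md (a * a) 1)
    (h2 : S.Md (a * e * (a * e)) 1) : act (S.pi a) (S.ph e).2.2 = (S.ph e).2.2 := by
  have h3 := h2.ph_zero
  have l1 := S.conj_mem_L ha.1 he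
  have l2 := h1.mem_L (one_mem _)
  rw [show a * e * (a * e) = a * e * a⁻¹ * (a * a) * e by group, S.ph_mul (mul_mem l1 l2) he, S.ph_mul l1 l2,
    h1.ph_zero, add_zero] at h3
  rw [← S.ce_conj ha.1 ha.2.2.1 he, U0.eq_of_add h3]
theorem pi_sq_of_md {a : G} (ha : a ∈ S.K) (h : S.Md (a * a) 1) : S.pi a * S.pi a = 1 := by
  rw [← S.pi_mul ha ha, h.pi_eq (one_mem _), S.pi_one]

variable [Finite G]

theorem star {A : Subgroup G} (hA : A ≤ S.T0) (hz : S.z ∈ A) (hc : 32 ≤ Nat.card A)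
    (hs : ∀ a ∈ A, S.Md (a * a) 1) : A = S.E ∨ A = S.U := by
  classical
  have hA0 : A ≤ S.X0 := hA.trans (S.XA_mono le_top)
  have hfix : ∀ a ∈ A, ∀ u, S.el u ∈ A → act (S.pi a) u = u := fun a ha u hu => by
    have := S.act_fix_of_sq (hA0 ha) (S.el_mem u) (hs a ha) (hs _ (mul_mem ha hu))
    rwa [S.ce_el] at this
  have h1 := S.card_le_X0 hA0
  rw [S.card_inf_E hz] at h1
  obtain ⟨P, hP, hP'⟩ : ∃ P : Subgroup (Perm (Fin 5)), (∀ s, s ∈ P ↔ ∃ a ∈ A, S.pi a = s) ∧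
      Nat.card A = 2 * Set.ncard {u | S.el u ∈ A} * Nat.card P :=
    ⟨_, fun s => ⟨by rintro ⟨a, rfl⟩; exact ⟨a, a.2, rfl⟩, by rintro ⟨a, ha, rfl⟩; exact ⟨⟨a, ha⟩, rfl⟩⟩, h1⟩
  have hPD : P ≤ D0 := fun s hs => by obtain ⟨a, ha, rfl⟩ := (hP s).1 hs; exact (hA ha).2.2.2
  have hPf : ∀ s ∈ P, ∀ u, S.el u ∈ A → act s u = u := fun s hs => by
    obtain ⟨a, ha, rfl⟩ := (hP s).1 hs; exact hfix a ha
  by_cases hb : ∀ s ∈ P, s = 1
  · exact Or.inl (eq_of_le_of_card_ge (fun a ha => S.mem_E_of_pi (hA ha) (hb _ ((hP _).2 ⟨a, ha, rfl⟩)))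
      (by rw [S.card_E]; exact hc))
  push Not at hb
  obtain ⟨s, hsP, hs1⟩ := hb
  have h4 : Nat.card P ≤ 4 := by
    have h2 := card_dvd_of_le hPD
    have h3 : Nat.card P ≠ 8 := fun h => by
      obtain ⟨a, ha, e⟩ := (hP g4).1 (eq_of_le_of_card_ge hPD (by rw [h, card_D0]) ▸ g4_mem)
      have := S.pi_sq_of_md (hA ha).1 (hs a ha)
      rw [e] at this
      exact absurd this (by decide)
    rw [card_D0] at h2
    have := Nat.le_of_dvd (by norm_num) h2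
    interval_cases Nat.card P <;> omega
  have h5 : Set.ncard {u | S.el u ∈ A} ≤ 4 := by
    have h : ∀ s ∈ dl, s ≠ 1 → (Finset.univ.filter fun u => act s u = u).card ≤ 4 := by decide +kernel
    refine le_trans ?_ (h s (mem_dl (hPD hsP)) hs1)
    rw [← Set.ncard_coe_finset]
    exact Set.ncard_le_ncard fun u hu => by simpa using hPf s hsP u hu
  obtain ⟨r, hrP, hr1, hrs⟩ : ∃ r ∈ P, r ≠ 1 ∧ r ≠ s := by
    by_contra hn
    have h2 : (P : Set (Perm (Fin 5))) ⊆ {1, s} := fun r hr => by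
      by_contra h3
      simp only [Set.mem_insert_iff, Set.mem_singleton_iff, not_or] at h3
      exact hn ⟨r, hr, h3⟩
    have h3 : Nat.card P ≤ 2 := (Set.ncard_le_ncard h2).trans (by rw [Set.ncard_pair hs1.symm])
    nlinarith
  have h6 : {u | S.el u ∈ A} = {u | Ell u} := by
    have h : ∀ s ∈ dl, ∀ r ∈ dl, s ≠ 1 → r ≠ 1 → r ≠ s → ∀ u, act s u = u → act r u = u → Ell u := by
      decide +kernel
    refine Set.eq_of_subset_of_ncard_le (fun u hu => h s (mem_dl (hPD hsP)) r (mem_dl (hPD hrP)) hs1 hr1 hrs u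
      (hPf s hsP u hu) (hPf r hrP u hu)) ?_
    rw [ncard_ell]; nlinarith
  have h7 : ∀ u, S.el u ∈ A ↔ Ell u := Set.ext_iff.1 h6
  refine Or.inr (eq_of_le_of_card_ge (fun a ha => ?_) (by rw [S.card_U]; exact hc))
  have hv : S.pi a ∈ V4 := ⟨hfix a ha _ ((h7 _).2 (by decide)), hfix a ha _ ((h7 _).2 (by decide))⟩
  obtain ⟨e, he, h⟩ := S.XA_dec (hA ha)
  rw [h]
  refine S.mem_U_of hv he ?_
  by_cases h1 : S.pi a = 1
  · rw [h1, map_one, mul_one] at h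
    exact (h7 _).1 ((S.md_el he).symm.mem hz (h ▸ ha))
  · have h2 := S.act_fix_of_sq (S.sg_X0 (S.pi a)) he.1 (Or.inl (by rw [← map_mul, V4_sq hv, map_one])) (by
      have := (hs a ha).conj (S.X_le_H (S.XA_le_X _ (S.sg_X0 (S.pi a))))
      rw [mul_one, mul_inv_cancel] at this
      rwa [show S.sg (S.pi a) * e * (S.sg (S.pi a) * e) =
        S.sg (S.pi a) * (e * S.sg (S.pi a) * (e * S.sg (S.pi a))) * (S.sg (S.pi a))⁻¹ by group, ← h])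
    rw [S.pi_sg] at h2
    exact ell_of_fix hv h1 h2

omit [Finite G] in
theorem cj_hyp {A : Subgroup G} {g : G} (hg : g ∈ S.H) (hz : S.z ∈ A) (hs : ∀ a ∈ A, S.Md (a * a) 1) :
    S.z ∈ cj g A ∧ ∀ a ∈ cj g A, S.Md (a * a) 1 := by
  refine ⟨?_, fun a ha => ?_⟩
  · have := conj_mem_cj g hz
    rwa [S.mem_H.1 hg, mul_inv_cancel_right] at this
  · have := (hs _ (mem_cj.1 ha)).conj hg
    rwa [mul_one, mul_inv_cancel, show g * (g⁻¹ * a * g * (g⁻¹ * a * g)) * g⁻¹ = a * a by group] at this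
omit [Finite G] in
theorem norm_E {g : G} (hg : g ∈ S.X) (hK : g ∈ S.K) : cj g S.E = S.E :=
  le_antisymm (cj_le_iff.2 fun _ he => S.conj_mem_E hg hK he)
    (le_cj_iff.2 (cj_le_iff.2 fun _ he => S.conj_mem_E (inv_mem hg) (inv_mem hK) he))
omit [Finite G] in
theorem conj_mem_XA {A : Subgroup (Perm (Fin 5))} {g a : G} (hg : g ∈ S.X0) (ha : a ∈ S.X0)
    (h : S.pi g * S.pi a * (S.pi g)⁻¹ ∈ A) : g * a * g⁻¹ ∈ S.XA A := by
  have := mul_mem (mul_mem hg ha) (inv_mem hg)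
  exact ⟨this.1, this.2.1, this.2.2.1, by rwa [S.pi_conj hg.1 ha.1]⟩
omit [Finite G] in
/-- a 2-subgroup of `X0` is conjugate into `T0` -/
theorem exists_cj_le_T0 {A : Subgroup G} (hA : A ≤ S.X0) (h2 : IsPGroup 2 A) : ∃ s, cj (S.sg s) A ≤ S.T0 := by
  have hP := h2.of_surjective _ (S.piH A (hA.trans (S.XA_le_K _))).rangeRestrict_surjective
  obtain ⟨Q, hQ⟩ := hP.exists_le_sylow
  let R : Sylow 2 (Perm (Fin 5)) := Sylow.ofCard D0 (by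
    rw [card_D0, Nat.card_perm, Nat.card_fin, show Nat.factorial 5 = 2 ^ 3 * 15 by rfl,
      Nat.factorization_mul (by norm_num) (by norm_num), Nat.Prime.factorization_pow Nat.prime_two]
    simp [Nat.factorization_eq_zero_of_not_dvd])
  obtain ⟨s, hs⟩ := MulAction.exists_smul_eq (Perm (Fin 5)) Q R
  refine ⟨s, cj_le_iff.2 fun a ha => S.conj_mem_XA (S.sg_X0 s) (hA ha) ?_⟩
  rw [S.pi_sg]
  change _ ∈ (R : Subgroup (Perm (Fin 5)))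
  rw [← hs]
  exact smul_mem_pointwise_smul _ (MulAut.conj s) _ (hQ ⟨⟨a, ha⟩, rfl⟩)
theorem star0 {A : Subgroup G} (hA : A ≤ S.X0) (hz : S.z ∈ A) (hc : 32 ≤ Nat.card A)
    (hs : ∀ a ∈ A, S.Md (a * a) 1) : A = S.E ∨ ∃ s, A = cj (S.sg s) S.U := by
  obtain ⟨s, h⟩ := S.exists_cj_le_T0 hA fun a => ⟨2, Subtype.ext (by
    change (a : G) ^ (2 * 2) = 1
    rw [pow_mul, pow_two (a : G), pow_two]
    rcases hs a a.2 with e | e <;> rw [e]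
    exacts [mul_one _, by rw [one_mul, S.z_sq]])⟩
  have hX := S.XA_le_X _ (S.sg_X0 s)
  obtain ⟨h1, h2⟩ := S.cj_hyp (S.X_le_H hX) hz hs
  rcases S.star h h1 (by rwa [card_cj]) h2 with e | e
  · exact Or.inl ((cj_inj _).1 (e.trans (S.norm_E hX (S.sg_mem s)).symm))
  · exact Or.inr ⟨s⁻¹, by rw [← e, ← cj_mul, ← map_mul, inv_mul_cancel, map_one, cj_one]⟩
omit [Finite G] in
theorem sg_v1_not_mem_E : S.sg v1 ∉ S.E := fun h => absurd ((S.pi_sg v1).symm.trans (S.pi_L h.1)) (by decide)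
theorem mem_norm_U {g : G} (hg : g ∈ S.X0) : g ∈ normalizer (S.U : Set G) ↔ S.pi g 4 = 4 := by
  refine ⟨fun h => four_of_conj ?_, fun h => ?_⟩
  · have := (S.U_le_XA (conj_mem_of_mem_norm h (S.sg_mem_U v1_mem))).2.2.2
    rwa [S.pi_conj hg.1 (S.sg_mem _), S.pi_sg] at this
  · have hX := S.XA_le_X _ hg
    obtain ⟨h1, h2⟩ := S.cj_hyp (S.X_le_H hX) S.z_mem_U fun a ha => Or.inl (S.U_sq ha)
    refine cj_eq_self_iff.1 ((S.star (cj_le_iff.2 fun u hu => S.conj_mem_XA hg (S.U_le_X0 hu)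
      (conj_V4 h (S.U_le_XA hu).2.2.2).1) h1 (by rw [card_cj, S.card_U]) h2).resolve_left fun e => ?_)
    rw [← S.norm_E hX hg.1, cj_inj] at e
    exact S.sg_v1_not_mem_E (e ▸ S.sg_mem_U v1_mem)
omit [Finite G] in
theorem p_norm_of_le {A : Subgroup G} (hA : A ≤ S.X) : S.p ∈ normalizer (A : Set G) :=
  centralizer_le_normalizer _ fun _ ha => (S.mem_X.1 (hA ha)).2
omit [Finite G] in
theorem p_norm_U : S.p ∈ normalizer (S.U : Set G) := S.p_norm_of_le (S.U_le_X0.trans (S.XA_le_X _))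
theorem card_norm_U : Nat.card (S.X ⊓ S.K ⊓ normalizer (S.U : Set G) : Subgroup G) = 2304 := by
  rw [S.card_three (mem_inf.2 ⟨mem_inf.2 ⟨S.p_mem_X, S.p_mem⟩, S.p_norm_U⟩) inf_le_left,
    show S.X ⊓ S.K ⊓ normalizer (S.U : Set G) ⊓ S.X0 = S.XA (MulAction.stabilizer _ (4 : Fin 5)) from
      Subgroup.ext fun g => ⟨fun h => ⟨h.2.1, h.2.2.1, h.2.2.2.1, (S.mem_norm_U h.2).1 h.1.2⟩, fun h =>
        have h0 := S.XA_mono le_top h
        ⟨⟨S.X0_le_XK h0, (S.mem_norm_U h0).2 h.2.2.2⟩, h0⟩⟩, S.card_XA,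
    show Nat.card (MulAction.stabilizer (Perm (Fin 5)) (4 : Fin 5)) = 24 by
      rw [Nat.card_eq_fintype_card, Fintype.card_subtype]; decide +kernel]
theorem trans_EU {e : G} (he : e ∈ S.E) (hu : e ∈ S.U) (h1 : ¬ S.Md e 1) :
    ∃ g ∈ S.X0, g ∈ normalizer (S.U : Set G) ∧ S.Md (g * S.el (nv 1) * g⁻¹) e := by
  have h : ∀ u : N0, u ≠ 0 → Ell u → ∃ s ∈ [1, xq, xq * xq], s 4 = 4 ∧ act s (nv 1) = u := by decide +kernel
  obtain ⟨s, -, s4, hs⟩ := h _ (fun h => h1 (S.md_one_of_ce he h)) ((S.mem_E_inf_U he).1 hu)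
  exact ⟨_, S.sg_X0 s, (S.mem_norm_U (S.sg_X0 s)).2 (by rwa [S.pi_sg]),
    (S.conj_el (S.sg_X0 s) _).trans (by rw [S.pi_sg, hs]; exact (S.md_el he).symm)⟩
theorem trans_U {u v : G} (hu : u ∈ S.U) (hu' : u ∉ S.E) (hv : v ∈ S.U) (hv' : v ∉ S.E) :
    ∃ g ∈ S.X0, g ∈ normalizer (S.U : Set G) ∧ S.Md (g * u * g⁻¹) v := by
  have h : ∀ a ∈ [v1, v2, v1 * v2], (∀ b ∈ [v1, v2, v1 * v2], ∃ s ∈ [1, xq, xq * xq], s 4 = 4 ∧
      s * b * s⁻¹ = a) ∧ ∀ c, Ell c → ∃ d, d + act a d = c := by decide +kernel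
  have h0 : ∀ {w}, w ∈ S.U → w ∉ S.E → S.pi w ∈ [v1, v2, v1 * v2] := fun hw hw' => by
    simpa using (V4_cases (S.U_le_XA hw).2.2.2).resolve_left fun e => hw' (S.mem_E_of_pi (S.U_le_XA hw) e)
  obtain ⟨h1, h2⟩ := h _ (h0 hv hv')
  obtain ⟨s, -, s4, hs⟩ := h1 _ (h0 hu hu')
  have n1 := (S.mem_norm_U (S.sg_X0 s)).2 (by rwa [S.pi_sg])
  have w1 := conj_mem_of_mem_norm n1 hu
  have w2 : S.pi (S.sg s * u * (S.sg s)⁻¹) = S.pi v := by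
    rw [S.pi_conj (S.sg_mem s) (S.U_le_XA hu).1, S.pi_sg, hs]
  obtain ⟨w, hw⟩ : ∃ w, w = S.sg s * u * (S.sg s)⁻¹ := ⟨_, rfl⟩
  rw [← hw] at w1 w2
  have vK := (S.U_le_XA hv).1
  have e1 : v * w⁻¹ ∈ S.E := S.mem_E_of_pi (S.U_le_XA (mul_mem hv (inv_mem w1))) (by
    rw [S.pi_mul vK (inv_mem (S.U_le_XA w1).1), S.pi_inv (S.U_le_XA w1).1, w2, mul_inv_cancel])
  obtain ⟨d, hd⟩ := h2 _ ((S.mem_E_inf_U e1).1 (mul_mem hv (inv_mem w1)))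
  have f1 := S.E_le_XA ⊤ (S.el_mem_E d)
  have f2 := S.conj_mem_E0 (S.U_le_X0 w1) (inv_mem (S.el_mem_E d))
  refine ⟨S.el d * S.sg s, mul_mem f1 (S.sg_X0 s), mul_mem ((S.mem_norm_U f1).2 (by
    rw [S.pi_L (S.el_mem d)]; rfl)) n1, ?_⟩
  have := (S.md_of_ph (mul_mem (S.el_mem_E d) f2) e1 (by
    rw [S.ce_mul (S.el_mem d) f2.1, S.ce_conj (S.U_le_XA w1).1 (S.U_le_XA w1).2.2.1 (inv_mem (S.el_mem d)),
      S.ph_inv (S.el_mem d), S.ce_el, w2, hd])).mul_right (S.X_le_H (S.XA_le_X _ (S.U_le_XA w1)))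
  rwa [inv_mul_cancel_right, show S.el d * (w * (S.el d)⁻¹ * w⁻¹) * w =
    S.el d * S.sg s * u * (S.el d * S.sg s)⁻¹ by rw [hw]; group] at this
omit [Finite G] in
theorem act_eq_of_md {g : G} (hg : g ∈ S.X0) {u v : N0} (h : S.Md (g * S.el u * g⁻¹) (S.el v)) :
    act (S.pi g) u = v := by
  have := congrArg (fun a : U0 => a.2.2) (((S.conj_el hg u).symm.trans h).ph_eq (S.el_mem v))
  simpa only [S.ce_el] using this
omit [Finite G] in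
theorem cent_U {g : G} (hg : g ∈ S.X0) (h : ∀ u ∈ S.U, S.Md (g * u * g⁻¹) u) : g ∈ S.U := by
  have hv : S.pi g ∈ V4 := ⟨S.act_eq_of_md hg (h _ (S.el_mem_U (by decide))),
    S.act_eq_of_md hg (h _ (S.el_mem_U (by decide)))⟩
  obtain ⟨e, he, h1⟩ := S.XA_dec hg
  rw [h1]
  refine S.mem_U_of hv he (ell_of_fix v1_mem (by decide) ?_)
  have h2 := (h _ (S.sg_mem_U v1_mem)).mul_right (inv_mem (S.X_le_H (S.XA_le_X _ (S.sg_X0 v1))))
  rw [mul_inv_cancel, h1, show e * S.sg (S.pi g) * S.sg v1 * (e * S.sg (S.pi g))⁻¹ * (S.sg v1)⁻¹ =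
    e * (S.sg (S.pi g) * S.sg v1 * (S.sg (S.pi g))⁻¹ * e⁻¹ * (S.sg v1)⁻¹) by group, ← map_mul,
    V4_comm hv v1_mem, map_mul, mul_inv_cancel_right] at h2
  have h3 := congrArg (fun a : U0 => a.2.2) h2.ph_zero
  simp only [S.ce_mul he.1 (S.conj_mem_L (S.sg_mem _) (inv_mem he.1)), S.ce_sg v1 (inv_mem he.1),
    S.ph_inv he.1] at h3
  exact (N0.eq_of_add h3).symm
omit [Finite G] in
theorem T0_le_Cr : S.T0 ≤ S.Cr := fun t ht => ⟨S.XA_le_X _ ht, by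
  have := S.conj_el (S.XA_mono le_top ht) (nv 1)
  rwa [mem_D0.1 ht.2.2.2] at this⟩
omit [Finite G] in
theorem p_mem_Cr : S.p ∈ S.Cr := ⟨S.p_mem_X, Or.inl (by rw [← S.p_el, mul_inv_cancel_right])⟩
omit [Finite G] in
theorem mem_T0_of_Cr {g : G} (hg : g ∈ S.X0) (h : g ∈ S.Cr) : g ∈ S.T0 :=
  ⟨hg.1, hg.2.1, hg.2.2.1, S.act_eq_of_md hg h.2⟩
omit [Finite G] in
theorem mem_Cr_K {g : G} : g ∈ S.Cr ∧ g ∈ S.K ↔ ∃ i : ℕ, ∃ t ∈ S.T0, g = S.p ^ i * t := by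
  refine ⟨fun ⟨h1, h2⟩ => ?_, ?_⟩
  · obtain ⟨i, t, ht, rfl⟩ := S.XK_dec h1.1 h2
    exact ⟨i, t, S.mem_T0_of_Cr ht ((mul_mem_cancel_left (pow_mem S.p_mem_Cr i)).1 h1), rfl⟩
  · rintro ⟨i, t, ht, rfl⟩
    exact ⟨mul_mem (pow_mem S.p_mem_Cr i) (S.T0_le_Cr ht), mul_mem (pow_mem S.p_mem i) ht.1⟩
omit [Finite G] in
theorem card_Cr_K : Nat.card (S.Cr ⊓ S.K : Subgroup G) = 768 := by
  rw [S.card_three (mem_inf.2 ⟨S.p_mem_Cr, S.p_mem⟩) fun g hg => ⟨hg.1.1, hg.2⟩,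
    show S.Cr ⊓ S.K ⊓ S.X0 = S.T0 from le_antisymm (fun g hg => S.mem_T0_of_Cr hg.2 hg.1.1)
      (le_inf (le_inf S.T0_le_Cr (S.XA_le_K _)) (S.XA_mono le_top)), S.card_T0]
omit [Finite G] in
theorem cen_T0 {t : G} (ht : t ∈ S.T0) (h : ∀ s ∈ S.T0, S.Md (s * t * s⁻¹) t) :
    S.Md t 1 ∨ S.Md t (S.el (nv 1)) := by
  have h0 := S.XA_mono le_top ht
  have hE : t ∈ S.E := S.mem_E_of_pi ht (eq_one_of_act fun u => S.act_eq_of_md h0 (by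
    have h1 := ((h _ (inv_mem (S.E_le_XA _ (S.el_mem_E u)))).mul_left (S.el u)).mul_right
      (inv_mem (S.X_le_H (S.XA_le_X _ ht)))
    rwa [inv_inv, mul_inv_cancel_right, mul_assoc (S.el u)⁻¹, mul_inv_cancel_left] at h1))
  have h1 := congrArg (fun a : U0 => a.2.2) ((h _ (S.sg_mem_XA g4_mem)).ph_eq hE.1)
  simp only [S.ce_sg g4 hE.1] at h1
  rcases g4_fix h1 with e | e
  exacts [Or.inl (S.md_one_of_ce hE e), Or.inr (e ▸ S.md_el hE)]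
omit [Finite G] in
theorem norm_T0 {g : G} (hg : g ∈ S.X0) (h : g ∈ normalizer (S.T0 : Set G)) : g ∈ S.T0 := by
  have := (conj_mem_of_mem_norm (inv_mem h) (S.sg_mem_XA g4_mem)).2.2.2
  rw [S.pi_conj (inv_mem hg.1) (S.sg_mem _), S.pi_sg, S.pi_inv hg.1, inv_inv] at this
  exact ⟨hg.1, hg.2.1, hg.2.2.1, mem_D0_of_norm this⟩
theorem mem_C6 {g : S.X} : g ∈ S.C6 ↔ ∃ i : ℕ, S.Md g (S.p ^ i) := by
  have hc : Commute S.p S.z := S.z_p.symm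
  have z2 : S.z ^ 2 = 1 := by rw [pow_two, S.z_sq]
  change (g : G) ∈ zpowers (S.p * S.z) ↔ _
  refine ⟨fun h => ?_, fun ⟨i, h⟩ => h.mem ⟨(3 : ℕ), ?_⟩ (pow_mem (mem_zpowers_iff.2 ⟨(4 : ℕ), ?_⟩) i)⟩
  · obtain ⟨n, hn⟩ := (mem_powers_iff_mem_zpowers.2 h)
    refine ⟨n, S.md_iff.2 ?_⟩
    rw [← show (S.p * S.z) ^ n = g from hn, hc.mul_pow, inv_mul_cancel_left]
    exact pow_mem (mem_zpowers _) n
  · change (S.p * S.z) ^ ((3 : ℕ) : ℤ) = _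
    rw [zpow_natCast, hc.mul_pow, S.p3, one_mul, pow_succ, z2, one_mul]
  · rw [zpow_natCast, hc.mul_pow, pow_succ, S.p3, one_mul, show 4 = 2 * 2 from rfl, pow_mul, z2, one_pow,
      mul_one]
omit [Finite G] in
theorem card_C6 : Nat.card S.C6 = 6 := by
  have hc : Commute S.p S.z := S.z_p.symm
  rw [C6, Nat.card_congr (subgroupOfEquivOfLe (zpowers_le.2 (mul_mem S.p_mem_X S.z_mem_X))).toEquiv,
    Nat.card_zpowers, hc.orderOf_mul_eq_mul_orderOf_of_coprime (by rw [S.orderOf_p, S.orderOf_z]; norm_num),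
    S.orderOf_p, S.orderOf_z]
omit [Finite G] in
theorem isPGroup_S1 : IsPGroup 2 S.S1 := fun g => ⟨4, Subtype.ext (by
  have h1 : ∀ s ∈ dl, s ^ 4 = 1 := by decide +kernel
  have h2 : ∀ t : M3, Inv3 t → zc t (wv 4) = wv 4 → t.1 = wv 1 → mpow t 4 = e3 := mat_forall (by decide +kernel)
  obtain ⟨g, a1, a2, a3, a4⟩ := g
  change g ^ (4 * 4) = 1
  rw [pow_mul]
  exact S.pow_four ((S.mem_L (pow_mem a1 4)).2 ⟨by rw [S.pi_pow a1, h1 _ (mem_dl a2)],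
    by rw [S.rh_pow a1, h2 _ (S.rh_inv3 a1) a3 a4]⟩))⟩

end Sec

end Cfsg.Agent.J4K
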