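/-
Project J4K: the action of `C(z)` on `Q`.
-/
import Cfsg.Agent.J4K.XLoc
import Cfsg.Agent.J4K.BlkA
import Cfsg.Agent.H70.Syl
import Cfsg.Agent.H88.InvGen

set_option autoImplicit false
set_option linter.unusedSectionVars false

namespace Cfsg.Agent.J4K

open Subgroup Equiv Cfsg.Agent.H70 Bk

namespace Qd

variable {G : Type*} [Group G] [Finite G] (D : Qd G)

theorem ze_mem_Q (c : W0) : D.ze c ∈ D.Q := D.bk_zQ c

theorem mem_L_of_cent {q : G} (hq : q ∈ D.Q) (h1 : q * D.ze (wv 1) = D.ze (wv 1) * q)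
    (h2 : q * D.ze (wv 2) = D.ze (wv 2) * q) : q ∈ D.L := by
  obtain ⟨w, hw, e⟩ := D.rh_Q hq
  have h : ∀ c, q * D.ze c = D.ze c * q → zc (tv w) c = c := fun c hc => D.ze_inj (by
    rw [← e, ← D.conj_ze (D.Q_le_K hq), hc, mul_inv_cancel_right])
  exact D.bk_L hq (e.trans (congrArg tv ((by decide : ∀ w : W0, w.cd < 4 → zc (tv w) (wv 1) = wv 1 →
    zc (tv w) (wv 2) = wv 2 → w = 0) w hw (h _ h1) (h _ h2))))

theorem mem_L_of_fx {r q : G} (hr : r ∈ D.L) (hr' : r ∉ D.Q) (hq : q ∈ D.Q) (h : D.Fx r q) : q ∈ D.L := by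
  obtain ⟨w, hw, e⟩ := D.rh_Q hq
  have c1 := D.conj_mem_L (D.Q_le_K hq) (inv_mem hr)
  have h1 := Co.Md.mul (inv_mem (D.Q_le_H hq)) h (Co.Md.refl _ q⁻¹)
  rw [mul_inv_cancel, show r * q * r⁻¹ * q⁻¹ = r * (q * r⁻¹ * q⁻¹) by group] at h1
  have h2 := (md_ph (one_mem _) h1).2
  rw [D.ph_mul hr c1, D.conj_ph (D.Q_le_K hq) (inv_mem hr), D.pi_Q hq, e, ac_one, lin_tv hw, D.ph_inv hr,
    D.ph_one] at h2
  have h3 := congrArg (·.1) h2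
  have h4 := congrArg (·.2.1) h2
  simp only [Prod.fst_add, Prod.snd_add, ← add_assoc, N0.add_self, zero_add] at h3 h4
  exact D.bk_L hq (e.trans (congrArg tv ((by decide +kernel : ∀ (w : W0) (u : N0), w.cd < 4 → u ≠ 0 →
    sm (bit w 0) u = 0 → sm (bit w 1) u = 0 → w = 0) w _ hw (mt (D.mem_Q hr).2 hr') h3 h4)))

theorem bk_el {u : N0} (hu : u ≠ 0) : D.el u ∉ D.Q := fun h => hu (by
  simpa [D.ph_el] using (D.mem_Q (D.el_mem u)).1 h)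

theorem fx_E {q : G} (hq : q ∈ D.Q) (h : ∀ e ∈ D.E, D.Fx e q) : q ∈ D.Zs := by
  have hL := D.mem_L_of_fx (D.el_mem (nv 1)) (D.bk_el (by decide)) hq (h _ (D.el_mem_E _))
  have h1 : ∀ u, be (0, 0, u) (D.ph q) = 0 ∨ be (0, 0, u) (D.ph q) = 0 + wv 4 := fun u => by
    have := h _ (D.el_mem_E u)
    rw [Fx, D.conj_L (D.el_mem u) hL, D.ph_el] at this
    nth_rewrite 3 [← mul_one q] at this
    rwa [← D.ze_zero, md_ze] at this
  have h2 := (D.mem_Q hL).1 hq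
  refine D.ph_ker hL ?_
  revert h1 h2
  generalize D.ph q = a
  obtain ⟨a, b, c⟩ := a
  rintro h1 rfl
  have := (by decide +kernel : ∀ a b : N0, (∀ u, be (0, 0, u) (a, b, 0) = 0 ∨ be (0, 0, u) (a, b, 0) = 0 + wv 4) →
    a = 0 ∧ b = 0) a b h1
  rw [this.1, this.2]; rfl

theorem fpf_p {q : G} (hq : q ∈ D.Q) (h : D.Fx D.p q) : D.Md q 1 := by
  obtain ⟨w, hw, e⟩ := D.rh_Q hq
  have h1 := D.rh_conj D.p_mem (D.Q_le_K hq)
  rw [md_rh (D.Q_le_K hq) h, e, D.rh_p] at h1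
  have hL := D.bk_L hq (e.trans (congrArg tv ((by decide : ∀ w : W0, w.cd < 4 → mm (tv w) tp = mm tp (tv w) →
    w = 0) w hw h1)))
  have h2 := (md_ph hL h).2
  rw [D.conj_ph D.p_mem hL, D.pi_p, D.rh_p, ac_one, lin_tp] at h2
  have h3 := congrArg (·.1) h2
  have h4 := congrArg (·.2.1) h2
  simp only [add_eq_right] at h3 h4
  obtain ⟨c, rfl⟩ := D.ph_ker hL (Prod.ext h4 (Prod.ext (h3.trans h4) ((D.mem_Q hL).1 hq)))
  rw [Fx, D.conj_ze D.p_mem, D.rh_p, md_ze'] at h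
  rw [← D.ze_zero, md_ze']
  exact (by decide : ∀ c, zc tp c = c ∨ zc tp c = c + wv 4 → c = 0 ∨ c = 0 + wv 4) c h

theorem X_inf_Q {g : G} (hg : g ∈ D.X) (hq : g ∈ D.Q) : D.Md g 1 :=
  D.fpf_p hq (D.bk_fx_of_comm (D.mem_X.1 hg).2.symm)

theorem el_mod_Q {r : G} (hr : r ∈ D.L) : ∃ q ∈ D.Q, r = q * D.el (D.ph r).2.2 :=
  ⟨r * (D.el (D.ph r).2.2)⁻¹, (D.mem_Q (mul_mem hr (inv_mem (D.el_mem _)))).2 (by
    rw [D.ph_mul hr (inv_mem (D.el_mem _)), D.ph_inv (D.el_mem _), D.ph_el]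
    exact N0.add_self _), (inv_mul_cancel_right _ _).symm⟩

theorem big_L {a : G} (ha : a ∈ D.L) : D.Big a := by
  choose s hs hs' using D.ph_surj
  obtain ⟨u, hu⟩ : ∃ u, u = (D.ph a).2.2 := ⟨_, rfl⟩
  let f : {x // B0 u x = false} × {x // B0 u x = false} × W0 → {q | q ∈ D.Q ∧ D.Fx a q} := fun x =>
    ⟨s (x.1, x.2.1, 0) * D.ze x.2.2, mul_mem ((D.mem_Q (hs _)).2 (by rw [hs'])) (D.ze_mem_Q _), by
      have h1 := mul_mem (hs (x.1, x.2.1, 0)) (D.ze_mem x.2.2)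
      rw [Fx, D.conj_L ha h1, D.ph_mul (hs _) (D.ze_mem _), D.ph_ze, add_zero, hs']
      conv_rhs => rw [← mul_one (s _ * _), ← D.ze_zero]
      rw [md_ze, be]
      simp only [← hu, x.1.2, x.2.1.2, B0_zero_right, Bool.xor_false]
      exact (by decide : ∀ x, mkW false false x = 0 ∨ mkW false false x = 0 + wv 4) _⟩
  have h1 := Nat.card_le_card_of_injective f fun x y e => by
    have e1 : s (x.1, x.2.1, 0) * D.ze x.2.2 = s (y.1, y.2.1, 0) * D.ze y.2.2 := congrArg Subtype.val e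
    have e2 := congrArg D.ph e1
    rw [D.ph_mul (hs _) (D.ze_mem _), D.ph_mul (hs _) (D.ze_mem _), D.ph_ze, D.ph_ze, add_zero, add_zero, hs',
      hs'] at e2
    rw [e2, mul_right_inj] at e1
    exact Prod.ext (Subtype.ext (congrArg (·.1) e2)) (Prod.ext (Subtype.ext (congrArg (·.2.1) e2)) (D.ze_inj e1))
  have h2 : 8 ≤ Nat.card {x // B0 u x = false} := by
    rw [Nat.card_eq_fintype_card, Fintype.card_subtype]
    exact (by decide +kernel : ∀ u, 8 ≤ (Finset.univ.filter fun x => B0 u x = false).card) u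
  rw [Nat.card_prod, Nat.card_prod, card_W0, Nat.card_coe_set_eq] at h1
  exact lt_of_lt_of_le (by nlinarith) h1

theorem big_conj {a h : G} (hh : h ∈ D.H) (ha : D.Big a) : D.Big (h * a * h⁻¹) :=
  lt_of_lt_of_le ha (Set.ncard_le_ncard_of_injOn (fun x => h * x * h⁻¹)
    (fun _ hx => ⟨D.conj_Q hh hx.1, hx.2.bk_conj hh⟩) (fun x _ y _ e => by simpa using e) (Set.toFinite _))

theorem big_mul {a q : G} (ha' : a ∈ D.H) (hq : q ∈ D.Q) (ha : D.Big a) : D.Big (q * a) :=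
  have _ := ha'
  lt_of_lt_of_le ha (Set.ncard_le_ncard (fun _ hx => ⟨hx.1, (D.bk_fxQ hq hx.1).bk_mul (D.Q_le_H hq) hx.2⟩)
    (Set.toFinite _))

theorem not_big {h q : G} (hh : h ∈ D.H) (hq : q ∈ D.Q) (e : h * D.p * h⁻¹ = q * D.p⁻¹) : ¬ D.Big h := by
  intro hb
  have hp := D.p_mem_H
  have hh' : D.p * h * D.p⁻¹ ∈ D.H := mul_mem (mul_mem hp hh) (inv_mem hp)
  have h1 : 128 < Nat.card (D.bkF hh) := hb
  have h2 : 128 < Nat.card (D.bkF hh') := D.big_conj hp hb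
  have h3 := H49.card_mul_le (H := D.bkF hh) (K := D.bkF hh') (M := D.Q) (fun _ hx => hx.1) fun _ hx => hx.1
  have h4 : Nat.card (D.bkF hh ⊓ D.bkF hh' : Subgroup G) ≤ 2 := by
    rw [← D.orderOf_z, ← Nat.card_zpowers]
    refine card_le_of_le fun x hx => Co.Md.mem (D.fpf_p hx.1.1 ?_) (mem_zpowers _) (one_mem _)
    have h5 := (hx.2.2.bk_mul hh' (hx.1.2.bk_inv hh)).bk_mul (mul_mem hh' (inv_mem hh)) (D.bk_fxQ hq hx.1.1)
    rw [show D.p * h * D.p⁻¹ * h⁻¹ * q = D.p * (h * D.p * h⁻¹)⁻¹ * q by group, e,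
      show D.p * (q * D.p⁻¹)⁻¹ * q = D.p * D.p by group] at h5
    have h6 := h5.bk_mul (mul_mem hp hp) h5
    rwa [show D.p * D.p * (D.p * D.p) = D.p ^ 3 * D.p by simp only [pow_three, mul_assoc], D.p3, one_mul] at h6
  rw [D.card_Q] at h3
  nlinarith

theorem bk_rh_pinv : D.rh D.p⁻¹ = mm tp tp := by
  rw [show D.p⁻¹ = D.p * D.p from inv_eq_of_mul_eq_one_right (by rw [← D.p3, pow_three]),
    D.rh_mul D.p_mem D.p_mem, D.rh_p]

theorem bk_ord3 {y : G} (hy : y ∈ D.K) (y1 : D.pi y = 1) (y3 : y ^ 3 = 1) {w : W0} (hw : w.cd < 4) :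
    (D.rh y = mm (tv w) tp → ∃ q ∈ D.Q, y = q * D.p) ∧ (D.rh y = mm (tv w) (mm tp tp) → ∃ q ∈ D.Q, y = q * D.p⁻¹) :=
  ⟨fun e => D.bk_modQ hy D.p_mem D.p_mem_H y1 D.pi_p y3 D.p3 hw (by rw [e, D.rh_p]), fun e =>
    D.bk_modQ hy (inv_mem D.p_mem) (inv_mem D.p_mem_H) y1 (by rw [D.pi_inv D.p_mem, D.pi_p, inv_one]) y3
      (by rw [inv_pow, D.p3, inv_one]) hw (by rw [e, D.bk_rh_pinv])⟩

theorem norm_p {k : G} (hk : k ∈ D.K) (hH : k ∈ D.H) :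
    ∃ q ∈ D.Q, (k * D.p * k⁻¹ = q * D.p ∧ ∃ w : W0, w.cd < 4 ∧
      (D.rh k = tv w ∨ D.rh k = mm (tv w) tp ∨ D.rh k = mm (tv w) (mm tp tp))) ∨
      k * D.p * k⁻¹ = q * D.p⁻¹ := by
  obtain ⟨v, hv, h⟩ := s4 _ (D.rh_inv3 hk) (D.zc_of_mem_H hk hH)
  have h1 := D.rh_conj hk D.p_mem
  rw [D.rh_p] at h1
  have h2 := D.bk_ord3 (mul_mem (mul_mem hk D.p_mem) (inv_mem hk))
    (by rw [D.pi_conj hk D.p_mem, D.pi_p, mul_one, mul_inv_cancel])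
    (by rw [conj_pow, D.p3, mul_one, mul_inv_cancel]) hv
  rcases h with ⟨e, h⟩ | e
  · obtain ⟨q, hq, e1⟩ := h2.1 (rh_cancel _ hk (h1.trans e.symm))
    exact ⟨q, hq, Or.inl ⟨e1, h⟩⟩
  · obtain ⟨q, hq, e1⟩ := h2.2 (rh_cancel _ hk (h1.trans e.symm))
    exact ⟨q, hq, Or.inr e1⟩

theorem bk_stab {h : G} (hh : h ∈ D.H) (h1 : h * D.ze (wv 1) = D.ze (wv 1) * h) : h ∈ D.K := by
  obtain ⟨k, hk, -, e⟩ := D.surj 1 t0 (by decide)
  have kz : k * D.z * k⁻¹ = D.ze (wv 1) := by rw [Co.z, D.conj_ze hk, e]; rfl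
  have A : ∀ h ∈ D.H, Commute h (D.ze (wv 1)) → ∀ l ∈ D.L, k⁻¹ * l * k ∈ D.Q →
      h * l * h⁻¹ ∈ D.L ∧ k⁻¹ * (h * l * h⁻¹) * k ∈ D.Q := fun h hh h1 l hl hq => by
    have h2 : k⁻¹ * h * k ∈ D.H := D.mem_H.2 (by
      rw [← kz] at h1
      calc k⁻¹ * h * k * D.z = k⁻¹ * (h * (k * D.z * k⁻¹)) * k := by group
        _ = _ := by rw [h1.eq]; group)
    have h3 : k⁻¹ * (h * l * h⁻¹) * k ∈ D.Q := by
      have := D.conj_Q h2 hq
      rwa [show k⁻¹ * h * k * (k⁻¹ * l * k) * (k⁻¹ * h * k)⁻¹ = k⁻¹ * (h * l * h⁻¹) * k by group] at this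
    refine ⟨?_, h3⟩
    have h4 := D.big_conj hh (D.big_L hl)
    have h5 : h * l * h⁻¹ ∈ D.H := mul_mem (mul_mem hh (D.L_le_H hl)) (inv_mem hh)
    obtain ⟨q, hq, e1⟩ : ∃ q ∈ D.Q, h * l * h⁻¹ = k * q * k⁻¹ := ⟨_, h3, by group⟩
    rw [e1] at h4 h5 ⊢
    have hK := mul_mem (mul_mem hk (D.Q_le_K hq)) (inv_mem hk)
    obtain ⟨w, hw, e2⟩ := D.rh_Q hq
    have h6 := D.rh_conj hk (D.Q_le_K hq)
    rw [e, e2] at h6
    obtain ⟨q', hq', ⟨-, v, hv, h7⟩ | h7⟩ := D.norm_p hK h5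
    · exact (D.mem_L hK).2 ⟨by rw [D.pi_conj hk (D.Q_le_K hq), D.pi_Q hq, mul_one, mul_inv_cancel],
        t0_tv w v hw hv _ (by simpa using h7) h6⟩
    · exact absurd h4 (D.not_big h5 hq' h7)
  refine D.mem_K h fun c => ?_
  obtain ⟨h2, h3⟩ := A h hh h1 _ (D.ze_mem c) (by
    have := D.conj_ze (inv_mem hk) c
    rw [inv_inv] at this
    exact this ▸ D.ze_mem_Q _)
  obtain ⟨d, hd⟩ := D.bk_cen (by simpa using D.conj_mem_L (inv_mem hk) h2) h3 fun b hb hq => by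
    have h4 := D.ze_comm_L (A h⁻¹ (inv_mem hh) (Commute.inv_left h1) _ (D.conj_mem_L hk hb)
      (by simpa [mul_assoc] using hq)).1 c
    calc k⁻¹ * (h * D.ze c * h⁻¹) * k * b = k⁻¹ * h * (D.ze c * (h⁻¹ * (k * b * k⁻¹) * h⁻¹⁻¹)) * h⁻¹ * k := by group
      _ = _ := by rw [← h4]; group
  exact ⟨_, by rw [← D.conj_ze hk d, ← hd]; group⟩

theorem mem_K_of_conj {h : G} (hh : h ∈ D.H) {c d : W0} (hc : c ≠ 0) (hc' : c ≠ wv 4)
    (e : h * D.ze c * h⁻¹ = D.ze d) : h ∈ D.K := by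
  have T : ∀ c : W0, c ≠ 0 → c ≠ wv 4 → ∃ k ∈ D.K, k ∈ D.H ∧ k * D.ze (wv 1) * k⁻¹ = D.ze c := fun c h1 h2 => by
    obtain ⟨a, b, d, h3, h4, h5⟩ := six c h1 h2
    obtain ⟨k, hk, -, e⟩ := D.surj 1 _ h3
    exact ⟨k, hk, D.mem_H_of_rh hk (e ▸ h4), by rw [D.conj_ze hk, e, h5]⟩
  obtain ⟨k, hk, hk', e1⟩ := T c hc hc'
  obtain ⟨l, hl, hl', e2⟩ := T d (by
    rintro rfl
    rw [D.ze_zero, conj_eq_one_iff] at e
    exact hc (D.ze_eq_one e)) (by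
    rintro rfl
    rw [mul_inv_eq_iff_eq_mul] at e
    exact hc' (D.ze_inj (mul_left_cancel (e.trans (D.mem_H.1 hh).symm))))
  have := D.bk_stab (mul_mem (mul_mem (inv_mem hl') hh) hk') (by
    rw [← e1, ← e2] at e
    calc l⁻¹ * h * k * D.ze (wv 1) = l⁻¹ * (h * (k * D.ze (wv 1) * k⁻¹) * h⁻¹) * h * k := by group
      _ = _ := by rw [e]; group)
  rwa [mul_mem_cancel_right hk, mul_mem_cancel_left (inv_mem hl)] at this

theorem inD_conj {h r r' q a : G} (hh : h ∈ D.H) (hr : r ∈ D.L) (hr0 : r ∉ D.Q) (hr' : r' ∈ D.L)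
    (hq : q ∈ D.Q) (e : h * r * h⁻¹ = q * r') (ha : D.InD (D.ph r).2.2 a) :
    D.InD (D.ph r').2.2 (h * a * h⁻¹) := by
  obtain ⟨x, hx, h1⟩ := D.bk_of_inD hr hr0 ha
  have h2 := D.conj_Q hh hx
  refine D.bk_inD_of hr' ⟨_, h2, (h1.conj hh).trans ?_⟩
  have h3 := Co.Md.mul (inv_mem (D.Q_le_H h2)) (D.bk_fxQ hq (D.conj_Q (D.L_le_H hr') h2)) (Co.Md.refl _ _)
  rwa [show h * (r * x * r⁻¹ * x⁻¹) * h⁻¹ = h * r * h⁻¹ * (h * x * h⁻¹) * (h * r * h⁻¹)⁻¹ * (h * x * h⁻¹)⁻¹ by group,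
    e, show q * r' * (h * x * h⁻¹) * (q * r')⁻¹ = q * (r' * (h * x * h⁻¹) * r'⁻¹) * q⁻¹ by group]

theorem mem_K_of_two {h r s r' s' q q' : G} (hh : h ∈ D.H) (hr : r ∈ D.L) (hr0 : r ∉ D.Q) (hs : s ∈ D.L)
    (hs0 : s ∉ D.Q) (hrs : r * s ∉ D.Q) (hr' : r' ∈ D.L) (hs' : s' ∈ D.L) (hq : q ∈ D.Q) (hq' : q' ∈ D.Q)
    (e : h * r * h⁻¹ = q * r') (e' : h * s * h⁻¹ = q' * s') : h ∈ D.K := by
  have h0 : ∀ u, D.InD u (D.ze (wv 1)) := fun u => ⟨D.ze_mem _, false, false, D.ph_ze _⟩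
  obtain ⟨h1, b0, b1, h2⟩ := D.inD_conj hh hr hr0 hr' hq e (h0 _)
  obtain ⟨-, c0, c1, h3⟩ := D.inD_conj hh hs hs0 hs' hq' e' (h0 _)
  have h4 : (D.ph r').2.2 + (D.ph s').2.2 ≠ 0 := fun e1 => hrs (by
    have h5 := D.bk_conj' hh (mul_mem (mul_mem hq (D.conj_Q (D.L_le_H hr') hq'))
      ((D.mem_Q (mul_mem hr' hs')).2 (by rw [D.ph_mul hr' hs']; exact e1)))
    rwa [show q * (r' * q' * r'⁻¹) * (r' * s') = q * r' * (q' * s') by group, ← e, ← e',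
      show h⁻¹ * (h * r * h⁻¹ * (h * s * h⁻¹)) * h = r * s by group] at h5)
  have h5 : ∀ (u v : N0) (b c : Bool), u + v ≠ 0 → sm b u = sm c v → u ≠ 0 → v ≠ 0 → sm b u = 0 := by
    decide +kernel
  have h6 : ∀ {r r' q : G}, r ∉ D.Q → r' ∈ D.L → q ∈ D.Q → h * r * h⁻¹ = q * r' → (D.ph r').2.2 ≠ 0 :=
    fun {r r' q} a1 a2 a3 a4 a5 => a1 (by
      have := D.bk_conj' hh (mul_mem a3 ((D.mem_Q a2).2 a5))
      rwa [← a4, show h⁻¹ * (h * r * h⁻¹) * h = r by group] at this)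
  have u0 := h6 hr0 hr' hq e
  have v0 := h6 hs0 hs' hq' e'
  obtain ⟨d, hd⟩ := D.ph_ker h1 (by
    rw [h2, h5 _ _ b0 c0 h4 (congrArg (·.1) (h2.symm.trans h3)) u0 v0,
      h5 _ _ b1 c1 h4 (congrArg (·.2.1) (h2.symm.trans h3)) u0 v0]; rfl)
  exact D.mem_K_of_conj hh (by decide) (by decide) hd

theorem good_of_norm {h q : G} (hh : h ∈ D.H) (hq : q ∈ D.Q)
    (e : h * D.p * h⁻¹ = q * D.p ∨ h * D.p * h⁻¹ = q * D.p⁻¹) : D.Good h := by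
  have A : ∀ h ∈ D.H, ∀ q ∈ D.Q, h * D.p * h⁻¹ = q * D.p → D.Good h := fun h hh q hq e => by
    have := Fact.mk Nat.prime_three
    obtain ⟨k, hk, e1⟩ := coset_fix D.Q 3 (by rw [D.card_Q]; decide) 1 D.p⁻¹ (h * D.p * h⁻¹)
      (by rw [inv_pow, D.p3, inv_one]) (by rw [conj_pow, D.p3, mul_one, mul_inv_cancel]) fun k hk => by
        rw [inv_one, one_mul] at hk ⊢
        rw [e, ← mul_assoc, mul_assoc _ k]
        exact D.bk_conj' D.p_mem_H (mul_mem hk hq)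
    rw [inv_one, one_mul] at hk
    have hx := mul_mem (D.Q_le_H hk) hh
    refine ⟨k * h, D.mem_X.2 ⟨hx, ?_⟩, _, D.Q_le_K (D.bk_conj' hx (inv_mem hk)), by group⟩
    calc k * h * D.p = D.p * (D.p⁻¹ * k * (h * D.p * h⁻¹)) * h := by group
      _ = _ := by rw [e1, mul_assoc]
  rcases e with e | e
  · exact A h hh q hq e
  · obtain ⟨x, hx, k, hk, e1⟩ := A _ (mul_mem hh D.io_mem_H) _ (D.conj_Q D.p_mem_H (inv_mem hq)) (by
      rw [show h * D.io * D.p * (h * D.io)⁻¹ = h * (D.io * D.p * D.io⁻¹) * h⁻¹ by group, D.io_p, ← conj_inv, e]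
      group)
    exact ⟨x, hx, _, mul_mem hk (inv_mem D.io_mem), by rw [← mul_assoc, ← e1, mul_inv_cancel_right]⟩

theorem good {h : G} (hh : h ∈ D.H) {c : W0} (hc : c ≠ 0) (hc' : c ≠ wv 4)
    (e : h * D.ze c * h⁻¹ ∈ D.L) : D.Good h := by
  have := Fact.mk Nat.prime_three
  obtain ⟨y, hy⟩ : ∃ y, y = h * D.p * h⁻¹ := ⟨_, rfl⟩
  have yH : y ∈ D.H := hy ▸ mul_mem (mul_mem hh D.p_mem_H) (inv_mem hh)
  have y3 : y ^ 3 = 1 := by rw [hy, conj_pow, D.p3, mul_one, mul_inv_cancel]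
  have fpf : ∀ x ∈ D.Q, D.Fx y x → D.Md x 1 := fun x hx h1 => by
    have h2 := h1.bk_conj (inv_mem hh)
    rw [hy, show h⁻¹ * (h * D.p * h⁻¹) * h⁻¹⁻¹ = D.p by group] at h2
    have h3 := (D.fpf_p (D.conj_Q (inv_mem hh) hx) h2).conj hh
    rwa [show h * (h⁻¹ * x * h⁻¹⁻¹) * h⁻¹ = x by group, mul_one, mul_inv_cancel] at h3
  have b0 := (D.mem_Q e).1 (D.conj_Q hh (D.ze_mem_Q c))
  have A : ∀ u, be (0, 0, u) ((D.ph (h * D.ze c * h⁻¹)).1, (D.ph (h * D.ze c * h⁻¹)).2.1, 0) = 0 →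
      ∃ q ∈ D.Q, y⁻¹ * D.el u * y⁻¹⁻¹ = q * D.el u := fun u hu => by
    have h1 := (D.comm_iff (D.el_mem u) e).2 (by rw [D.ph_el, ← hu, ← b0])
    have h2 : h⁻¹ * D.el u * h⁻¹⁻¹ ∈ D.H :=
      mul_mem (mul_mem (inv_mem hh) (D.L_le_H (D.el_mem u))) (inv_mem (inv_mem hh))
    have h3 := D.mem_K_of_conj h2 hc hc' (d := c) (by
      calc _ = h⁻¹ * (D.el u * (h * D.ze c * h⁻¹)) * (D.el u)⁻¹ * h := by group
        _ = _ := by rw [h1]; group)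
    obtain ⟨q, hq, ⟨h4, -⟩ | h4⟩ := D.norm_p h3 h2
    · refine ⟨_, D.bk_conj' yH (D.conj_Q hh hq), ?_⟩
      calc _ = y⁻¹ * h * (h⁻¹ * D.el u * h⁻¹⁻¹ * D.p * (h⁻¹ * D.el u * h⁻¹⁻¹)⁻¹) * h⁻¹ * D.el u := by rw [hy]; group
        _ = _ := by rw [h4, hy]; group
    · exact absurd (D.big_conj (inv_mem hh) (D.big_L (D.el_mem u))) (D.not_big h2 hq h4)
  obtain ⟨u, v, u0, v0, uv, hu, hv⟩ := two_perp (D.ph (h * D.ze c * h⁻¹)).1 (D.ph (h * D.ze c * h⁻¹)).2.1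
  obtain ⟨q, hq, e1⟩ := A u hu
  obtain ⟨q', hq', e2⟩ := A v hv
  have yK : y ∈ D.K := inv_mem_iff.1 (D.mem_K_of_two (inv_mem yH) (D.el_mem u) (D.bk_el u0) (D.el_mem v)
    (D.bk_el v0) (fun h1 => uv (by
      have := (D.mem_Q (mul_mem (D.el_mem u) (D.el_mem v))).1 h1
      rwa [D.ph_mul (D.el_mem u) (D.el_mem v), D.ph_el, D.ph_el] at this)) (D.el_mem u) (D.el_mem v) hq hq' e1 e2)
  have n1 : ¬ D.Md (D.ze (zc (D.rh y) (wv 1))) (D.ze (wv 1)) := fun h1 => by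
    have := fpf _ (D.ze_mem_Q (wv 1)) (by rwa [Fx, D.conj_ze yK])
    rw [← D.ze_zero, md_ze'] at this
    exact absurd this (by decide)
  rw [md_ze', not_or] at n1
  obtain ⟨w, hw, h1⟩ := ord3 _ (D.zc_of_mem_H yK yH) (by
    rw [← D.rh_mul yK yK, ← D.rh_mul (mul_mem yK yK) yK, ← pow_three', y3, D.rh_one]) n1.1 n1.2
  have y1 : D.pi y = 1 := by_contra fun h2 => by
    have h3 := fix3 (D.pi y) (by rw [← D.pi_pow yK, y3, D.pi_one]) h2 hw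
    have B : ∀ a b : N0, ac (D.pi y) (D.rh y) (a, b, 0) = (a, b, 0) → a = 0 ∧ b = 0 := fun a b h4 => by
      obtain ⟨l, hl, h5, h6⟩ := D.adjust_Z 3 (by decide) yK y3 h4
      have := (md_ph (one_mem _) (fpf l ((D.mem_Q hl).2 (by rw [h5])) (Or.inl h6))).2
      rw [h5, D.ph_one] at this
      exact ⟨congrArg (·.1) this, congrArg (·.2.1) this⟩
    rcases h1 with h1 | h1
    · exact absurd (B _ _ (h1 ▸ h3.1)).2 (by decide)
    · exact absurd (B _ _ (h1 ▸ h3.2)).1 (by decide)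
  rcases h1 with h1 | h1
  · obtain ⟨q, hq, e3⟩ := (D.bk_ord3 yK y1 y3 hw).1 h1
    exact D.good_of_norm hh hq (Or.inl (hy ▸ e3))
  · obtain ⟨q, hq, e3⟩ := (D.bk_ord3 yK y1 y3 hw).2 h1
    exact D.good_of_norm hh hq (Or.inr (hy ▸ e3))

theorem mem_K_of_norm_E {h : G} (hh : h ∈ D.H) (h1 : ∀ e ∈ D.E, h * e * h⁻¹ ∈ D.E) : h ∈ D.K :=
  D.mem_K_of_two hh (D.el_mem (nv 1)) (D.bk_el (by decide)) (D.el_mem (nv 2)) (D.bk_el (by decide)) (fun h2 => by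
      have := (D.mem_Q (mul_mem (D.el_mem _) (D.el_mem _))).1 h2
      rw [D.ph_mul (D.el_mem _) (D.el_mem _), D.ph_el, D.ph_el] at this
      exact absurd this (by decide)) (h1 _ (D.el_mem_E _)).1 (h1 _ (D.el_mem_E _)).1 (one_mem _) (one_mem _)
    (one_mul _).symm (one_mul _).symm

theorem bk_K_of_fx {g : G} (hg : g ∈ D.H) {c : W0} (hc : c ≠ 0) (hc' : c ≠ wv 4)
    (h : ∀ e ∈ D.E, D.Fx (g⁻¹ * e * g) (D.ze c)) : g ∈ D.K := by
  obtain ⟨d, hd⟩ := D.fx_E (D.conj_Q hg (D.ze_mem_Q c)) fun e he => by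
    have := (h e he).bk_conj hg
    rwa [show g * (g⁻¹ * e * g) * g⁻¹ = e by group] at this
  exact D.mem_K_of_conj hg hc hc' hd

theorem mem_K_of_norm_T0 {g : G} (hg : g ∈ D.X) (h : g ∈ normalizer (D.T0 : Set G)) : g ∈ D.K :=
  D.bk_K_of_fx (D.X_le_H hg) (c := wv 1) (by decide) (by decide) fun _ he =>
    have h1 := conj_mem_of_mem_norm' h (D.E_le_XA _ he)
    D.bk_fx_of_comm (D.ze_comm_of_rh h1.1 h1.2.2.1 _)

theorem syl_T0 {P : Subgroup G} (hP : IsPGroup 2 P) (h1 : D.T0 ≤ P) (h2 : P ≤ D.X) : P = D.T0 :=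
  have := Fact.mk Nat.prime_two
  (eq_of_inf_norm_le hP h1 fun g hg => by
    obtain ⟨n, hn⟩ := hP ⟨g, hg.1⟩
    exact D.norm_T0 (D.mem_X0_of_two (h2 hg.1) (D.mem_K_of_norm_T0 (h2 hg.1) hg.2) (congrArg Subtype.val hn))
      hg.2).symm

theorem syl_S1 {P : Subgroup G} (hP : IsPGroup 2 P) (h1 : D.S1 ≤ P) (h2 : P ≤ D.H) : P = D.S1 := by
  have := Fact.mk Nat.prime_two
  refine (eq_of_inf_norm_le hP h1 fun g hg => ?_).symm
  have gH := h2 hg.1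
  have A : ∀ s ∈ D.S1, D.Fx s (D.ze (wv 2)) := fun s hs => by
    rw [Fx, D.conj_ze hs.1, md_ze']
    exact mat_forall (P := fun t => Inv3 t → zc t (wv 4) = wv 4 → t.1 = wv 1 → zc t (wv 2) = wv 2 ∨
      zc t (wv 2) = wv 2 + wv 4) (by decide +kernel) _ (D.rh_inv3 hs.1) hs.2.2.1 hs.2.2.2
  have gK := D.bk_K_of_fx gH (c := wv 2) (by decide) (by decide) fun e he => A _ (conj_mem_of_mem_norm' hg.2
    ⟨D.L_le he.1, by rw [D.pi_L he.1]; exact one_mem _, by rw [D.rh_L he.1, zc_e3], by rw [D.rh_L he.1]; rfl⟩)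
  refine ⟨gK, ?_, D.zc_of_mem_H gK gH, ?_⟩
  · have B : ∀ s ∈ D0, act s (act (D.pi g) (nv 1)) = act (D.pi g) (nv 1) := fun s hs => by
      have h3 : D.sg s ∈ D.S1 := ⟨D.sg_mem s, by rwa [D.pi_sg], by rw [D.rh_sg, zc_e3], by rw [D.rh_sg]; rfl⟩
      have h4 : act _ _ = _ := (conj_mem_of_mem_norm' hg.2 h3).2.1
      rw [D.pi_mul (mul_mem (inv_mem gK) h3.1) gK, D.pi_mul (inv_mem gK) h3.1, D.pi_inv gK, D.pi_sg, act_mul,
        act_mul] at h4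
      conv_rhs => rw [← h4, act_act_inv]
    exact ((by decide +kernel : ∀ c, act th c = c → act (swap 0 2 * swap 1 3) c = c →
      act (swap 0 1 * swap 2 3) c = c → c = 0 ∨ c = nv 1) _ (B _ (by decide +kernel)) (B _ (by decide +kernel))
      (B _ (by decide +kernel))).resolve_left fun e => absurd (act_eq_zero e) (by decide)
  · obtain ⟨s, hs, e1, e2⟩ := D.surj 1 (wv 1, wv 3, wv 4) (by decide)
    have h3 := (A _ (conj_mem_of_mem_norm' hg.2 (show s ∈ D.S1 from ⟨hs, e1 ▸ one_mem _, by rw [e2]; decide,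
      by rw [e2]⟩))).bk_conj gH
    rw [show g * (g⁻¹ * s * g) * g⁻¹ = s by group, D.conj_ze gK, Fx, D.conj_ze hs, md_ze', e2] at h3
    exact mat_forall (P := fun t => Inv3 t → zc t (wv 4) = wv 4 →
      (zc (wv 1, wv 3, wv 4) (zc t (wv 2)) = zc t (wv 2) ∨ zc (wv 1, wv 3, wv 4) (zc t (wv 2)) = zc t (wv 2) + wv 4) →
      t.1 = wv 1) (by decide +kernel) _ (D.rh_inv3 gK) (D.zc_of_mem_H gK gH) h3

theorem cj_E_ne_U {h : G} (hh : h ∈ D.H) : cj h D.E ≠ D.U := fun e => by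
  have A : ∀ a ∈ D.L, Ell (D.ph a).1 → (D.ph a).2 = 0 → h⁻¹ * a * h⁻¹⁻¹ ∈ D.Zs := fun a ha h0 h1 =>
    D.fx_E (D.conj_Q (inv_mem hh) ((D.mem_Q ha).2 (by rw [h1]; rfl))) fun x hx => by
      have := (D.bk_fx_of_comm (D.U_cent (e.le (conj_mem_cj h hx)) ha h0 (by rw [h1]; decide)
        (by rw [h1]; decide))).bk_conj (inv_mem hh)
      rwa [show h⁻¹ * (h * x * h⁻¹) * h⁻¹⁻¹ = x by group] at this
  have hK : h ∈ D.K := inv_mem_iff.1 (D.mem_K _ fun c => A _ (D.ze_mem c) (by rw [D.ph_ze]; decide)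
    (by rw [D.ph_ze]; rfl))
  obtain ⟨l, hl, e1⟩ := D.ph_surj (nv 1, 0, 0)
  obtain ⟨d, hd⟩ := A l hl (by rw [e1]; decide) (by rw [e1]; rfl)
  have := D.conj_ze hK d
  rw [← hd, show h * (h⁻¹ * l * h⁻¹⁻¹) * h⁻¹ = l by group] at this
  rw [this, D.ph_ze] at e1
  exact absurd e1 (by decide)

theorem card_X_le : Nat.card D.X ≤ 8192 * 3840 := by
  rw [← H88.ncard_conj_mul D.X (D.ze (wv 1))]
  refine Nat.mul_le_mul ?_ ?_
  · rw [show 8192 = Nat.card D.Q from D.card_Q.symm]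
    refine Set.ncard_le_ncard (t := (D.Q : Set G)) ?_ (Set.toFinite _)
    rintro _ ⟨x, hx, rfl⟩
    exact D.conj_Q (D.X_le_H hx) (D.ze_mem_Q _)
  · rw [show 3840 = Nat.card D.X0 by rw [D.card_XA, card_top, Nat.card_perm]; simp [Nat.factorial]]
    refine card_le_of_le fun g hg => ?_
    have h1 := mem_centralizer_singleton_iff.1 hg.2
    have gK := D.bk_stab (D.X_le_H hg.1) h1
    have h2 := (D.mem_X.1 hg.1).2
    refine ⟨gK, h2, mat_forall (P := fun t => Inv3 t → mm t tp = mm tp t → zc t (wv 1) = wv 1 → t = e3)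
      (by decide +kernel) _ (D.rh_inv3 gK) ?_ (D.ze_inj ?_), mem_top _⟩
    · rw [← D.rh_p, ← D.rh_mul gK D.p_mem, h2, D.rh_mul D.p_mem gK]
    · rw [← D.conj_ze gK, h1, mul_inv_cancel_right]

theorem card_fix_xq : Set.ncard {q | q ∈ D.Q ∧ D.sg xq * q = q * D.sg xq} = 32 := by
  have := Fact.mk Nat.prime_three
  have xK := D.sg_mem xq
  have xH := D.mem_H_of_rh xK (by rw [D.rh_sg, zc_e3])
  have x3 : D.sg xq ^ 3 = 1 := by rw [← map_pow, (by decide : xq ^ 3 = 1), map_one]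
  have A : ∀ w : {w : W0 // w.cd < 4}, ∃ t ∈ D.Q, D.rh t = tv w ∧ Commute (D.sg xq) t := fun w => by
    obtain ⟨g, hg, e⟩ := D.surj_Q w w.2
    have gK := D.Q_le_K hg
    obtain ⟨k, hk, e1⟩ := coset_fix (D.L ⊓ D.Q) 3 (fun h => by
      have := h.trans (card_dvd_of_le inf_le_right)
      rw [D.card_Q] at this
      exact absurd this (by decide)) g (D.sg xq) (D.sg xq)⁻¹ x3 (by rw [inv_pow, x3, inv_one]) fun k hk => by
        have h1 := (mul_mem_cancel_left (inv_mem hg)).1 hk.2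
        have h2 := D.conj_Q xH h1
        exact mem_inf.2 ⟨(D.coset_L gK).2 ⟨D.Q_le_K h2, by rw [D.pi_Q h2, D.pi_Q hg], by
          rw [D.rh_conj_of_e3 xK (D.Q_le_K h1) (D.rh_sg _), ((D.coset_L gK).1 hk.1).2.2]⟩, mul_mem (inv_mem hg) h2⟩
    exact ⟨k, (mul_mem_cancel_left (inv_mem hg)).1 hk.2, ((D.coset_L gK).1 hk.1).2.2.trans e,
      mul_inv_eq_iff_eq_mul.1 e1⟩
  choose t tQ tr tc using A
  have B : ∀ w c, D.rh (t w * D.ze c) = tv w := fun w c => by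
    rw [D.rh_mul (D.Q_le_K (tQ w)) (D.L_le (D.ze_mem c)), D.rh_L (D.ze_mem c), mm_e3, tr]
  rw [show {q | q ∈ D.Q ∧ D.sg xq * q = q * D.sg xq} =
      Set.range fun x : {w : W0 // w.cd < 4} × W0 => t x.1 * D.ze x.2 from Set.ext fun q => ⟨fun hq => ?_, ?_⟩,
    Set.ncard_range_of_injective fun x y e => ?_, Nat.card_prod, card_W0, Nat.card_eq_fintype_card]
  · decide
  · have e1 : x.1 = y.1 := Subtype.ext ((by decide : ∀ v w : W0, tv v = tv w → v = w) _ _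
      ((B x.1 x.2).symm.trans ((congrArg D.rh e).trans (B y.1 y.2))))
    beta_reduce at e
    rw [e1, mul_right_inj] at e
    exact Prod.ext e1 (D.ze_inj e)
  · obtain ⟨w, hw, e⟩ := D.rh_Q hq.1
    have h1 := (D.coset_L (D.Q_le_K (tQ ⟨w, hw⟩))).2 ⟨D.Q_le_K hq.1, by rw [D.pi_Q hq.1, D.pi_Q (tQ _)],
      e.trans (tr ⟨w, hw⟩).symm⟩
    have h2 := D.conj_ph xK h1
    rw [((tc ⟨w, hw⟩).inv_right.mul_right hq.2).eq, mul_inv_cancel_right, D.pi_sg, D.rh_sg, ac_e3] at h2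
    have h3 : ∀ a, a = act xq a → a = 0 := by decide +kernel
    obtain ⟨c, hc⟩ := D.ph_ker h1 (Prod.ext (h3 _ (congrArg (·.1) h2))
      (Prod.ext (h3 _ (congrArg (·.2.1) h2)) (h3 _ (congrArg (·.2.2) h2))))
    exact ⟨(⟨w, hw⟩, c), by beta_reduce; rw [← hc, mul_inv_cancel_left]⟩
  · rintro ⟨x, rfl⟩
    exact ⟨mul_mem (tQ _) (D.ze_mem_Q _), ((tc x.1).mul_right (D.ze_comm_of_rh xK (D.rh_sg _) _)).eq⟩

end Qd

end Cfsg.Agent.J4K
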