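/-
Project J4K: identification of the module `L/Z` with `N0 ⊗ W0`.
-/
import Cfsg.Agent.J4K.Fix

set_option autoImplicit false

namespace Cfsg.Agent.J4K.Cd

open Equiv

variable {V : Type*} [CommGroup V]

/-- `g` to the power `b` -/
def pw (b : Bool) (g : V) : V := if b then g else 1
theorem pw_xor {g : V} (h2 : g * g = 1) (a b : Bool) : pw (xor a b) g = pw a g * pw b g := by
  cases a <;> cases b <;> simp [pw, h2]
/-- the combination of three elements with coefficients `x` -/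
def om (w0 w1 w2 : V) (x : W0) : V := pw (bit x 0) w0 * pw (bit x 1) w1 * pw (bit x 2) w2
theorem om_add (h2 : ∀ v : V, v * v = 1) (w0 w1 w2 : V) (x y : W0) :
    om w0 w1 w2 (x + y) = om w0 w1 w2 x * om w0 w1 w2 y := by
  simp only [om, bit_add x y 0 (by decide), bit_add x y 1 (by decide), bit_add x y 2 (by decide),
    pw_xor (h2 _)]
  ac_rfl
theorem bit_mkW (a b c : Bool) : bit (mkW a b c) 0 = a ∧ bit (mkW a b c) 1 = b ∧ bit (mkW a b c) 2 = c := by
  revert a b c; decide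
theorem om_mkW (w0 w1 w2 : V) (a b c : Bool) : om w0 w1 w2 (mkW a b c) = pw a w0 * pw b w1 * pw c w2 := by
  obtain ⟨h0, h1, h2⟩ := bit_mkW a b c
  rw [om, h0, h1, h2]
theorem om_mem {F : Subgroup V} {w0 w1 w2 : V} (h0 : w0 ∈ F) (h1 : w1 ∈ F) (h2 : w2 ∈ F) (x : W0) :
    om w0 w1 w2 x ∈ F := by
  have h : ∀ (b : Bool) {w : V}, w ∈ F → pw b w ∈ F := fun b w hw => by
    cases b
    exacts [one_mem _, hw]
  exact mul_mem (mul_mem (h _ h0) (h _ h1)) (h _ h2)
/-- pure tensors -/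
def tens (x : W0) (c : N0) : U0 := (sm (bit x 0) c, sm (bit x 1) c, sm (bit x 2) c)
theorem lin_eq (t : M3) (u : U0) : lin t u = tens t.1 u.1 + tens t.2.1 u.2.1 + tens t.2.2 u.2.2 := rfl
theorem tens_mkW (a b c : Bool) (n : N0) : tens (mkW a b c) n = (sm a n, sm b n, sm c n) := by
  obtain ⟨h0, h1, h2⟩ := bit_mkW a b c
  rw [tens, h0, h1, h2]

theorem exists_indep [Finite V] (h2 : ∀ v : V, v * v = 1) (F : Subgroup V) (hF : 4 < Nat.card F) :
    ∃ w0 ∈ F, ∃ w1 ∈ F, ∃ w2 ∈ F, ∀ x, om w0 w1 w2 x = 1 → x = 0 := by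
  classical
  have h : ∀ a b c d : V, ∃ w ∈ F, w ≠ a ∧ w ≠ b ∧ w ≠ c ∧ w ≠ d := fun a b c d => by
    by_contra hn
    have h1 : (F : Set V) ⊆ {a, b, c, d} := fun w hw => by
      by_contra h3
      simp only [Set.mem_insert_iff, Set.mem_singleton_iff, not_or] at h3
      exact hn ⟨w, hw, h3⟩
    have h3 := Set.ncard_le_ncard h1 (Set.toFinite _)
    have h4 := Set.ncard_insert_le a ({b, c, d} : Set V)
    have h5 := Set.ncard_insert_le b ({c, d} : Set V)
    have h6 := Set.ncard_insert_le c ({d} : Set V)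
    rw [Set.ncard_singleton] at h6
    have h7 : (F : Set V).ncard = Nat.card F := rfl
    omega
  have hi : ∀ {a b : V}, a * b = 1 → b = a := fun {a b} e => by
    rw [← mul_one b, ← h2 a, ← mul_assoc, mul_comm b, e, one_mul]
  obtain ⟨w0, m0, a0, -⟩ := h 1 1 1 1
  obtain ⟨w1, m1, a1, b1, -⟩ := h 1 w0 1 1
  obtain ⟨w2, m2, a2, b2, c2, d2⟩ := h 1 w0 w1 (w0 * w1)
  refine ⟨w0, m0, w1, m1, w2, m2, fun x hx => ?_⟩
  have e : x = mkW (bit x 0) (bit x 1) (bit x 2) := by clear hx; revert x; decide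
  rw [om] at hx
  generalize bit x 0 = a, bit x 1 = b, bit x 2 = c at e hx
  subst e
  cases a <;> cases b <;> cases c <;> simp only [pw, if_true, Bool.false_eq_true, if_false, one_mul,
    mul_one] at hx
  exacts [rfl, absurd hx a2, absurd hx a1, absurd (hi hx) c2, absurd hx a0, absurd (hi hx) b2,
    absurd (hi hx) b1, absurd (hi hx) d2]

/-- a permutation moving `nv 1` to `c` -/
noncomputable def gc (c : N0) : Perm (Fin 5) := if h : c = 0 then 1 else (act_trans h).choose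
theorem act_gc {c : N0} (h : c ≠ 0) : act (gc c) (nv 1) = c := by
  rw [gc, dif_neg h]; exact (act_trans h).choose_spec

variable (a : Perm (Fin 5) →* MulAut V)

/-- the pure tensor `c ⊗ w` -/
noncomputable def nu (c : N0) (w : V) : V := if c = 0 then 1 else a (gc c) w
/-- the fixed points of `D0` -/
def Wf : Subgroup V where
  carrier := {w | ∀ s ∈ D0, a s w = w}
  mul_mem' hv hw s hs := by rw [map_mul, hv s hs, hw s hs]
  one_mem' s _ := map_one _
  inv_mem' hv s hs := by rw [map_inv, hv s hs]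

theorem nu_zero (w : V) : nu a 0 w = 1 := if_pos rfl
theorem nu_one (c : N0) : nu a c 1 = 1 := by rw [nu, map_one, ite_self]
theorem nu_mul (c : N0) (v w : V) : nu a c (v * w) = nu a c v * nu a c w := by
  by_cases h : c = 0 <;> simp [nu, h]
theorem nu_sm (b : Bool) (c : N0) (w : V) : nu a (sm b c) w = nu a c (pw b w) := by
  cases b
  · exact (nu_zero a w).trans (nu_one a c).symm
  · rfl
variable {a}
theorem a_eq_nu {w : V} (hw : w ∈ Wf a) (s : Perm (Fin 5)) : a s w = nu a (act s (nv 1)) w := by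
  have h : act s (nv 1) ≠ 0 := fun h => absurd (act_eq_zero h) (by decide)
  have h1 : (gc (act s (nv 1)))⁻¹ * s ∈ D0 := by
    have h0 := act_inv_act (gc (act s (nv 1))) (nv 1)
    rwa [act_gc h, ← act_mul] at h0
  rw [nu, if_neg h]
  conv_rhs => rw [← hw _ h1, ← MulAut.mul_apply, ← map_mul, mul_inv_cancel_left]
theorem nu_nv1 {w : V} (hw : w ∈ Wf a) : nu a (nv 1) w = w := by
  have := a_eq_nu hw 1
  rw [act_one, map_one] at this
  exact this.symm
theorem a_nu {w : V} (hw : w ∈ Wf a) (s : Perm (Fin 5)) (c : N0) : a s (nu a c w) = nu a (act s c) w := by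
  by_cases h : c = 0
  · rw [h, act_zero, nu_zero, map_one]
  · rw [nu, if_neg h, ← MulAut.mul_apply, ← map_mul, a_eq_nu hw, act_mul, act_gc h]

theorem nu_add (h2 : ∀ v : V, v * v = 1)
    (hx : ∀ x : Perm (Fin 5), x ^ 3 = 1 → x ≠ 1 → ∀ v, a x v = v → v = 1) {w : V} (hw : w ∈ Wf a)
    (c d : N0) : nu a (c + d) w = nu a c w * nu a d w := by
  have h : ∀ c d : N0, c ≠ 0 → d ≠ 0 → c ≠ d → (pl.any fun f => decide ((∀ i, f (f (f i)) = i) ∧
      actF f c = d ∧ actF f d = c + d)) = true := by decide +kernel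
  by_cases hc : c = 0
  · rw [hc, zero_add, nu_zero, one_mul]
  by_cases hd : d = 0
  · rw [hd, add_zero, nu_zero, mul_one]
  by_cases hcd : c = d
  · rw [hcd, N0.add_self, nu_zero, h2]
  obtain ⟨x, x3, x1, x2⟩ := perm_exists
    (P := fun f => (∀ i, f (f (f i)) = i) ∧ actF f c = d ∧ actF f d = c + d) (h c d hc hd hcd)
  have x1 : act x c = d := x1
  have x2 : act x d = c + d := x2
  have x4 : act x (c + d) = c := by rw [act_add, x1, x2, add_comm c, ← add_assoc, N0.add_self, zero_add]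
  have h3 := hx x (Equiv.ext x3) (fun e => hcd (by rw [← x1, e, act_one]))
    (nu a c w * nu a d w * nu a (c + d) w) (by
      rw [map_mul, map_mul, a_nu hw, a_nu hw, a_nu hw, x1, x2, x4]; ac_rfl)
  rw [← mul_one (nu a c w * nu a d w), ← h2 (nu a (c + d) w), ← mul_assoc, h3, one_mul]

/-- an element of order four of `D0` -/
def g4 : Perm (Fin 5) := swap 0 3 * swap 0 1 * swap 0 2

theorem modA {T : Type*} [Finite V] [Group T] (a : Perm (Fin 5) →* MulAut V) (b : T →* MulAut V)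
    (hab : ∀ s t v, a s (b t v) = b t (a s v)) (h2 : ∀ v : V, v * v = 1) (hc : Nat.card V = 4096)
    (hx : ∀ x : Perm (Fin 5), x ^ 3 = 1 → x ≠ 1 → ∀ v, a x v = v → v = 1)
    (y : T) (hy7 : y ^ 7 = 1) (hy : ∀ v, b y v = v → v = 1) :
    ∃ (Φ : U0 → V) (r : T → M3), Function.Bijective Φ ∧ (∀ u v, Φ (u + v) = Φ u * Φ v) ∧
      ∀ s t u, Φ (ac s (r t) u) = a s (b t (Φ u)) := by
  have hb : ∀ t, ∀ w ∈ Wf a, b t w ∈ Wf a := fun t w hw s hs => by rw [hab, hw s hs]
  have hW : 4 < Nat.card (Wf a) := by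
    have : Fact (Nat.Prime 7) := ⟨by norm_num⟩
    have h1 := card_mod_of_fpf 7 (b y) (by rw [← map_pow, hy7, map_one]) hy (Wf a) (hb y)
    let _ : MulAction D0 V := MulAction.compHom V (a.comp D0.subtype)
    obtain ⟨w, hw, hw1⟩ := (IsPGroup.of_card (p := 2) (n := 3) card_D0).exists_fixed_point_of_prime_dvd_card_of_fixed_point V
      (by rw [hc]; norm_num) (a := 1) fun s => map_one (a s)
    have : Nontrivial (Wf a) := ⟨⟨1, ⟨w, fun s hs => hw ⟨s, hs⟩⟩, fun e => hw1 (congrArg Subtype.val e)⟩⟩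
    have h3 := Finite.one_lt_card (α := Wf a)
    unfold Nat.ModEq at h1
    omega
  obtain ⟨w0, m0, w1, m1, w2, m2, hi⟩ := exists_indep h2 _ hW
  let Φ : U0 → V := fun u => nu a u.1 w0 * nu a u.2.1 w1 * nu a u.2.2 w2
  have Φadd : ∀ u v, Φ (u + v) = Φ u * Φ v := fun u v => by
    simp only [Φ, Prod.fst_add, Prod.snd_add, nu_add h2 hx m0, nu_add h2 hx m1, nu_add h2 hx m2]
    ac_rfl
  have Φact : ∀ s u, Φ (ac s e3 u) = a s (Φ u) := fun s u => by
    simp only [Φ, ac_e3, map_mul, a_nu m0, a_nu m1, a_nu m2]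
  have Φtens : ∀ x c, Φ (tens x c) = nu a c (om w0 w1 w2 x) := fun x c => by
    simp only [Φ, tens, om, nu_sm, nu_mul]
  have Φ1 : ∀ x, Φ (tens x (nv 1)) = om w0 w1 w2 x := fun x => by
    rw [Φtens, nu_nv1 (om_mem m0 m1 m2 x)]
  have hg : ∀ c : N0, c + act g4 c + act g4 (act g4 c) + act g4 (act g4 (act g4 c)) =
      sm (B0 c (nv 1)) (nv 1) := by decide +kernel
  have hg' : ∀ c : N0, act g4 c = c → c = sm (decide (c = nv 1)) (nv 1) := by decide +kernel
  have hker : ∀ u, Φ u = 1 → u = 0 := fun u hu => by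
    have h1 : ∀ u, Φ u = 1 → B0 u.1 (nv 1) = false ∧ B0 u.2.1 (nv 1) = false ∧ B0 u.2.2 (nv 1) = false :=
      fun u hu => by
        have h3 := hi (mkW (B0 u.1 (nv 1)) (B0 u.2.1 (nv 1)) (B0 u.2.2 (nv 1))) (by
          rw [← Φ1, tens_mkW, ← hg, ← hg, ← hg]
          have : Φ (u + ac g4 e3 u + ac g4 e3 (ac g4 e3 u) + ac g4 e3 (ac g4 e3 (ac g4 e3 u))) = 1 := by
            simp only [Φadd, Φact, hu, map_one, mul_one]
          simp only [ac_e3] at this
          exact this)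
        have h4 := bit_mkW (B0 u.1 (nv 1)) (B0 u.2.1 (nv 1)) (B0 u.2.2 (nv 1))
        rw [h3] at h4
        exact ⟨h4.1.symm, h4.2.1.symm, h4.2.2.symm⟩
    have h3 : ∀ c : N0, (∀ s, B0 (act s c) (nv 1) = false) → c = 0 := fun c h => by
      have h4 : ∀ c : N0, (∀ d, d ≠ 0 → B0 c d = false) → c = 0 := by decide +kernel
      refine h4 c fun d hd => ?_
      obtain ⟨s, rfl⟩ := act_trans hd
      rw [← B0_act s⁻¹, act_inv_act, h]
    have h4 := fun s => h1 (ac s e3 u) (by rw [Φact, hu, map_one])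
    simp only [ac_e3] at h4
    exact Prod.ext (h3 _ fun s => (h4 s).1) (Prod.ext (h3 _ fun s => (h4 s).2.1) (h3 _ fun s => (h4 s).2.2))
  have hinj : Function.Injective Φ := fun u v e => U0.eq_of_add (hker _ (by rw [Φadd, e, h2]))
  have hbij : Function.Bijective Φ := hinj.bijective_of_nat_card_le (by rw [hc, card_U0])
  have hspan : ∀ w ∈ Wf a, ∃ x, om w0 w1 w2 x = w := fun w hw => by
    obtain ⟨u, rfl⟩ := hbij.2 w
    have h1 := hinj ((Φact g4 u).trans (hw g4 (by decide +kernel)))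
    rw [ac_e3] at h1
    refine ⟨mkW (decide (u.1 = nv 1)) (decide (u.2.1 = nv 1)) (decide (u.2.2 = nv 1)), ?_⟩
    rw [← Φ1, tens_mkW, ← hg' _ (congrArg Prod.fst h1), ← hg' _ (congrArg (fun v : U0 => v.2.1) h1),
      ← hg' _ (congrArg (fun v : U0 => v.2.2) h1)]
  choose! rx hrx using hspan
  have hbn : ∀ t c w, b t (nu a c w) = nu a c (b t w) := fun t c w => by
    by_cases h : c = 0 <;> simp [nu, h, hab]
  refine ⟨Φ, fun t => (rx (b t w0), rx (b t w1), rx (b t w2)), hbij, Φadd, fun s t u => ?_⟩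
  rw [hab, ← Φact, ac_e3, ac, lin_eq, Φadd, Φadd, Φtens, Φtens, Φtens, hrx _ (hb t _ m0), hrx _ (hb t _ m1),
    hrx _ (hb t _ m2)]
  simp only [Φ, map_mul, hbn]

end Cfsg.Agent.J4K.Cd
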