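/-
Project J4K: the invariant commutator and squaring maps on `N0 ⊗ W0`.
-/
import Cfsg.Agent.J4K.CoordA

set_option autoImplicit false

namespace Cfsg.Agent.J4K.Cd

open Equiv

variable {A : Type*} [CommGroup A]

theorem form1 (h2 : ∀ v : A, v * v = 1) (b : N0 → N0 → A) (hb : ∀ c d e, b c (d + e) = b c d * b c e)
    (hb' : ∀ c d e, b (c + d) e = b c e * b d e) (ha : ∀ s c d, b (act s c) (act s d) = b c d) (c d : N0) :
    b c d = pw (B0 c d) (b (nv 1) (nv 8)) := by
  have h1 : ∀ c d, B0 c d = true → b c d = b (nv 1) (nv 8) := fun c d h => by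
    obtain ⟨s, rfl, rfl⟩ := act_trans2 h
    exact ha _ _ _
  have h3 : ∀ c d : N0, c ≠ 0 → B0 c d = false → ∃ e, B0 c e = true ∧ B0 c (d + e) = true := by
    decide +kernel
  cases h : B0 c d
  · change _ = 1
    by_cases hc : c = 0
    · have := hb' 0 0 d
      rw [add_zero, h2] at this
      rw [hc, this]
    · obtain ⟨e, e1, e2⟩ := h3 c d hc h
      have := hb c (d + e) e
      rwa [add_assoc, N0.add_self, add_zero, h1 _ _ e1, h1 _ _ e2, h2] at this
  · exact h1 c d h

theorem tens_add (x : W0) (c d : N0) : tens x (c + d) = tens x c + tens x d := by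
  simp only [tens, sm_add, Prod.mk_add_mk]
theorem ac_tens (s : Perm (Fin 5)) (x : W0) (c : N0) : ac s e3 (tens x c) = tens x (act s c) := by
  simp only [ac_e3, tens, act_sm]

theorem formB (h2 : ∀ v : A, v * v = 1) (cm : U0 → U0 → A) (sq : U0 → A)
    (cm_add : ∀ u v w, cm (u + v) w = cm u w * cm v w) (cm_symm : ∀ u v, cm u v = cm v u)
    (cm_act : ∀ s u v, cm (ac s e3 u) (ac s e3 v) = cm u v)
    (sq_add : ∀ u v, sq (u + v) = sq u * sq v * cm u v) (sq_act : ∀ s u, sq (ac s e3 u) = sq u) :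
    ∃ z0 z1 z2 : A, (∀ u v, cm u v = om z0 z1 z2 (be u v)) ∧ ∀ u, sq u = om z0 z1 z2 (qq u) := by
  have cm_add' : ∀ u v w, cm u (v + w) = cm u v * cm u w := fun u v w => by
    rw [cm_symm, cm_add, cm_symm v, cm_symm w]
  obtain ⟨γ, hγ⟩ : ∃ γ : W0 → W0 → A, ∀ x y c d, cm (tens x c) (tens y d) = pw (B0 c d) (γ x y) :=
    ⟨fun x y => cm (tens x (nv 1)) (tens y (nv 8)), fun x y => form1 h2 (fun c d => cm (tens x c) (tens y d))
      (fun c d e => by rw [tens_add, cm_add']) (fun c d e => by rw [tens_add, cm_add])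
      (fun s c d => by rw [← ac_tens, ← ac_tens, cm_act])⟩
  have γs : ∀ x y, γ x y = γ y x := fun x y =>
    (hγ x y (nv 1) (nv 8)).symm.trans ((cm_symm _ _).trans (hγ y x (nv 8) (nv 1)))
  have hq : ∀ x c, sq (tens x c) = 1 := fun x c => by
    have h1 : ∀ c, c ≠ 0 → sq (tens x c) = sq (tens x (nv 1)) := fun c hc => by
      obtain ⟨s, rfl⟩ := act_trans hc
      rw [← ac_tens, sq_act]
    by_cases hc : c = 0
    · have := sq_add (tens x 0) (tens x 0)
      rwa [← tens_add, add_zero, h2, hγ, B0_self, one_mul, ← hc] at this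
    · have := sq_add (tens x (nv 1)) (tens x (nv 2))
      rw [← tens_add, h1 (nv 2) (by decide), h1 _ (by decide), h2, hγ, one_mul] at this
      exact (h1 c hc).trans this
  have γ1 : ∀ x, γ x x = 1 := fun x => by
    have := sq_add (tens x (nv 1)) (tens x (nv 8))
    rw [← tens_add, hq, hq, hq, hγ, one_mul, one_mul] at this
    exact this.symm
  have hd : ∀ u : U0, u = tens (wv 1) u.1 + tens (wv 2) u.2.1 + tens (wv 4) u.2.2 := fun u =>
    (lin_e3 u).symm
  have p1 : ∀ b : Bool, pw b (1 : A) = 1 := fun b => by cases b <;> rfl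
  refine ⟨γ (wv 2) (wv 4), γ (wv 4) (wv 1), γ (wv 1) (wv 2), fun u v => ?_, fun u => ?_⟩
  · conv_lhs => rw [hd u, hd v]
    simp only [cm_add, cm_add', hγ, γ1, p1, be, om_mkW, pw_xor (h2 _), γs (wv 4) (wv 2), γs (wv 1) (wv 4),
      γs (wv 2) (wv 1), one_mul, mul_one]
    ac_rfl
  · conv_lhs => rw [hd u]
    simp only [sq_add, cm_add, hγ, hq, qq, om_mkW, γs (wv 1) (wv 4), one_mul, mul_one, B0_comm u.1 u.2.2]
    ac_rfl

theorem lin_tens (t : M3) (x : W0) (c : N0) : lin t (tens x c) = tens (ap t x) c := by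
  have h : ∀ (a b : Bool) (c : N0), sm a (sm b c) = sm (b && a) c := by decide
  have h1 : ∀ (b : Bool) (w : W0) (i : ℕ), i < 3 → bit (smW b w) i = (b && bit w i) := by decide
  have h2 : ∀ (a b : Bool) (c : N0), sm (xor a b) c = sm a c + sm b c := by decide
  simp only [lin, tens, ap, h, bit_add _ _ 0 (by decide), bit_add _ _ 1 (by decide),
    bit_add _ _ 2 (by decide), h1 _ _ 0 (by decide), h1 _ _ 1 (by decide), h1 _ _ 2 (by decide), h2]

theorem be_tens (x y : W0) {c d : N0} (h : B0 c d = true) : be (tens x c) (tens y d) = cross x y := by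
  have h1 : ∀ a b : Bool, B0 (sm a c) (sm b d) = (a && b) := fun a b => by
    cases a <;> cases b <;> simp [sm, B0_zero_left, B0_zero_right, h]
  simp only [be, tens, h1, cross]

theorem lin_inj {t u : M3} (h : ∀ a, lin t a = lin u a) : t = u := by
  have h1 : ∀ x y : W0, tens x (nv 1) = tens y (nv 1) → x = y := by decide
  have h2 : ∀ x, ap t x = ap u x := fun x => h1 _ _ (by rw [← lin_tens, ← lin_tens, h])
  have h3 : ∀ t : M3, t = (ap t (wv 1), ap t (wv 2), ap t (wv 4)) := mat_forall (by decide +kernel)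
  rw [h3 t, h3 u, h2, h2, h2]

theorem lin_mm (t u : M3) (a : U0) : lin (mm t u) a = lin t (lin u a) := by
  rw [lin_eq u, lin_add, lin_add, lin_tens, lin_tens, lin_tens]; rfl

theorem inv3_of_inj {t : M3} (h : ∀ a, lin t a = 0 → a = 0) : Inv3 t := fun c hc => by
  have h1 : ∀ x : W0, tens x (nv 1) = 0 → x = 0 := by decide
  exact h1 c (h _ (by rw [lin_tens, hc]; decide))

/-- the model identity behind `conj_ze` -/
theorem be_ac (s : Perm (Fin 5)) (t : M3) (x y : W0) :
    be (ac s t (tens x (nv 1))) (ac s t (tens y (nv 8))) = cross (ap t x) (ap t y) := by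
  have h : ∀ u, ac s t u = lin t (ac s e3 u) := fun u => by rw [ac_e3]; rfl
  rw [h, h, ac_tens, ac_tens, lin_tens, lin_tens, be_tens _ _ (by rw [B0_act]; decide)]

end Cfsg.Agent.J4K.Cd
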