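/-
Project J4K: the group `L` in coordinates.
-/
import Cfsg.Agent.J4K.CoordB

set_option autoImplicit false

namespace Cfsg.Agent.J4K.Cd

open Equiv Subgroup

theorem modA' {V T : Type*} [Group V] [Finite V] [Group T] (hV : ∀ u v : V, u * v = v * u)
    (a : Perm (Fin 5) →* MulAut V) (b : T →* MulAut V)
    (hab : ∀ s t v, a s (b t v) = b t (a s v)) (h2 : ∀ v : V, v * v = 1) (hc : Nat.card V = 4096)
    (hx : ∀ x : Perm (Fin 5), x ^ 3 = 1 → x ≠ 1 → ∀ v, a x v = v → v = 1)
    (y : T) (hy7 : y ^ 7 = 1) (hy : ∀ v, b y v = v → v = 1) :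
    ∃ (Φ : U0 → V) (r : T → M3), Function.Bijective Φ ∧ (∀ u v, Φ (u + v) = Φ u * Φ v) ∧
      ∀ s t u, Φ (ac s (r t) u) = a s (b t (Φ u)) :=
  letI : CommGroup V := { ‹Group V› with mul_comm := hV }
  modA a b hab h2 hc hx y hy7 hy

theorem formC {L : Type*} [Group L] (ψ : L → U0) (hs : Function.Surjective ψ)
    (hm : ∀ a b, ψ (a * b) = ψ a + ψ b) (hk : ∀ a b, ψ a = ψ b → a⁻¹ * b ∈ center L)
    (h2 : ∀ z ∈ center L, z * z = 1)
    (ha : ∀ s, ∃ f : MulAut L, (∀ a, ψ (f a) = ac s e3 (ψ a)) ∧ ∀ z ∈ center L, f z = z) :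
    ∃ ze : W0 → L, (∀ c, ze c ∈ center L) ∧ (∀ c d, ze (c + d) = ze c * ze d) ∧
      (∀ a b, a * b = b * a * ze (be (ψ a) (ψ b))) ∧ ∀ a, a * a = ze (qq (ψ a)) := by
  choose lf hlf using hs
  have h1 : ψ 1 = 0 := by
    have := hm 1 1
    rw [mul_one] at this
    exact left_eq_add.1 this
  have hd : ∀ a, ∃ c ∈ center L, a = lf (ψ a) * c := fun a => ⟨_, hk _ _ (hlf (ψ a)), by group⟩
  have hc : ∀ (a b : L) {c : L} (d : L), c ∈ center L → a * c * (b * d) = a * b * (c * d) :=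
    fun a b c d hc => by rw [mul_assoc a, ← mul_assoc c, ← mem_center_iff.1 hc b]; group
  obtain ⟨cm, hcm⟩ : ∃ cm : U0 → U0 → center L, ∀ a b, a * b = b * a * cm (ψ a) (ψ b) := by
    refine ⟨fun u v => ⟨(lf v * lf u)⁻¹ * (lf u * lf v), hk _ _ (by rw [hm, hm, add_comm])⟩, fun a b => ?_⟩
    obtain ⟨c, c1, c2⟩ := hd a
    obtain ⟨d, d1, d2⟩ := hd b
    change a * b = b * a * ((lf (ψ b) * lf (ψ a))⁻¹ * (lf (ψ a) * lf (ψ b)))
    generalize lf (ψ a) = a', lf (ψ b) = b' at c2 d2 ⊢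
    rw [c2, d2, hc _ _ _ c1, hc _ _ _ d1, mul_assoc (b' * a'), ← mem_center_iff.1 (mul_mem d1 c1),
      mem_center_iff.1 c1 d]
    group
  obtain ⟨sq, hsq⟩ : ∃ sq : U0 → center L, ∀ a, a * a = sq (ψ a) := by
    refine ⟨fun u => ⟨lf u * lf u, by simpa using hk 1 (lf u * lf u) (by rw [hm, U0.add_self, h1])⟩,
      fun a => ?_⟩
    obtain ⟨c, c1, c2⟩ := hd a
    change a * a = lf (ψ a) * lf (ψ a)
    generalize lf (ψ a) = a' at c2 ⊢
    rw [c2, hc _ _ _ c1, h2 c c1, mul_one]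
  have hz : ∀ (c : center L) (g : L), (c : L) * g = g * c := fun c g => (mem_center_iff.1 c.2 g).symm
  let _ : CommGroup (center L) := { (inferInstance : Group (center L)) with
    mul_comm := fun a b => Subtype.ext (hz _ _) }
  have h2' : ∀ z : center L, z * z = 1 := fun z => Subtype.ext (h2 _ z.2)
  have hsy : ∀ u v, cm u v = cm v u := fun u v => by
    have e1 := hcm (lf u) (lf v)
    rw [hcm (lf v), hlf, hlf, mul_assoc, left_eq_mul] at e1
    have e2 : cm v u * cm u v = 1 := Subtype.ext e1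
    rw [← mul_one (cm u v), ← h2' (cm v u), ← mul_assoc, mul_comm (cm u v), e2, one_mul]
  obtain ⟨z0, z1, z2, e1, e2⟩ := formB h2' cm sq (fun u v w => by
      have e1 := hcm (lf u * lf v) (lf w)
      rw [mul_assoc, hcm (lf v), ← mul_assoc, ← mul_assoc, hcm (lf u), hm, hlf, hlf, hlf,
        mul_assoc _ _ (lf v), hz, ← mul_assoc, mul_assoc, mul_assoc (lf w), mul_left_cancel_iff] at e1
      exact Subtype.ext e1.symm) hsy (fun s u v => by
      obtain ⟨f, f1, f2⟩ := ha s
      have e1 := congrArg f (hcm (lf u) (lf v))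
      rw [map_mul, map_mul, map_mul, hcm, f1, f1, hlf, hlf, f2 _ (cm u v).2, mul_left_cancel_iff] at e1
      exact Subtype.ext e1) (fun u v => by
      have e1 := hsq (lf u * lf v)
      rw [mul_assoc, ← mul_assoc (lf v), hcm (lf v), hm, hlf, hlf, mul_assoc _ _ (lf v), hz,
        ← mul_assoc, ← mul_assoc, ← mul_assoc, hsq, mul_assoc _ (lf v) (lf v), hsq, hlf, hlf, hsy v] at e1
      exact Subtype.ext e1.symm) (fun s u => by
      obtain ⟨f, f1, f2⟩ := ha s
      have e1 := congrArg f (hsq (lf u))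
      rw [map_mul, hsq, f1, hlf, f2 _ (sq u).2] at e1
      exact Subtype.ext e1)
  exact ⟨fun c => (om z0 z1 z2 c : center L), fun c => Subtype.property _,
    fun c d => congrArg Subtype.val (om_add h2' z0 z1 z2 c d), fun a b => by rw [hcm, e1],
    fun a => by rw [hsq, e2]⟩

/-- The action of `Aut(L)` on `L / Z(L)`. -/
def autQ (L : Type*) [Group L] : MulAut L →* MulAut (L ⧸ center L) where
  toFun φ := QuotientGroup.congr _ _ φ (characteristic_iff_map_eq.mp inferInstance φ)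
  map_one' := by
    ext x
    induction x using QuotientGroup.induction_on
    rfl
  map_mul' φ ψ := by
    ext x
    induction x using QuotientGroup.induction_on
    rfl

theorem aut_center {L : Type*} [Group L] (f : MulAut L) {z : L} (hz : z ∈ center L) : f z ∈ center L :=
  mem_center_iff.2 fun g => by
    rw [← f.apply_symm_apply g, ← map_mul, ← map_mul, mem_center_iff.1 hz]

/-- an involution commuting with a fixed point free automorphism of order 7 centralises the centre -/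
theorem cent_of_inv {L : Type*} [Group L] [Finite L] (hZ : Nat.card (center L) = 8)
    (h2 : ∀ z ∈ center L, z * z = 1) (y k : MulAut L) (hy7 : y ^ 7 = 1) (hy : ∀ v, y v = v → v = 1)
    (hc : ∀ v, k (y v) = y (k v)) (hk : ∀ z ∈ center L, k (k z) = z) : ∀ z ∈ center L, k z = z := by
  have : Fact (Nat.Prime 7) := ⟨by norm_num⟩
  let F : Subgroup L := center L ⊓ MonoidHom.eqLocus k.toMonoidHom (MonoidHom.id L)
  have hF : ∀ v, v ∈ F ↔ v ∈ center L ∧ k v = v := fun v => Iff.rfl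
  have h1 := card_mod_of_fpf 7 y hy7 hy F fun v hv =>
    (hF _).2 ⟨aut_center y hv.1, by rw [hc, ((hF v).1 hv).2]⟩
  have h3 : Nontrivial F := by
    have : Nontrivial (center L) := Finite.one_lt_card_iff_nontrivial.1 (by omega)
    obtain ⟨⟨z, hz⟩, hz1⟩ := exists_ne (1 : center L)
    have hz1 : z ≠ 1 := fun e => hz1 (Subtype.ext e)
    by_cases h : k z = z
    · exact ⟨⟨⟨z, hz, h⟩, 1, fun e => hz1 (congrArg Subtype.val e)⟩⟩
    · refine ⟨⟨⟨z * k z, (hF _).2 ⟨mul_mem hz (aut_center k hz), ?_⟩⟩, 1, fun e => h ?_⟩⟩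
      · rw [map_mul, hk z hz, mem_center_iff.1 hz]
      · have e : z * k z = 1 := congrArg Subtype.val e
        rw [← h2 z hz] at e
        exact mul_left_cancel e
  have h4 := Finite.one_lt_card (α := F)
  have h5 : F = center L := eq_of_le_of_card_ge inf_le_left (by unfold Nat.ModEq at h1; omega)
  exact fun z hz => ((hF z).1 (h5 ▸ hz)).2

end Cfsg.Agent.J4K.Cd
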