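/-
Project J4K: existence of coordinates.
-/
import Cfsg.Agent.J4K.Defs
import Cfsg.Agent.J4K.CoordC
import Cfsg.Agent.H1.Frattini
import Cfsg.Agent.H9.SLBasic

set_option autoImplicit false

namespace Cfsg.Agent.J4K

open Subgroup Equiv Cfsg.Agent.H70

namespace Cd

theorem core {K L T : Type*} [Group K] [Group L] [Group T] [Finite K] [Finite L] [Finite T] [IsSimpleGroup T]
    (hT : Nat.card T = 168) (ι : L →* K) (hι : Function.Injective ι) (κ : K →* MulAut L)
    (hκ : ∀ k l, ι (κ k l) = k * ι l * k⁻¹) (φ : K →* Perm (Fin 5) × T) (hφ : Function.Surjective φ)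
    (hker : φ.ker = ι.range) (hLs : Cfsg.IsSpecial 2 L) (hLc : Nat.card L = 2 ^ 15)
    (h2 : ∀ z ∈ center L, z * z = 1) (hZc : Nat.card (center L) = 8)
    (hxy : ∀ x y : K, orderOf x = 3 → orderOf y = 7 → x * y = y * x →
      (∀ l, κ x l = l → l ∈ center L) ∧ ∀ l, κ y l = l → l = 1) :
    ∃ (ψ : L → U0) (r : T → M3) (ze : W0 → L), Function.Surjective ψ ∧ (∀ a b, ψ (a * b) = ψ a + ψ b) ∧
      (∀ a, ψ a = 0 ↔ a ∈ center L) ∧ (∀ c d, ze (c + d) = ze c * ze d) ∧ Function.Injective ze ∧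
      (∀ a, a ∈ center L ↔ ∃ c, a = ze c) ∧ (∀ a b, a * b = b * a * ze (be (ψ a) (ψ b))) ∧
      (∀ a, a * a = ze (qq (ψ a))) ∧ (∀ t u, r (t * u) = mm (r t) (r u)) ∧ (∀ t, Inv3 (r t)) ∧
      (∀ t, r t = e3 ↔ t = 1) ∧ (∀ m, Inv3 m → ∃ t, r t = m) ∧
      (∀ k a, ψ (κ k a) = ac (φ k).1 (r (φ k).2) (ψ a)) ∧ ∀ k c, κ k (ze c) = ze (zc (r (φ k).2) c) := by
  have : Fact (Nat.Prime 7) := ⟨by norm_num⟩
  have hcN : Nat.card φ.ker = 2 ^ 15 := by rw [hker, ← hLc]; exact (Nat.card_congr (ι.ofInjective hι).toEquiv).symm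
  have hpow : ∀ k, φ k = 1 → k ^ 2 ^ 15 = 1 := fun k hk => by
    have := pow_card_eq_one' (x := (⟨k, hk⟩ : φ.ker))
    rw [hcN] at this
    exact congrArg Subtype.val this
  have hκι : ∀ a l, κ (ι a) l = a * l * a⁻¹ := fun a l => hι (by rw [hκ, map_mul, map_mul, map_inv])
  have hκZ : ∀ k, φ k = 1 → ∀ z ∈ center L, κ k z = z := fun k hk z hz => by
    obtain ⟨a, rfl⟩ : k ∈ ι.range := hker ▸ hk
    rw [hκι, mem_center_iff.1 hz, mul_inv_cancel_right]
  obtain ⟨y0, hy0⟩ := exists_prime_orderOf_dvd_card' (G := T) 7 (by rw [hT]; norm_num)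
  have y07 : y0 ^ 7 = 1 := hy0 ▸ pow_orderOf_eq_one y0
  have y01 : y0 ≠ 1 := fun e => by rw [e, orderOf_one] at hy0; omega
  obtain ⟨y, φy, y7⟩ : ∃ y, φ y = (1, y0) ∧ y ^ 7 = 1 := by
    obtain ⟨k, hk⟩ := hφ (1, y0)
    refine ⟨k ^ 2 ^ 15, ?_, ?_⟩
    · rw [map_pow, hk, Prod.pow_mk, one_pow, show 2 ^ 15 = 7 * 4681 + 1 by norm_num, pow_succ, pow_mul, y07,
        one_pow, one_mul]
    · rw [← pow_mul, mul_comm, pow_mul]
      exact hpow _ (by rw [map_pow, hk, Prod.pow_mk, one_pow, y07]; rfl)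
  have oy : orderOf y = 7 := orderOf_eq_prime y7 fun e => y01 (by
    rw [e, map_one] at φy; exact (congrArg Prod.snd φy).symm)
  have hlift : ∀ s, ∃ k, φ k = (s, 1) ∧ k * y = y * k := fun s => by
    obtain ⟨g, hg⟩ := hφ (s, 1)
    have e : ∀ k, g⁻¹ * k ∈ φ.ker ↔ φ k = (s, 1) := fun k => by
      rw [MonoidHom.mem_ker, map_mul, map_inv, hg, inv_mul_eq_one, eq_comm]
    obtain ⟨k, k1, k2⟩ := coset_fix φ.ker 7 (by rw [hcN]; norm_num) g y y⁻¹ y7 (by rw [inv_pow, y7, inv_one])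
      fun k hk => (e _).2 (by rw [map_mul, map_mul, map_inv, (e k).1 hk, φy]; simp)
    exact ⟨k, (e k).1 k1, (mul_inv_eq_iff_eq_mul.1 k2).symm⟩
  have hlift3 : ∀ s : Perm (Fin 5), s ^ 3 = 1 → s ≠ 1 → ∃ x, φ x = (s, 1) ∧ x ^ 3 = 1 ∧
      (∀ l, κ x l = l → l ∈ center L) ∧ ∀ l, κ y l = l → l = 1 := fun s s3 s1 => by
    obtain ⟨k, k1, k2⟩ := hlift s
    have e1 : φ (k ^ 2 ^ 16) = (s, 1) := by
      rw [map_pow, k1, Prod.pow_mk, one_pow, show 2 ^ 16 = 3 * 21845 + 1 by norm_num, pow_succ, pow_mul, s3,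
        one_pow, one_mul]
    have e2 : (k ^ 2 ^ 16) ^ 3 = 1 := by
      rw [← pow_mul, show 2 ^ 16 * 3 = 3 * 2 ^ 15 * 2 by norm_num, pow_mul, pow_mul,
        hpow _ (by rw [map_pow, k1, Prod.pow_mk, one_pow, s3]; rfl), one_pow]
    exact ⟨_, e1, e2, hxy _ _ (orderOf_eq_prime e2 fun e => s1 (by
      rw [e, map_one] at e1; exact (congrArg Prod.fst e1).symm)) oy ((show Commute k y from k2).pow_left _)⟩
  obtain ⟨-, -, -, -, hyf⟩ := hlift3 xq (by decide) (by decide)
  have κy7 : κ y ^ 7 = 1 := by rw [← map_pow, y7, map_one]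
  have hSZ : ∀ s k, φ k = (s, 1) → ∀ z ∈ center L, κ k z = z := fun s => by
    have h0 : ∀ s k k', φ k = (s, 1) → φ k' = (s, 1) → ∀ z ∈ center L, κ k z = κ k' z := fun s k k' e e' z hz => by
      conv_rhs => rw [← hκZ (k'⁻¹ * k) (by rw [map_mul, map_inv, e, e', inv_mul_cancel]) z hz]
      rw [← MulAut.mul_apply, ← map_mul, mul_inv_cancel_left]
    induction s using Perm.swap_induction_on with
    | one => exact hκZ
    | swap_mul f i j _ ih =>
      intro k hk z hz
      obtain ⟨a, a1, a2⟩ := hlift (swap i j)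
      obtain ⟨b, b1⟩ := hφ (f, 1)
      rw [h0 _ k (a * b) hk (by rw [map_mul, a1, b1]; simp) z hz, map_mul, MulAut.mul_apply, ih b b1 z hz]
      refine cent_of_inv hZc h2 (κ y) (κ a) κy7 hyf (fun v => ?_) (fun z hz => ?_) z hz
      · rw [← MulAut.mul_apply, ← map_mul, a2, map_mul, MulAut.mul_apply]
      · rw [← MulAut.mul_apply, ← map_mul]
        exact hκZ _ (by rw [map_mul, a1]; simp) z hz
  -- the module
  have hV : ∀ u v : L ⧸ center L, u * v = v * u := fun u v =>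
    (Normal.quotient_commutative_iff_commutator_le.2 hLs.2.2.le).is_comm.comm u v
  have hV2 : ∀ v : L ⧸ center L, v * v = 1 := fun v => by
    induction v using QuotientGroup.induction_on with
    | H a =>
      rw [← QuotientGroup.mk_mul, QuotientGroup.eq_one_iff, ← hLs.2.1, ← pow_two]
      exact H1.pow_mem_frattini hLs.1 a
  have hVc : Nat.card (L ⧸ center L) = 4096 := by
    have := (center L).card_eq_card_quotient_mul_card_subgroup
    rw [hZc, hLc] at this
    omega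
  obtain ⟨α, hα⟩ : ∃ α : Perm (Fin 5) × T →* MulAut (L ⧸ center L), ∀ k (l : L),
      α (φ k) (l : L ⧸ center L) = (κ k l : L) := by
    refine ⟨φ.liftOfSurjective hφ ⟨(autQ L).comp κ, fun k hk => ?_⟩, fun k l => ?_⟩
    · obtain ⟨a, rfl⟩ : k ∈ ι.range := hker ▸ hk
      refine MulEquiv.ext fun v => ?_
      induction v using QuotientGroup.induction_on with
      | H l =>
        change ((κ (ι a) l : L) : L ⧸ center L) = l
        rw [hκι, QuotientGroup.mk_mul, QuotientGroup.mk_mul, hV (a : L ⧸ center L), QuotientGroup.mk_inv,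
          mul_inv_cancel_right]
    · rw [MonoidHom.liftOfRightInverse_comp_apply]; rfl
  have hyV : ∀ v, α (1, y0) v = v → v = 1 := fun v hv => by
    induction v using QuotientGroup.induction_on with
    | H l =>
      rw [← φy, hα, eq_comm, QuotientGroup.eq] at hv
      have h0 : ∀ n v, (κ y)^[n] v = (κ y ^ n) v := fun n => by
        induction n with
        | zero => exact fun _ => rfl
        | succ n ih => intro v; rw [Function.iterate_succ_apply, ih, pow_succ]; rfl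
      obtain ⟨k, k1, k2⟩ := exists_fix 7 (κ y) {k | l⁻¹ * k ∈ center L} (Set.toFinite _) (fun k hk => by
        have := mul_mem hv (aut_center (κ y) hk)
        rwa [map_mul, map_inv, mul_assoc, mul_inv_cancel_left] at this)
        (fun v _ => by rw [h0, κy7]; rfl) (by rw [ncard_coset, hZc]; norm_num)
      rw [hyf k k2] at k1
      exact (QuotientGroup.eq_one_iff _).2 (by simpa using k1)
  obtain ⟨Φ, r, hb, hadd, hact⟩ := modA' hV (α.comp (MonoidHom.inl _ _)) (α.comp (MonoidHom.inr _ _))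
    (fun s t v => by
      change (α (s, 1) * α (1, t)) v = (α (1, t) * α (s, 1)) v
      rw [← map_mul, ← map_mul]; simp) hV2 hVc (fun s s3 s1 v hv => by
      obtain ⟨x, x1, x3, x2, -⟩ := hlift3 s s3 s1
      induction v using QuotientGroup.induction_on with
      | H l =>
        change α (s, 1) _ = _ at hv
        rw [← x1, hα, eq_comm, QuotientGroup.eq] at hv
        obtain ⟨c, hc⟩ : ∃ c, c = l⁻¹ * κ x l := ⟨_, rfl⟩
        rw [← hc] at hv
        have e1 : κ x l = l * c := by rw [hc, mul_inv_cancel_left]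
        have e2 : κ (x ^ 3) l = l * c := by
          rw [pow_three, map_mul, map_mul, MulAut.mul_apply, MulAut.mul_apply, e1, map_mul, e1, hSZ s x x1 c hv,
            mul_assoc, h2 c hv, mul_one, e1]
        rw [x3, map_one, ← e1] at e2
        exact (QuotientGroup.eq_one_iff _).2 (x2 l e2.symm)) y0 y07 hyV
  have hact' : ∀ s t u, Φ (ac s (r t) u) = α (s, t) (Φ u) := fun s t u => by
    rw [hact]
    change (α (s, 1) * α (1, t)) _ = _
    rw [← map_mul]; simp
  have hlin : ∀ t u, Φ (lin (r t) u) = α (1, t) (Φ u) := fun t u => by rw [← ac_one, hact']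
  have Φ0 : Φ 0 = 1 := by
    have := hadd 0 0
    rwa [add_zero, hV2] at this
  have r1 : r 1 = e3 := lin_inj fun a => hb.1 (by rw [hlin, lin_e3]; exact congrArg (· (Φ a)) (map_one α))
  have rinj : Function.Injective r := by
    have h1 : (α.comp (MonoidHom.inr _ _)).ker = ⊥ := by
      refine (IsSimpleGroup.eq_bot_or_eq_top_of_normal _ inferInstance).resolve_right fun h => ?_
      have h3 : α (1, y0) = 1 := (h ▸ mem_top y0 : y0 ∈ (α.comp (MonoidHom.inr _ _)).ker)
      have : Nontrivial (L ⧸ center L) := Finite.one_lt_card_iff_nontrivial.1 (by omega)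
      obtain ⟨v, hv⟩ := exists_ne (1 : L ⧸ center L)
      exact hv (hyV v (by rw [h3]; rfl))
    refine fun t u e => (MonoidHom.ker_eq_bot_iff _).1 h1 (MulEquiv.ext fun v => ?_)
    obtain ⟨a, rfl⟩ := hb.2 v
    exact (hlin t a).symm.trans (e ▸ hlin u a)
  have rinv : ∀ t, Inv3 (r t) := fun t => inv3_of_inj fun a ha => hb.1 (by
    have := hlin t a
    rw [ha, Φ0] at this
    rw [Φ0]; exact (map_eq_one_iff _ (α (1, t)).injective).1 this.symm)
  choose ψ hψ using fun l : L => hb.2 (l : L ⧸ center L)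
  have ψs : Function.Surjective ψ := fun u => by
    obtain ⟨l, hl⟩ := QuotientGroup.mk_surjective (Φ u)
    exact ⟨l, hb.1 (by rw [hψ, hl])⟩
  have ψm : ∀ a b, ψ (a * b) = ψ a + ψ b := fun a b => hb.1 (by rw [hadd, hψ, hψ, hψ]; rfl)
  have ψk : ∀ k a, ψ (κ k a) = ac (φ k).1 (r (φ k).2) (ψ a) := fun k a => hb.1 (by rw [hact', hψ, hψ, hα])
  obtain ⟨ze, z1, z2, z3, z4⟩ := formC ψ ψs ψm
    (fun a b e => QuotientGroup.eq.1 (by rw [← hψ, ← hψ, e])) h2 fun s => by
      obtain ⟨k, hk⟩ := hφ (s, 1)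
      exact ⟨κ k, fun a => by rw [ψk, hk, r1], hSZ s k hk⟩
  have zs : ∀ a ∈ center L, ∃ c, a = ze c := by
    let f : Multiplicative W0 →* L := MonoidHom.mk' (fun c => ze c.toAdd) fun c d => z2 _ _
    have h1 : commutator L ≤ f.range := commutator_le.2 fun a _ b _ => ⟨Multiplicative.ofAdd (be (ψ a) (ψ b)), by
      change ze (be (ψ a) (ψ b)) = a * b * a⁻¹ * b⁻¹
      rw [z3 a b, mem_center_iff.1 (z1 _)]; group⟩
    intro a ha
    obtain ⟨c, hc⟩ := h1 (hLs.2.2 ▸ ha)
    exact ⟨c.toAdd, hc.symm⟩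
  have zi : Function.Injective ze := by
    have h1 : Function.Surjective fun c => (⟨ze c, z1 c⟩ : center L) := fun a => by
      obtain ⟨c, hc⟩ := zs a a.2
      exact ⟨c, Subtype.ext hc.symm⟩
    exact fun c d e => (h1.bijective_of_nat_card_le (by rw [hZc, card_W0])).1 (Subtype.ext e)
  refine ⟨ψ, r, ze, ψs, ψm, fun a => ?_, z2, zi, fun a => ⟨zs a, by rintro ⟨c, rfl⟩; exact z1 c⟩, z3, z4,
    fun t u => lin_inj fun a => hb.1 ?_, rinv, fun t => ⟨fun e => rinj (e.trans r1.symm), fun e => e ▸ r1⟩,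
    fun m hm => ?_, ψk, fun k c => ?_⟩
  · rw [← QuotientGroup.eq_one_iff, ← hψ, ← Φ0, hb.1.eq_iff]
  · rw [lin_mm, hlin, hlin, hlin, ← MulAut.mul_apply, ← map_mul]; simp
  · have h1 : Function.Injective fun t => (⟨r t, rinv t⟩ : {t : M3 // Inv3 t}) := fun t u e =>
      rinj (congrArg Subtype.val e)
    obtain ⟨t, ht⟩ := (h1.bijective_of_nat_card_le (by rw [hT, card_inv3])).2 ⟨m, hm⟩
    exact ⟨t, congrArg Subtype.val ht⟩
  · have h1 : ∀ c : W0, ∃ x y, cross x y = c ∧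
        ∀ t0 t1 t2, zc (t0, t1, t2) c = cross (ap (t0, t1, t2) x) (ap (t0, t1, t2) y) := by decide +kernel
    obtain ⟨x, w, rfl, h3⟩ := h1 c
    obtain ⟨a, ha⟩ := ψs (tens x (nv 1))
    obtain ⟨b, hb⟩ := ψs (tens w (nv 8))
    have e := congrArg (κ k) (z3 a b)
    rw [map_mul, map_mul, map_mul, z3, ψk, ψk, ha, hb, be_ac, be_tens _ _ (by decide), mul_left_cancel_iff] at e
    rw [← e]
    exact congrArg ze (h3 _ _ _).symm

theorem simple_sl32 : IsSimpleGroup (Matrix.SpecialLinearGroup (Fin 3) (ZMod 2)) := by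
  have h := H9.psl_isSimpleGroup (ι := Fin 3) (F := ZMod 2) (by simp)
  have hc : center (Matrix.SpecialLinearGroup (Fin 3) (ZMod 2)) = ⊥ := by
    rw [eq_bot_iff]
    intro A hA
    obtain ⟨r, h1, h2⟩ := Matrix.SpecialLinearGroup.mem_center_iff.1 hA
    have h3 : r = 1 := by
      revert h1
      generalize r = r
      revert r
      decide
    rw [h3, map_one] at h2
    exact Subtype.ext h2.symm
  exact ((QuotientGroup.quotientMulEquivOfEq hc).trans QuotientGroup.quotientBot).symm.isSimpleGroup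

theorem card_sl32 : Nat.card (Matrix.SpecialLinearGroup (Fin 3) (ZMod 2)) = 168 := by
  have h2 := H9.card_sl_fin (F := ZMod 2) 3 (by norm_num)
  rw [ZMod.card] at h2
  generalize Nat.card (Matrix.SpecialLinearGroup (Fin 3) (ZMod 2)) = A at *
  norm_num [Fin.prod_univ_succ] at h2
  omega

end Cd

theorem exists_co {G : Type*} [Group G] [Finite G] (K L Z : Subgroup G)
    (hLdef : L = (Cfsg.pCore 2 ↥K).map K.subtype) (hZdef : Z = (Subgroup.center ↥L).map L.subtype)
    (hLs : Cfsg.IsSpecial 2 ↥L) (hLc : Nat.card ↥L = 2 ^ 15) (hZe : Cfsg.IsElementaryAbelian 2 Z)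
    (hZc : Nat.card ↥Z = 8) (hK : K = Subgroup.normalizer (Z : Set G))
    (hq : ∃ _ : (L.subgroupOf K).Normal, Nonempty (↥K ⧸ L.subgroupOf K ≃*
      Equiv.Perm (Fin 5) × Matrix.SpecialLinearGroup (Fin 3) (ZMod 2)))
    (hxy : ∀ x y : G, x ∈ K → y ∈ K → orderOf x = 3 → orderOf y = 7 → x * y = y * x →
      L ⊓ Subgroup.centralizer ({x} : Set G) = Z ∧ L ⊓ Subgroup.centralizer ({y} : Set G) = ⊥) :
    Nonempty (Co G) := by
  classical
  obtain ⟨hN, ⟨e⟩⟩ := hq
  have hLK : L ≤ K := hLdef ▸ map_subtype_le _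
  have hKN : K ≤ normalizer (L : Set G) := (normal_subgroupOf_iff_le_normalizer hLK).1 hN
  have hZ : ∀ a : L, (a : G) ∈ Z ↔ a ∈ center L := fun a => by
    rw [hZdef]; exact mem_map_iff_mem Subtype.val_injective
  have := Cd.simple_sl32
  let φ := e.toMonoidHom.comp (QuotientGroup.mk' (L.subgroupOf K))
  let κ : K →* MulAut L := L.normalizerMonoidHom.comp (inclusion hKN)
  have hκ : ∀ (k : K) (l : L), (κ k l : G) = k * l * (k : G)⁻¹ := fun _ _ => rfl
  have hφ : Function.Surjective φ := e.surjective.comp (QuotientGroup.mk'_surjective _)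
  have hφ1 : ∀ k : K, φ k = 1 ↔ (k : G) ∈ L := fun k =>
    (map_eq_one_iff e e.injective).trans (QuotientGroup.eq_one_iff k)
  have hfix : ∀ (k : K) (l : L), κ k l = l → (l : G) ∈ L ⊓ centralizer ({(k : G)} : Set G) := fun k l h =>
    ⟨l.2, mem_centralizer_singleton_iff.2 (mul_inv_eq_iff_eq_mul.1 ((hκ k l).symm.trans
      (congrArg Subtype.val h))).symm⟩
  obtain ⟨ψ, r, ze, a1, a2, a3, a4, a5, a6, a7, a8, a9, b1, b2, b3, b4, b5⟩ := Cd.core Cd.card_sl32
    (inclusion hLK) (inclusion_injective hLK) κ (fun k l => Subtype.ext (hκ k l)) φ hφ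
    (by ext k; rw [MonoidHom.mem_ker, hφ1, inclusion_range, mem_subgroupOf]) hLs hLc
    (fun z hz => Subtype.ext (by rw [← pow_two]; exact hZe.2 _ ((hZ z).2 hz)))
    (by rw [← hZc, hZdef]; exact (card_map_of_injective Subtype.val_injective).symm)
    (fun x y hx hy h => by
      obtain ⟨h1, h2⟩ := hxy x y x.2 y.2 (by rwa [orderOf_coe]) (by rwa [orderOf_coe]) (congrArg Subtype.val h)
      exact ⟨fun l hl => (hZ l).1 (h1 ▸ hfix x l hl), fun l hl => Subtype.ext (mem_bot.1 (h2 ▸ hfix y l hl))⟩)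
  let ph : G → U0 := fun g => if h : g ∈ L then ψ ⟨g, h⟩ else 0
  let fi : G → Perm (Fin 5) × _ := fun g => if h : g ∈ K then φ ⟨g, h⟩ else 1
  have hph : ∀ {g} (h : g ∈ L), ph g = ψ ⟨g, h⟩ := fun h => dif_pos h
  have hfi : ∀ {g} (h : g ∈ K), fi g = φ ⟨g, h⟩ := fun h => dif_pos h
  have hfm : ∀ {a b}, a ∈ K → b ∈ K → fi (a * b) = fi a * fi b := fun ha hb => by
    rw [hfi ha, hfi hb, hfi (mul_mem ha hb), ← map_mul]; rfl
  refine ⟨{ K := K, L := L, ze := fun c => ze c, ph := ph, pi := fun g => (fi g).1, rh := fun g => r (fi g).2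
            L_le := hLK
            ze_add := fun c d => congrArg Subtype.val (a4 c d)
            ze_inj := fun c d h => a5 (Subtype.ext h)
            ze_mem := fun c => (ze c).2
            mem_K := fun g hg => hK ▸ mem_normalizer_fintype fun n hn => ?_
            ph_mul := fun ha hb => by rw [hph ha, hph hb, hph (mul_mem ha hb), ← a2]; rfl
            ph_surj := fun v => let ⟨a, ha⟩ := a1 v; ⟨a, a.2, (hph a.2).trans ha⟩
            ph_ze := fun c => (hph (ze c).2).trans ((a3 _).2 ((a6 _).2 ⟨c, rfl⟩))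
            ph_ker := fun ha h => let ⟨c, hc⟩ := (a6 _).1 ((a3 _).1 ((hph ha).symm.trans h))
              ⟨c, congrArg Subtype.val hc⟩
            comm := fun ha hb => by rw [hph ha, hph hb]; exact congrArg Subtype.val (a7 ⟨_, ha⟩ ⟨_, hb⟩)
            sq := fun ha => by rw [hph ha]; exact congrArg Subtype.val (a8 ⟨_, ha⟩)
            pi_mul := fun ha hb => by rw [hfm ha hb]; rfl
            rh_mul := fun ha hb => by rw [hfm ha hb]; exact a9 _ _
            rh_inv3 := fun _ => b1 _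
            mem_L := fun hk => by rw [b2, hfi hk, ← Prod.mk_eq_one]; exact (hφ1 ⟨_, hk⟩).symm
            surj := fun s t ht => ?_
            conj_ph := fun {k a} hk ha => by
              rw [hph ha, hfi hk, ← b4]; exact hph (κ ⟨k, hk⟩ ⟨a, ha⟩).2
            conj_ze := fun hk c => by rw [hfi hk]; exact congrArg Subtype.val (b5 ⟨_, hk⟩ c) }⟩
  · have hnL : n ∈ L := by rw [hZdef] at hn; exact map_subtype_le _ hn
    obtain ⟨c, hc⟩ := (a6 _).1 ((hZ ⟨n, hnL⟩).1 hn)
    obtain ⟨d, hd⟩ := hg c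
    rw [show n = ze c from congrArg Subtype.val hc, hd]
    exact (hZ _).2 ((a6 _).2 ⟨d, rfl⟩)
  · obtain ⟨u, rfl⟩ := b3 t ht
    obtain ⟨k, hk⟩ := hφ (s, u)
    exact ⟨k, k.2, by rw [hfi k.2, hk], by rw [hfi k.2, hk]⟩

end Cfsg.Agent.J4K
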