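/-
Project J4K (S3321), section HleK: facts on the finite model.
-/
import Cfsg.Agent.J4K.Basic

set_option autoImplicit false
set_option maxRecDepth 100000
set_option synthInstance.maxSize 4096

namespace Cfsg.Agent.J4K.Hl

open Subgroup Equiv

theorem orb_z : ∀ c : W0, c ≠ 0 → ∃ a b d : W0, Inv3 (a, b, d) ∧ zc (a, b, d) (wv 4) = c := by
  decide +kernel

theorem fix_two (t : M3) : mm t t = e3 → ∃ c d : W0, c ≠ 0 ∧ d ≠ 0 ∧ c ≠ d ∧ zc t c = c ∧ zc t d = d :=
  mat_forall (P := fun t => mm t t = e3 → ∃ c d : W0, c ≠ 0 ∧ d ≠ 0 ∧ c ≠ d ∧ zc t c = c ∧ zc t d = d)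
    (by decide +kernel) t

theorem sq_of_fix (t : M3) : Inv3 t → mm t t = e3 ∨
    ∀ c : W0, c ≠ 0 → zc t c = c → ∀ d : W0, d ≠ 0 → zc t d = d → c = d :=
  mat_forall (P := fun t => Inv3 t → mm t t = e3 ∨
    ∀ c : W0, c ≠ 0 → zc t c = c → ∀ d : W0, d ≠ 0 → zc t d = d → c = d) (by decide +kernel) t

theorem conj_tv (t : M3) : mm t t = e3 → t ≠ e3 → ∃ a b d : W0, Inv3 (a, b, d) ∧
    mm (a, b, d) t = mm (tv (wv 1)) (a, b, d) :=
  mat_forall (P := fun t => mm t t = e3 → t ≠ e3 → ∃ a b d : W0, Inv3 (a, b, d) ∧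
    mm (a, b, d) t = mm (tv (wv 1)) (a, b, d)) (by decide +kernel) t

theorem e3_of_fix (t : M3) : mm t t = e3 → (∀ c, zc t c = c) → t = e3 :=
  mat_forall (P := fun t => mm t t = e3 → (∀ c, zc t c = c) → t = e3) (by decide +kernel) t

theorem mv_mid (t : M3) : mm t t = e3 → zc t (wv 2) = wv 2 → zc t (wv 4) = wv 4 → t ≠ e3 →
    t ≠ tv (wv 1) → ∀ u : N0, u ≠ 0 → lin t (0, u, 0) ≠ (0, u, 0) :=
  mat_forall (P := fun t => mm t t = e3 → zc t (wv 2) = wv 2 → zc t (wv 4) = wv 4 → t ≠ e3 →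
    t ≠ tv (wv 1) → ∀ u : N0, u ≠ 0 → lin t (0, u, 0) ≠ (0, u, 0)) (by decide +kernel) t

theorem span3 : ∀ c d : W0, c ≠ 0 → d ≠ 0 → c ≠ d → ∃ e : W0, e ≠ 0 ∧
    ∀ x : W0, ∃ i j k : Bool, x = smW i c + smW j d + smW k e := by decide +kernel

theorem inv_a (s : Perm (Fin 5)) (h : s * s = 1) (h1 : s ≠ 1) : ∃ a c : N0, B0 a c = true ∧
    B0 a (act s c) = false ∧ B0 c (act s c) = false ∧ B0 c (act s a) = false :=
  (perm_forall (P := fun f => (∀ i, f (f i) = i) → (∀ i, f i = i) ∨ ∃ a c : N0, B0 a c = true ∧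
    B0 a (actF f c) = false ∧ B0 c (actF f c) = false ∧ B0 c (actF f a) = false) (by decide +kernel) s
    (fun i => congrArg (fun x : Perm (Fin 5) => x i) h)).resolve_left fun e => h1 (Equiv.ext e)

theorem fix_card (s : Perm (Fin 5)) (h : s * s = 1) (h1 : s ≠ 1) :
    (Finset.univ.filter fun c : N0 => act s c = c).card ≤ 4 :=
  (perm_forall (P := fun f => (∀ i, f (f i) = i) → (∀ i, f i = i) ∨
    (Finset.univ.filter fun c : N0 => actF f c = c).card ≤ 4) (by decide +kernel) s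
    (fun i => congrArg (fun x : Perm (Fin 5) => x i) h)).resolve_left fun e => h1 (Equiv.ext e)

/-- the elements with square one -/
def il : List (Fin 5 → Fin 5) := pl.filter fun f => decide (∀ i, f (f i) = i)

theorem mem_il {s : Perm (Fin 5)} (h : s * s = 1) : (s : Fin 5 → Fin 5) ∈ il :=
  List.mem_filter.2 ⟨mem_pl s, decide_eq_true fun i => congrArg (fun x : Perm (Fin 5) => x i) h⟩

theorem three_inv {a b c : Perm (Fin 5)} (ha : a * a = 1) (hb : b * b = 1) (hc : c * c = 1)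
    (ab : a * b = b * a) (ac : a * c = c * a) (bc : b * c = c * b) :
    a = 1 ∨ b = 1 ∨ a = b ∨ c = 1 ∨ c = a ∨ c = b ∨ c = a * b := by
  have h : (il.all fun f => il.all fun g => decide ((∀ i, f (g i) = g (f i)) → (∀ i, f i = i) ∨
      (∀ i, g i = i) ∨ (∀ i, f i = g i) ∨ (il.all fun k => decide ((∀ i, f (k i) = k (f i)) →
        (∀ i, g (k i) = k (g i)) → (∀ i, k i = i) ∨ (∀ i, k i = f i) ∨ (∀ i, k i = g i) ∨
          ∀ i, k i = f (g i))) = true)) = true := by decide +kernel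
  have ap : ∀ {x y : Perm (Fin 5)}, x = y → ∀ i, x i = y i := fun e i => by rw [e]
  rcases of_decide_eq_true (List.all_eq_true.1 (List.all_eq_true.1 h _ (mem_il ha)) _ (mem_il hb))
    (ap ab) with e | e | e | e
  · exact Or.inl (Equiv.ext e)
  · exact Or.inr (Or.inl (Equiv.ext e))
  · exact Or.inr (Or.inr (Or.inl (Equiv.ext e)))
  · rcases of_decide_eq_true (List.all_eq_true.1 e _ (mem_il hc)) (ap ac) (ap bc) with e | e | e | e
    · exact Or.inr (Or.inr (Or.inr (Or.inl (Equiv.ext e))))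
    · exact Or.inr (Or.inr (Or.inr (Or.inr (Or.inl (Equiv.ext e)))))
    · exact Or.inr (Or.inr (Or.inr (Or.inr (Or.inr (Or.inl (Equiv.ext e))))))
    · exact Or.inr (Or.inr (Or.inr (Or.inr (Or.inr (Or.inr (Equiv.ext e))))))

/-- enough matrices to clear the last coordinate -/
def ml : List M3 := [(wv 4, wv 2, wv 1), (wv 4, wv 1, wv 3), (wv 4, wv 3, wv 2), (wv 2, wv 4, wv 1),
  (wv 1, wv 4, wv 3), (wv 3, wv 4, wv 2), (wv 6, wv 4, wv 1), (wv 5, wv 4, wv 3), (wv 7, wv 4, wv 2),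
  (wv 2, wv 1, wv 4), (wv 1, wv 3, wv 4), (wv 3, wv 2, wv 4), (wv 6, wv 1, wv 4), (wv 5, wv 3, wv 4),
  (wv 7, wv 2, wv 4), (wv 2, wv 5, wv 4), (wv 1, wv 7, wv 4), (wv 3, wv 6, wv 4), (wv 6, wv 5, wv 4),
  (wv 5, wv 7, wv 4), (wv 7, wv 6, wv 4)]

theorem ml_inv : ∀ t ∈ ml, Inv3 t := by decide +kernel

theorem clear (v : U0) : B0 v.2.1 v.2.2 = false → B0 v.2.2 v.1 = false → B0 v.1 v.2.1 = false → v ≠ 0 →
    ∃ t ∈ ml, (lin t v).2.2 = 0 ∧ (lin t v).1 ≠ 0 ∧ (lin t v).2.1 ≠ (lin t v).1 :=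
  u_forall (P := fun v => B0 v.2.1 v.2.2 = false → B0 v.2.2 v.1 = false → B0 v.1 v.2.1 = false → v ≠ 0 →
    ∃ t ∈ ml, (lin t v).2.2 = 0 ∧ (lin t v).1 ≠ 0 ∧ (lin t v).2.1 ≠ (lin t v).1) (by decide +kernel) v

theorem mkW_zero : ∀ a b c : Bool, mkW a b c = 0 ↔ a = false ∧ b = false ∧ c = false := by decide

theorem perp : ∀ x y : N0, (∀ a, B0 x a = false → B0 y a = false) → y = 0 ∨ y = x := by decide +kernel

theorem ex_B0 : ∀ x : N0, x ≠ 0 → ∃ a, B0 x a = true := by decide +kernel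

theorem ker_le {a b : N0} (ha : a ≠ 0) (hb : b ≠ a) {w : U0}
    (h : ∀ x, be (a, b, 0) x = 0 → be w x = 0) : w = 0 ∨ w = (a, b, 0) := by
  obtain ⟨w0, w1, w2⟩ := w
  simp only [be, mkW_zero] at h
  have h1 : ∀ x, B0 b x = false → B0 w2 x = false ∧ B0 w1 x = false := fun x e => by
    have := h (x, 0, 0) (by simp [B0_zero_left, B0_zero_right, e])
    simpa [B0_zero_left, B0_zero_right] using this
  have h2 : ∀ x, B0 a x = false → B0 w2 x = false ∧ B0 w0 x = false := fun x e => by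
    have := h (0, x, 0) (by simp [B0_zero_left, B0_zero_right, e])
    simpa [B0_zero_left, B0_zero_right] using this
  have e2 : w2 = 0 := by
    rcases perp b w2 (fun x e => (h1 x e).1) with e | e
    · exact e
    · rcases perp a w2 (fun x e => (h2 x e).1) with e' | e'
      · exact e'
      · exact absurd (e.symm.trans e') hb
  subst e2
  rcases perp a w0 (fun x e => (h2 x e).2) with e0 | e0 <;>
    rcases perp b w1 (fun x e => (h1 x e).2) with e1 | e1 <;> subst e0 e1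
  · exact Or.inl rfl
  · by_cases b0 : w1 = 0
    · subst b0; exact Or.inl rfl
    obtain ⟨x, hx⟩ := ex_B0 _ b0
    obtain ⟨y, hy⟩ := ex_B0 _ ha
    have := h (x, y, 0) (by simp [B0_zero_left, B0_zero_right, hx, hy])
    simp [B0_zero_left, B0_zero_right, hx] at this
  · by_cases b0 : b = 0
    · subst b0; exact Or.inr rfl
    obtain ⟨x, hx⟩ := ex_B0 _ b0
    obtain ⟨y, hy⟩ := ex_B0 _ ha
    have := h (x, y, 0) (by simp [B0_zero_left, B0_zero_right, hx, hy])
    simp [B0_zero_left, B0_zero_right, hy] at this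
  · exact Or.inr rfl

/-- `be τ` as a homomorphism -/
def beH (τ : U0) : U0 →+ W0 := AddMonoidHom.mk' (be τ) (be_add_right τ)

/-- `v ↦ σ v + v` -/
def cmH (s : Perm (Fin 5)) : U0 →+ U0 := AddMonoidHom.mk' (fun v => ac s e3 v + v) fun a b => by
  rw [ac_add]; abel

theorem card_ker_be (τ : U0) : 512 ≤ Nat.card (beH τ).ker := by
  have h1 := (beH τ).ker.index_mul_card
  rw [AddSubgroup.index_ker, card_U0] at h1
  have h2 : Nat.card (beH τ).range ≤ 8 := card_W0 ▸ Nat.card_le_card_of_injective _ Subtype.val_injective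
  by_contra h
  have := Nat.mul_le_mul h2 (show Nat.card (beH τ).ker ≤ 511 by omega)
  omega

theorem card_ker_cm {s : Perm (Fin 5)} (h : s * s = 1) (h1 : s ≠ 1) : Nat.card (cmH s).ker ≤ 64 := by
  have h4 : Nat.card {c : N0 // act s c = c} ≤ 4 := by
    rw [Nat.card_eq_fintype_card, Fintype.card_subtype]; exact fix_card s h h1
  have fx : ∀ v : (cmH s).ker, act s v.1.1 = v.1.1 ∧ act s v.1.2.1 = v.1.2.1 ∧ act s v.1.2.2 = v.1.2.2 :=
    fun v => by
      have e : ac s e3 v.1 = v.1 := U0.eq_of_add v.2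
      rw [ac_e3] at e
      exact ⟨congrArg Prod.fst e, congrArg (fun x : U0 => x.2.1) e, congrArg (fun x : U0 => x.2.2) e⟩
  have := Nat.card_le_card_of_injective (fun v : (cmH s).ker =>
    ((⟨_, (fx v).1⟩, ⟨_, (fx v).2.1⟩, ⟨_, (fx v).2.2⟩) :
      {c : N0 // act s c = c} × {c : N0 // act s c = c} × {c : N0 // act s c = c})) (fun v w e => by
    simp only [Prod.mk.injEq, Subtype.mk.injEq] at e
    exact Subtype.ext (Prod.ext e.1 (Prod.ext e.2.1 e.2.2)))
  rw [Nat.card_prod, Nat.card_prod] at this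
  exact this.trans (Nat.mul_le_mul h4 (Nat.mul_le_mul h4 h4))

/-- the commutators of an involution of `S5` with `ker (be τ)` take more than four values -/
theorem not_small {s : Perm (Fin 5)} (h : s * s = 1) (h1 : s ≠ 1) (τ : U0) {D : AddSubgroup W0}
    (hD : D ≠ ⊤) (f : W0 → U0) (hf : ∀ v, be τ v = 0 → ∃ d ∈ D, ac s e3 v + v = f d) : False := by
  let ψ := (cmH s).domRestrict (beH τ).ker
  have e1 := ψ.ker.index_mul_card
  rw [AddSubgroup.index_ker] at e1
  have e2 : Nat.card ψ.ker ≤ 64 := (Nat.card_le_card_of_injective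
    (fun v : ψ.ker => (⟨v.1.1, v.2⟩ : (cmH s).ker)) fun v w e =>
      Subtype.ext (Subtype.ext (congrArg (fun x : (cmH s).ker => x.1) e))).trans (card_ker_cm h h1)
  have e3' : Nat.card D ≤ 4 := by
    have d := D.card_addSubgroup_dvd_card
    have n : Nat.card D ≠ 8 := fun e => hD (AddSubgroup.eq_top_of_card_eq D (e.trans card_W0.symm))
    rw [card_W0] at d
    have := Nat.le_of_dvd (by norm_num) d
    interval_cases Nat.card D <;> omega
  have e4 : Nat.card ψ.range ≤ Nat.card D := by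
    choose g hg hg' using fun v : ψ.range => (show ∃ d ∈ D, v.1 = f d by
      obtain ⟨_, w, rfl⟩ := v
      exact hf w.1 w.2)
    exact Nat.card_le_card_of_injective (fun v => (⟨g v, hg v⟩ : D)) fun v w e =>
      Subtype.ext (by rw [hg', hg', show g v = g w from congrArg Subtype.val e])
  have := Nat.mul_le_mul (e4.trans e3') e2
  have := card_ker_be τ
  omega

end Cfsg.Agent.J4K.Hl
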