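/-
Project J4K: the case `Cr ≤ K`, first part: `L Q / Q` is a TI subgroup and strongly closed.
-/
import Cfsg.Agent.J4K.Blk
import Cfsg.Agent.H49.Prod

set_option autoImplicit false

namespace Cfsg.Agent.J4K

open Subgroup Equiv Cfsg.Agent.H70

namespace M1a

theorem card_le_fib {G ι : Type*} [Group G] [Finite G] [Finite ι] (A C : Subgroup G) (f : A → ι)
    (h : ∀ a b : A, f a = f b → (a : G)⁻¹ * b ∈ C) :
    Nat.card A ≤ Nat.card ↥(C ⊓ A) * Nat.card ι := by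
  rw [← H49.card_inf_mul_relIndex C A]
  refine Nat.mul_le_mul_left _ (Nat.card_le_card_of_injective
    (fun q : A ⧸ C.subgroupOf A => f q.out) fun q q' e => ?_)
  rw [← q.out_eq', ← q'.out_eq', QuotientGroup.eq]
  exact h _ _ e

theorem ex_fix : ∀ t : M3, Inv3 t → zc t (wv 4) = wv 4 → ∀ w : W0, mm t t = tv w →
    ∃ c, c ≠ 0 ∧ c ≠ wv 4 ∧ (zc t c = c ∨ zc t c = c + wv 4) :=
  mat_forall (by decide +kernel)

theorem be_low : ∀ u b0 b1 : N0, (be (0, 0, u) (b0, b1, 0)).cd < 4 := by decide +kernel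

/-- a transposition `t` fixing 4 and the member `s` of `V4` centralised by it -/
def Pr (t s : Perm (Fin 5)) : Prop := s ∈ V4 ∧ t * s = s * t ∧ t * t = 1 ∧
  ∀ u, Ell u → ∃ v, act t u + v + act s v = u

theorem pr1 : Pr (swap 2 3) (swap 0 1 * swap 2 3) := by unfold Pr; decide +kernel
theorem pr2 : Pr (swap 1 2) (swap 0 3 * swap 1 2) := by unfold Pr; decide +kernel
theorem fpf : ∀ u, act (swap 2 3) u = u → act (swap 1 2) u = u → u = 0 := by decide +kernel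

end M1a

open M1a

namespace Qd

variable {G : Type*} [Group G] [Finite G] (D : Qd G)

omit [Finite G] in
theorem m1_md {h a : G} (hh : h ∈ D.H) (e : D.Md (h * a * h⁻¹) 1) : D.Md a 1 := by
  have := e.conj (inv_mem hh)
  rwa [show h⁻¹ * (h * a * h⁻¹) * h⁻¹⁻¹ = a by group, show h⁻¹ * 1 * h⁻¹⁻¹ = 1 by group] at this

omit [Finite G] in
theorem m1_ti (hC : D.Cr ≤ D.K) {x e : G} (hx : x ∈ D.X) (he : e ∈ D.E) (h1 : ¬ D.Md e 1)
    (h2 : x * e * x⁻¹ ∈ D.E) : x ∈ D.K := by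
  obtain ⟨g, hg, e1⟩ := D.trans_E he h1
  obtain ⟨g', hg', e2⟩ := D.trans_E h2 fun h => h1 (D.m1_md (D.X_le_H hx) h)
  have m1 := D.XA_le_X _ hg
  have m2 := D.XA_le_X _ hg'
  have : g'⁻¹ * x * g ∈ D.Cr := D.mem_Cr.2 ⟨mul_mem (mul_mem (inv_mem m2) hx) m1, by
    have := ((e1.conj (D.X_le_H hx)).trans e2.symm).conj (D.X_le_H (inv_mem m2))
    convert this using 1 <;> group⟩
  have h3 := mul_mem (mul_mem hg'.1 (hC this)) (inv_mem hg.1)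
  rwa [show g' * (g'⁻¹ * x * g) * g⁻¹ = x by group] at h3

omit [Finite G] in
theorem m1_EX : D.E ≤ D.X := (D.E_le_XA ⊤).trans (D.XA_le_X ⊤)

theorem mem_K_of_le (hC : D.Cr ≤ D.K) {h r r' q : G} (hh : h ∈ D.H) (hr : r ∈ D.L) (hr0 : r ∉ D.Q)
    (hr' : r' ∈ D.L) (hq : q ∈ D.Q) (e : h * r * h⁻¹ = q * r') : h ∈ D.K := by
  obtain ⟨x, hx, k, hk, rfl⟩ := D.good hh (c := wv 1) (by decide) (by decide)
    (D.inD_conj hh hr hr0 hr' hq e ⟨D.ze_mem _, false, false, D.ph_ze _⟩).1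
  have hxH := D.X_le_H hx
  have hkH : k ∈ D.H := (D.H.mul_mem_cancel_left hxH).1 hh
  obtain ⟨q1, hq1, e1⟩ := D.el_mod_Q (D.conj_mem_L hk hr)
  obtain ⟨q2, hq2, e2⟩ := D.el_mod_Q hr'
  generalize (D.ph (k * r * k⁻¹)).2.2 = u at e1
  generalize (D.ph r').2.2 = u' at e2
  have e3 : x * D.el u * x⁻¹ * (D.el u')⁻¹ = (x * q1 * x⁻¹)⁻¹ * (q * q2) := by
    calc _ = (x * q1 * x⁻¹)⁻¹ * (x * (q1 * D.el u) * x⁻¹) * (D.el u')⁻¹ := by group
      _ = (x * q1 * x⁻¹)⁻¹ * (x * k * r * (x * k)⁻¹) * (D.el u')⁻¹ := by rw [← e1]; group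
      _ = _ := by rw [e, e2]; group
  have e4 := D.X_inf_Q (mul_mem (mul_mem (mul_mem hx (D.m1_EX (D.el_mem_E u))) (inv_mem hx))
    (inv_mem (D.m1_EX (D.el_mem_E u')))) (e3 ▸ mul_mem (inv_mem (D.conj_Q hxH hq1)) (mul_mem hq hq2))
  refine mul_mem (D.m1_ti hC hx (D.el_mem_E u) (fun h => hr0 ?_)
    ((D.E.mul_mem_cancel_right (inv_mem (D.el_mem_E u'))).1 (e4.mem D.z_mem_E (one_mem _)))) hk
  have := D.conj_Q (inv_mem hkH) (e1 ▸ mul_mem hq1 (h.mem (D.ze_mem_Q _) (one_mem _)) : k * r * k⁻¹ ∈ D.Q)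
  rwa [show k⁻¹ * (k * r * k⁻¹) * k⁻¹⁻¹ = r by group] at this

theorem m1_card {b : G} (hb : b ∈ D.L) (hQ : b ∈ D.Q) :
    8 ≤ Nat.card ↥(centralizer {b} ⊓ D.E) := by
  have h0 := (D.mem_Q hb).1 hQ
  have := card_le_fib D.E (centralizer {b}) (fun e => (⟨be (D.ph e) (D.ph b), by
    rw [D.ph_E' e.2, show D.ph b = ((D.ph b).1, (D.ph b).2.1, 0) from
      Prod.ext rfl (Prod.ext rfl h0)]
    exact be_low _ _ _⟩ : {c : W0 // c.cd < 4})) fun a a' e => by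
    have e : be (D.ph a) (D.ph b) = be (D.ph a') (D.ph b) := congrArg Subtype.val e
    refine mem_centralizer_singleton_iff.2 ((D.comm_iff (mul_mem (inv_mem a.2.1) a'.2.1) hb).2 ?_)
    rw [D.ph_mul (inv_mem a.2.1) a'.2.1, D.ph_inv a.2.1, be_add_left, e, W0.add_self]
  rw [D.card_E, Nat.card_eq_fintype_card (α := {c : W0 // c.cd < 4}),
    show Fintype.card {c : W0 // c.cd < 4} = 4 by decide] at this
  omega

theorem m1_X0 {a : G} (ha : a ∈ D.X) (h2 : a * a = 1)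
    (h : a * D.ze (wv 1) = D.ze (wv 1) * a) : a ∈ D.X0 :=
  D.mem_X0_of_two ha (D.mem_K_of_conj (D.X_le_H ha) (c := wv 1) (by decide) (by decide)
    (mul_inv_eq_iff_eq_mul.2 h)) (n := 1) (by rw [pow_one, pow_two, h2])

/-- an `X`-conjugate of `E` meets `U` in eight elements -/
theorem m1_ex (hC : D.Cr ≤ D.K) {y : G} (hy : y ∈ D.X) (hK : y ∉ D.K)
    (h1 : y * D.ze (wv 1) * y⁻¹ ∈ D.L) (h2 : y⁻¹ * D.ze (wv 1) * y⁻¹⁻¹ ∈ D.L) :
    ∃ s, 8 ≤ Nat.card ↥(cj (D.sg s * y) D.E ⊓ D.U) := by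
  have hyH := D.X_le_H hy
  have c1 := D.m1_card h1 (D.conj_Q hyH (D.ze_mem_Q _))
  have c2 := D.m1_card h2 (D.conj_Q (inv_mem hyH) (D.ze_mem_Q _))
  rw [← card_cj y] at c2
  set A := centralizer {y * D.ze (wv 1) * y⁻¹} ⊓ D.E with hA
  set B := cj y (centralizer {y⁻¹ * D.ze (wv 1) * y⁻¹⁻¹} ⊓ D.E) with hB
  have BE : B ≤ cj y D.E := cj_mono y inf_le_right
  have ti' : ∀ a ∈ D.E, a ∈ cj y D.E → D.Md a 1 := fun a ha ha' => by
    by_contra h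
    exact hK (inv_mem_iff.1 (D.m1_ti hC (inv_mem hy) ha h (by rw [inv_inv]; exact mem_cj.1 ha')))
  have A0 : ∀ a ∈ A, y⁻¹ * a * y ∈ D.X0 := fun a ha =>
    D.m1_X0 (mul_mem (mul_mem (inv_mem hy) (D.m1_EX ha.2)) hy)
      (by rw [show y⁻¹ * a * y * (y⁻¹ * a * y) = y⁻¹ * (a * a) * y by group, D.E_sq ha.2]; group) (by
      calc _ = y⁻¹ * (a * (y * D.ze (wv 1) * y⁻¹)) * y := by group
        _ = _ := by rw [mem_centralizer_singleton_iff.1 ha.1]; group)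
  have Bsq : ∀ b ∈ B, b * b = 1 := fun b hb => by
    calc _ = y * (y⁻¹ * b * y * (y⁻¹ * b * y)) * y⁻¹ := by group
      _ = _ := by rw [D.E_sq (mem_cj.1 hb).2]; group
  have B0 : B ≤ D.X0 := fun b hb => by
    have hb' := mem_cj.1 hb
    refine D.m1_X0 ?_ (Bsq b hb) ?_
    · have := mul_mem (mul_mem hy (D.m1_EX hb'.2)) (inv_mem hy)
      rwa [show y * (y⁻¹ * b * y) * y⁻¹ = b by group] at this
    · calc _ = y * (y⁻¹ * b * y * (y⁻¹ * D.ze (wv 1) * y⁻¹⁻¹)) * y⁻¹ := by group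
        _ = _ := by rw [mem_centralizer_singleton_iff.1 hb'.1]; group
  have zB : D.z ∈ B := mem_cj.2 (by
    rw [D.mem_H.1 (inv_mem hyH), inv_mul_cancel_right]
    exact ⟨mem_centralizer_singleton_iff.2 (D.mem_H.1 (D.L_le_H h2)).symm, D.z_mem_E⟩)
  have cm : ∀ a ∈ A, ∀ b ∈ B, D.Md (a * b * a⁻¹ * b⁻¹) 1 := fun a ha b hb => by
    refine ti' _ ?_ (mul_mem (mem_cj.2 ?_) (inv_mem (BE hb)))
    · rw [mul_assoc, mul_assoc, ← mul_assoc b]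
      exact mul_mem ha.2 (D.conj_mem_E (D.XA_le_X _ (B0 hb)) (B0 hb).1 (inv_mem ha.2))
    · have := D.conj_mem_E (D.XA_le_X _ (A0 a ha)) (A0 a ha).1 (mem_cj.1 (BE hb))
      convert this using 1; group
  have AN : A ≤ normalizer (B : Set G) := fun a ha => mem_normalizer_fintype fun b hb =>
    (B.mul_mem_cancel_right (inv_mem hb)).1 ((cm a ha b hb).mem zB (one_mem _))
  have c3 : Nat.card ↥(A ⊓ B) ≤ 2 := by
    rw [← D.orderOf_z, ← Nat.card_zpowers]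
    exact card_le_of_le fun a ha => D.md_one_iff.1 (ti' a ha.1.2 (BE ha.2))
  have c4 := H49.card_mul_le (le_sup_left : A ≤ A ⊔ B) le_sup_right
  rcases D.star0 (sup_le (inf_le_right.trans (D.E_le_XA ⊤)) B0) (mem_sup_right zB) (by nlinarith)
    (fun g hg => by
      obtain ⟨a, ha, b, hb, rfl⟩ := (mem_sup_of_norm AN).1 hg
      have := cm a ha b hb
      rwa [inv_eq_of_mul_eq_one_right (D.E_sq ha.2), inv_eq_of_mul_eq_one_right (Bsq b hb),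
        mul_assoc] at this) with e | ⟨s, e⟩
  · have : Nat.card B ≤ 2 := by
      rw [← D.orderOf_z, ← Nat.card_zpowers]
      exact card_le_of_le fun a ha => D.md_one_iff.1 (ti' a (e ▸ mem_sup_right ha) (BE ha))
    omega
  · refine ⟨s⁻¹, c2.trans ?_⟩
    rw [← card_cj (D.sg s⁻¹), cj_mul]
    refine card_le_of_le (le_inf (cj_mono _ BE) ?_)
    rw [map_inv, ← le_cj_iff, ← e]
    exact le_sup_right

theorem m1_act (hC : D.Cr ≤ D.K) {y : G} (hy : y ∈ D.X) (hK : y ∉ D.K)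
    (h1 : y * D.ze (wv 1) * y⁻¹ ∈ D.L) (h8 : 8 ≤ Nat.card ↥(cj y D.E ⊓ D.U)) {t s : Perm (Fin 5)}
    (hs1 : s ≠ 1) (h : Pr t s) : ac t e3 (D.ph (y * D.ze (wv 1) * y⁻¹)) = D.ph (y * D.ze (wv 1) * y⁻¹) := by
  obtain ⟨hs, hts, htt, hv⟩ := h
  have EH : D.E ≤ D.H := D.m1_EX.trans D.X_le_H
  obtain ⟨v, hv1, hv2⟩ : ∃ v ∈ cj y D.E ⊓ D.U, D.pi v = s := by
    by_contra hn
    push Not at hn
    have := card_le_fib (cj y D.E ⊓ D.U) (zpowers D.z) (fun a =>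
      (⟨D.pi a, (D.U_le_XA a.2.2).2.2.2, hn a a.2⟩ : {r : Perm (Fin 5) // r ∈ V4 ∧ r ≠ s})) fun a b e => by
      have e : D.pi a = D.pi b := congrArg Subtype.val e
      have m := mul_mem (inv_mem a.2) b.2
      have m1 := D.U_le_XA m.2
      have m2 : (a : G)⁻¹ * b ∈ D.E := D.mem_E.2 ⟨(D.mem_L m1.1).2 ⟨by
        rw [D.pi_mul (inv_mem (D.U_le_XA a.2.2).1) (D.U_le_XA b.2.2).1, D.pi_inv (D.U_le_XA a.2.2).1,
          e, inv_mul_cancel], m1.2.2.1⟩, m1.2.1⟩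
      by_contra h
      exact hK (inv_mem_iff.1 (D.m1_ti hC (inv_mem hy) m2 (fun h' => h (D.md_one_iff.1 h'))
        (by rw [inv_inv]; exact mem_cj.1 m.1)))
    have c1 : Nat.card ↥(zpowers D.z ⊓ (cj y D.E ⊓ D.U)) ≤ 2 := by
      rw [← D.orderOf_z, ← Nat.card_zpowers]; exact card_le_of_le inf_le_left
    have c2 : Nat.card {r : Perm (Fin 5) // r ∈ V4 ∧ r ≠ s} < 4 := by
      rw [← card_V4]
      exact Set.ncard_lt_ncard (s := {r | r ∈ V4 ∧ r ≠ s}) (t := V4)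
        ⟨fun _ h => h.1, fun h => (h hs).2 rfl⟩
    nlinarith
  obtain ⟨s', -, f, hf, -, -, f3, rfl⟩ := hv1.2
  rw [D.pi_mul (D.L_le hf.1) (D.sg_mem _), D.pi_L hf.1, D.pi_sg, one_mul] at hv2
  subst hv2
  obtain ⟨u, hu⟩ := hv _ f3
  have tX := D.sg_mem_XA (A := ⊤) (s := t) trivial
  have sX := D.sg_mem_XA (A := ⊤) (s := s') trivial
  have m1 := D.conj_mem_E (D.XA_le_X _ tX) tX.1 hf
  have m2 := D.conj_mem_E (D.XA_le_X _ sX) sX.1 (inv_mem (D.el_mem_E u))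
  have m3 := mul_mem (mul_mem (D.el_mem_E u) m1) m2
  have e1 : D.Md (D.el u * (D.sg t * f * (D.sg t)⁻¹) * (D.sg s' * (D.el u)⁻¹ * (D.sg s')⁻¹)) f := by
    refine (D.md_el m3).trans (Co.Md.symm ?_)
    rw [D.ph_mul (mul_mem (D.el_mem u) m1.1) m2.1, D.ph_mul (D.el_mem u) m1.1,
      D.conj_ph tX.1 hf.1, D.conj_ph sX.1 (inv_mem (D.el_mem u)), D.ph_inv (D.el_mem u), D.pi_sg,
      D.pi_sg, D.rh_sg, D.rh_sg, ac_e3, ac_e3, D.ph_el]
    simp only [Prod.snd_add]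
    rw [add_comm u, hu]
    exact D.md_el hf
  have g0 : D.el u * D.sg t ∈ D.X0 := mul_mem (D.E_le_XA _ (D.el_mem_E u)) tX
  have e2 : D.Md (D.el u * D.sg t * (f * D.sg s') * (D.el u * D.sg t)⁻¹) (f * D.sg s') := by
    have := e1.mul (D.X_le_H (D.XA_le_X _ sX)) (Co.Md.refl _ (D.sg s'))
    have e : D.sg t * D.sg s' = D.sg s' * D.sg t := by rw [← map_mul, hts, map_mul]
    convert this using 1
    calc _ = D.el u * D.sg t * f * (D.sg t)⁻¹ * (D.sg t * D.sg s') * (D.sg t)⁻¹ * (D.el u)⁻¹ := by group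
      _ = _ := by rw [e]; group
  have gX : y⁻¹ * (D.el u * D.sg t) * y ∈ D.X :=
    mul_mem (mul_mem (inv_mem hy) (D.XA_le_X _ g0)) hy
  have zc : D.z ∈ cj y D.E := mem_cj.2 (by
    rw [D.mem_H.1 (inv_mem (D.X_le_H hy)), inv_mul_cancel_right]; exact D.z_mem_E)
  have gK := D.m1_ti hC gX (mem_cj.1 hv1.1) (fun h => hs1 (by
    have h' := D.m1_md (inv_mem (D.X_le_H hy)) (a := f * D.sg s') (by rwa [inv_inv])
    have := D.pi_L (h'.mem D.z_mem_L (one_mem _))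
    rwa [D.pi_mul (D.L_le hf.1) (D.sg_mem _), D.pi_L hf.1, D.pi_sg, one_mul] at this)) (by
    have := mem_cj.1 (e2.mem zc hv1.1)
    convert this using 1; group)
  have g4 : (D.el u * D.sg t) ^ 4 = 1 := by
    have e : D.sg t * D.sg t = 1 := by rw [← map_mul, htt, map_one]
    have m := mul_mem (D.el_mem_E u) (D.conj_mem_E (D.XA_le_X _ tX) tX.1 (D.el_mem_E u))
    rw [← D.E_sq m, inv_eq_of_mul_eq_one_right e]
    simp only [pow_succ, pow_zero, one_mul, mul_assoc]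
  have gX0 := D.mem_X0_of_two gX gK (n := 2) (by
    rw [show y⁻¹ * (D.el u * D.sg t) * y = y⁻¹ * (D.el u * D.sg t) * y⁻¹⁻¹ by group, conj_pow]
    norm_num [g4])
  have e3' := D.conj_ph g0.1 h1
  rw [g0.2.2.1, D.pi_mul (D.L_le (D.el_mem u)) tX.1, D.pi_L (D.el_mem u), D.pi_sg, one_mul] at e3'
  rw [← e3']
  congr 1
  calc _ = y * (y⁻¹ * (D.el u * D.sg t) * y * D.ze (wv 1)) * (y⁻¹ * (D.el u * D.sg t) * y)⁻¹ * y⁻¹ := by
        group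
    _ = _ := by rw [D.ze_comm_of_rh gK gX0.2.2.1]; group

theorem m1_closed (hC : D.Cr ≤ D.K) {y e : G} (hy : y ∈ D.X) (he : e ∈ D.E)
    (hK : y * e * y⁻¹ ∈ D.K) : y * e * y⁻¹ ∈ D.L := by
  by_contra hL
  have hyH := D.X_le_H hy
  have yK : y ∉ D.K := fun h => hL (D.conj_mem_L h he.1)
  have sX := mul_mem (mul_mem hy (D.m1_EX he)) (inv_mem hy)
  have s0 := D.mem_X0_of_two sX hK (n := 1) (by
    rw [conj_pow, pow_one, pow_two, D.E_sq he]; group)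
  have h2 : ∀ c, y⁻¹ * D.ze c * y⁻¹⁻¹ ∈ D.L := fun c =>
    D.mem_L_of_fx he.1 (fun h => hL ((D.X_inf_Q sX (D.conj_Q hyH h)).mem D.z_mem_L (one_mem _)))
      (D.conj_Q (inv_mem hyH) (D.ze_mem_Q c)) (Or.inl (by
        calc _ = y⁻¹ * (y * e * y⁻¹ * D.ze c) * (y * e * y⁻¹)⁻¹ * y := by group
          _ = _ := by rw [D.ze_comm_of_rh hK s0.2.2.1]; group))
  have h3 : ∀ c, y * D.ze (wv 1) * y⁻¹ * D.ze c = D.ze c * (y * D.ze (wv 1) * y⁻¹) := fun c => by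
    calc _ = y * (D.ze (wv 1) * (y⁻¹ * D.ze c * y⁻¹⁻¹)) * y⁻¹ := by group
      _ = _ := by rw [← D.ze_comm_L (h2 c)]; group
  have h1 := D.mem_L_of_cent (D.conj_Q hyH (D.ze_mem_Q _)) (h3 _) (h3 _)
  obtain ⟨s, h8⟩ := D.m1_ex hC hy yK h1 (h2 _)
  have y1 := mul_mem (D.XA_le_X _ (D.sg_mem_XA (A := ⊤) (s := s) trivial)) hy
  have y2 : D.sg s * y ∉ D.K := fun h => yK ((D.K.mul_mem_cancel_left (D.sg_mem s)).1 h)
  have y3 : D.sg s * y * D.ze (wv 1) * (D.sg s * y)⁻¹ ∈ D.L := by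
    have := D.conj_mem_L (D.sg_mem s) h1
    convert this using 1; group
  have e1 := D.m1_act hC y1 y2 y3 h8 (by decide) pr1
  have e2 := D.m1_act hC y1 y2 y3 h8 (by decide) pr2
  rw [ac_e3] at e1 e2
  obtain ⟨c, hc⟩ := D.ph_ker y3 (Prod.ext (fpf _ (congrArg (·.1) e1) (congrArg (·.1) e2))
    (Prod.ext (fpf _ (congrArg (·.2.1) e1) (congrArg (·.2.1) e2))
      (fpf _ (congrArg (·.2.2) e1) (congrArg (·.2.2) e2))))
  exact y2 (D.mem_K_of_conj (D.X_le_H y1) (by decide) (by decide) hc)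

theorem closed_of_le (hC : D.Cr ≤ D.K) {h r : G} (hh : h ∈ D.H) (hr : r ∈ D.L)
    (hK : h * r * h⁻¹ ∈ D.K) : ∃ q ∈ D.Q, ∃ r' ∈ D.L, h * r * h⁻¹ = q * r' := by
  by_cases hQ : r ∈ D.Q
  · exact ⟨_, D.conj_Q hh hQ, 1, one_mem _, (mul_one _).symm⟩
  have sH := mul_mem (mul_mem hh (D.L_le_H hr)) (inv_mem hh)
  obtain ⟨w, -, hw⟩ := D.rh_Q (D.conj_Q hh (D.sq hr ▸ D.ze_mem_Q _ : r * r ∈ D.Q))
  rw [← conj_mul, D.rh_mul hK hK] at hw
  obtain ⟨c, c0, c4, hc⟩ := ex_fix _ (D.rh_inv3 hK) (D.zc_of_mem_H hK sH) w hw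
  have e1 : D.Md (h * r * h⁻¹ * D.ze c * (h * r * h⁻¹)⁻¹) (D.ze c) := by
    rw [D.conj_ze hK]
    rcases hc with hc | hc <;> rw [hc]
    exacts [Or.inl rfl, Or.inr (D.ze_add _ _)]
  obtain ⟨x, hx, k, hk, e⟩ := D.good (inv_mem hh) c0 c4
    (D.mem_L_of_fx hr hQ (D.conj_Q (inv_mem hh) (D.ze_mem_Q c)) (by
      have := e1.conj (inv_mem hh)
      unfold Fx
      convert this using 1; group))
  obtain rfl : h = k⁻¹ * x⁻¹ := by rw [← mul_inv_rev, ← e, inv_inv]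
  have hxH := inv_mem (D.X_le_H hx)
  have hkH : k⁻¹ ∈ D.H := (D.H.mul_mem_cancel_right hxH).1 hh
  obtain ⟨q, hq, e2⟩ := D.el_mod_Q hr
  generalize (D.ph r).2.2 = u at e2
  subst e2
  have q1 := D.conj_Q hh hq
  have e3 : k⁻¹ * x⁻¹ * (q * D.el u) * (k⁻¹ * x⁻¹)⁻¹ =
      k⁻¹ * x⁻¹ * q * (k⁻¹ * x⁻¹)⁻¹ * (k⁻¹ * (x⁻¹ * D.el u * x⁻¹⁻¹) * k⁻¹⁻¹) := by group
  refine ⟨_, q1, _, D.conj_mem_L (inv_mem hk) (D.m1_closed hC (inv_mem hx) (D.el_mem_E u) ?_), e3⟩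
  rw [e3, D.K.mul_mem_cancel_left (D.Q_le_K q1), inv_inv k, D.K.mul_mem_cancel_right hk,
    D.K.mul_mem_cancel_left (inv_mem hk)] at hK
  exact hK

end Qd

end Cfsg.Agent.J4K
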