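import Cfsg.Agent.J4K.Blk
import Cfsg.Agent.J4K.Fix
import Cfsg.Agent.H42.SylIn

set_option autoImplicit false
set_option linter.unusedSectionVars false

namespace Cfsg.Agent.J4K

open Subgroup Equiv Cfsg.Agent.H70

namespace M3x

variable {G : Type*} [Group G] [Finite G]

theorem two_mul_le {N A : Subgroup G} {a z : G} (_z2 : z * z = 1) (hz : ∀ n ∈ N, n * z = z * n)
    {T : Set G} (hT : ∀ n ∈ N, n * a * n⁻¹ ∈ T ∧ n * a * n⁻¹ * z ∈ T)
    (hA : ∀ n ∈ N, n * a * n⁻¹ = a → n ∈ A) (hn : ∀ n ∈ N, n * a * n⁻¹ ≠ a * z) :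
    2 * A.relIndex N ≤ T.ncard := by
  let f : (N ⧸ A.subgroupOf N) × Bool → T := fun t =>
    if t.2 then ⟨_, (hT _ t.1.out.2).1⟩ else ⟨_, (hT _ t.1.out.2).2⟩
  have k1 : ∀ s t : N ⧸ A.subgroupOf N, (s.out : G) * a * (s.out : G)⁻¹ = t.out * a * (t.out : G)⁻¹ →
      s = t := fun s t h => by
    rw [← s.out_eq', ← t.out_eq', QuotientGroup.eq]
    refine hA _ (s.out⁻¹ * t.out).2 ?_
    change (s.out : G)⁻¹ * t.out * a * ((s.out : G)⁻¹ * t.out)⁻¹ = a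
    calc _ = (s.out : G)⁻¹ * (t.out * a * (t.out : G)⁻¹) * s.out := by group
      _ = a := by rw [← h]; group
  have k2 : ∀ s t : N, (s : G) * a * (s : G)⁻¹ ≠ t * a * (t : G)⁻¹ * z := fun s t h => by
    refine hn _ (t⁻¹ * s).2 ?_
    change (t : G)⁻¹ * s * a * ((t : G)⁻¹ * s)⁻¹ = a * z
    calc _ = (t : G)⁻¹ * (s * a * (s : G)⁻¹) * t := by group
      _ = a * (t : G)⁻¹ * (z * t) := by rw [h]; group
      _ = _ := by rw [← hz t t.2]; group
  have inj : Function.Injective f := by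
    rintro ⟨s, b⟩ ⟨t, c⟩ h
    have h' := congrArg Subtype.val h
    cases b <;> cases c <;> simp only [f, if_true, Bool.false_eq_true, if_false] at h'
    · rw [k1 s t (mul_right_cancel h')]
    · exact absurd h'.symm (k2 _ _)
    · exact absurd h' (k2 _ _)
    · rw [k1 s t h']
  have := Nat.card_le_card_of_injective f inj
  rwa [Nat.card_prod, Nat.card_eq_fintype_card (α := Bool), Fintype.card_bool, mul_comm] at this

theorem le_two_mul {N A : Subgroup G} {a z : G} (z2 : z * z = 1) (hz : ∀ n ∈ N, n * z = z * n)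
    {T : Set G} (hT : ∀ u ∈ T, ∃ n ∈ N, n * a * n⁻¹ = u ∨ n * a * n⁻¹ = u * z)
    (hA : ∀ n ∈ A, n * a * n⁻¹ = a ∨ n * a * n⁻¹ = a * z) : T.ncard ≤ 2 * A.relIndex N := by
  let f : (N ⧸ A.subgroupOf N) × Bool → G := fun t =>
    t.1.out * a * (t.1.out : G)⁻¹ * if t.2 then 1 else z
  have h1 : T ⊆ f '' Set.univ := fun u hu => by
    obtain ⟨n, hn, h⟩ := hT u hu
    obtain ⟨m, hm⟩ := QuotientGroup.mk_out_eq_mul (A.subgroupOf N) ⟨n, hn⟩
    set t : N ⧸ A.subgroupOf N := QuotientGroup.mk ⟨n, hn⟩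
    have e : (t.out : G) * a * (t.out : G)⁻¹ = n * (((m : N) : G) * a * ((m : N) : G)⁻¹) * n⁻¹ := by
      rw [hm]; simp only [coe_mul]; group
    have e2 : n * (a * z) * n⁻¹ = n * a * n⁻¹ * z := by
      rw [mul_assoc _ _ z, hz _ (inv_mem hn)]; group
    rcases hA _ m.2 with h2 | h2 <;> rcases h with h | h
    · exact ⟨(t, true), trivial, by simp only [f, e]; erw [h2, h]; simp⟩
    · exact ⟨(t, false), trivial, by simp only [f, e]; erw [h2, h]; simp [mul_assoc, z2]⟩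
    · exact ⟨(t, false), trivial, by simp only [f, e]; erw [h2, e2, h]; simp [mul_assoc, z2]⟩
    · exact ⟨(t, true), trivial, by simp only [f, e]; erw [h2, e2, h]; simp [mul_assoc, z2]⟩
  refine (Set.ncard_le_ncard h1).trans ((Set.ncard_image_le).trans ?_)
  rw [Set.ncard_univ, Nat.card_prod, Nat.card_eq_fintype_card (α := Bool), Fintype.card_bool, mul_comm]
  rfl

theorem ncard_ph_le (C : Co G) (s : Finset U0) : {a | a ∈ C.L ∧ C.ph a ∈ s}.ncard ≤ 8 * s.card := by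
  choose l hl hl' using C.ph_surj
  have h1 : {a | a ∈ C.L ∧ C.ph a ∈ s} ⊆
      (fun t : W0 × U0 => l t.2 * C.ze t.1) '' ((Finset.univ ×ˢ s : Finset (W0 × U0)) : Set _) := by
    rintro a ⟨ha, hs⟩
    obtain ⟨c, hc⟩ := C.ph_eq ha (hl (C.ph a)) (hl' _).symm
    exact ⟨(c, C.ph a), by simpa using hs, hc.symm⟩
  refine (Set.ncard_le_ncard h1).trans ((Set.ncard_image_le).trans ?_)
  rw [Set.ncard_coe_finset, Finset.card_product]
  rfl

/-- pairs of dependent vectors of the fixed line -/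
def dep : Finset U0 := ((Finset.univ.filter fun t : N0 × N0 => Ell t.1 ∧ Ell t.2 ∧
  (t.1 = 0 ∨ t.2 = 0 ∨ t.1 = t.2))).image fun t => (t.1, t.2, 0)
theorem card_dep : dep.card = 10 := by decide +kernel
def ind1 : Finset U0 := Finset.univ.image fun t : Bool × Bool => (sm t.1 (nv 1), sm t.2 (nv 1), 0)
theorem card_ind1 : ind1.card = 4 := by decide +kernel

theorem sign_choice : ∀ b0 b1 : N0, b0 ≠ 0 → b1 ≠ 0 → b0 ≠ b1 → ∀ c : W0, c.cd < 4 →
    ∃ u : N0, be (0, 0, u) (b0, b1, 0) = c := by decide +kernel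
theorem sign_pair : ∀ w : W0, w.cd < 4 → w ≠ 0 → ∀ a b : Bool, ∃ c : W0, c.cd < 4 ∧
    zc (tv w) c = smW a (wv 4) + c ∧ zc (tv w) (zc tp c) = smW b (wv 4) + zc tp c := by
  decide +kernel
theorem card_st4 : Nat.card (MulAction.stabilizer (Perm (Fin 5)) (4 : Fin 5)) = 24 := by
  rw [Nat.card_eq_fintype_card, Fintype.card_subtype]; decide +kernel

end M3x

namespace Qd

open M3x

variable {G : Type*} [Group G] [Finite G] (D : Qd G)

theorem m3_md_Q {a b : G} (hb : b ∈ D.H) (h : D.Md a b) : ∃ q ∈ D.Q, a = q * b := by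
  rcases h with rfl | rfl
  · exact ⟨1, one_mem _, (one_mul _).symm⟩
  · exact ⟨D.z, D.ze_mem_Q _, D.mem_H.1 hb⟩

theorem m3_el_not_Q {u : N0} (hu : u ≠ 0) : D.el u ∉ D.Q := fun h =>
  hu ((D.ce_el u).symm.trans ((D.mem_Q (D.el_mem u)).1 h))

theorem m3_Cr_le_X : D.Cr ≤ D.X := fun _ h => h.1

theorem m3_inD_Cr {c a : G} (hc : c ∈ D.Cr) (ha : D.InD (nv 1) a) : D.InD (nv 1) (c * a * c⁻¹) := by
  obtain ⟨q, hq, e⟩ := D.m3_md_Q (D.L_le_H (D.el_mem _)) hc.2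
  have := D.inD_conj (D.X_le_H hc.1) (D.el_mem _) (D.m3_el_not_Q (by decide)) (D.el_mem _) hq e
    (a := a) (by rwa [D.ce_el])
  rwa [D.ce_el] at this

theorem m3_inD_ze (c : W0) : D.InD (nv 1) (D.ze c) := ⟨D.ze_mem c, false, false, D.ph_ze c⟩

theorem Cr_le_norm : D.Cr ≤ normalizer (D.U : Set G) := by
  intro c hc
  have hU := D.U_le_T0.trans D.T0_le_Cr
  have h1 : cj c D.U ≤ D.T0 := cj_le_iff.2 fun u hu => by
    have hcr := mul_mem (mul_mem hc (hU hu)) (inv_mem hc)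
    have hK : c * u * c⁻¹ ∈ D.K := D.mem_K _ fun d => ⟨d, by
      obtain ⟨a1, b0, b1, a2⟩ := D.m3_inD_Cr (inv_mem hc) (D.m3_inD_ze d)
      have := D.U_cent hu a1 (by rw [a2]; clear a2; revert b0 b1; decide)
        (by rw [a2]; clear a2; revert b0 b1; decide) (by rw [a2]; clear a2; revert b0 b1; decide)
      calc _ = c * (u * (c⁻¹ * D.ze d * c⁻¹⁻¹)) * u⁻¹ * c⁻¹ := by group
        _ = _ := by rw [this]; group⟩
    exact D.mem_T0_of_Cr (D.mem_X0_of_two hcr.1 hK (n := 1)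
      (by rw [pow_one, sq, conj_mul, D.U_sq hu]; simp)) hcr
  have hz : D.z ∈ cj c D.U := by
    have := conj_mem_cj c D.z_mem_U
    rwa [D.mem_H.1 (D.X_le_H hc.1), mul_inv_cancel_right] at this
  rcases D.star h1 hz (by rw [card_cj, D.card_U]) (fun a ha => Or.inl (by
      have := D.U_sq (mem_cj.1 ha)
      calc a * a = c * (c⁻¹ * a * c * (c⁻¹ * a * c)) * c⁻¹ := by group
        _ = 1 := by rw [this]; group)) with h | h
  · exact absurd (by rw [← h, cj_inv_cj]) (D.cj_E_ne_U (inv_mem (D.X_le_H hc.1)))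
  · exact cj_eq_self_iff.1 h

theorem m3_mem_K_of_el {h s' q q' : G} (hh : h ∈ D.H) (hq : q ∈ D.Q) (hq' : q' ∈ D.Q) (hs' : s' ∈ D.L)
    (e : h * D.el (nv 1) * h⁻¹ = q * D.el (nv 1)) (e' : h * D.el (nv 2) * h⁻¹ = q' * s') :
    h ∈ D.K :=
  D.mem_K_of_two hh (D.el_mem _) (D.m3_el_not_Q (by decide)) (D.el_mem _) (D.m3_el_not_Q (by decide))
    (fun h => by
      have := (D.mem_Q (mul_mem (D.el_mem _) (D.el_mem _))).1 h
      rw [D.ce_mul (D.el_mem _) (D.el_mem _), D.ce_el, D.ce_el] at this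
      exact absurd this (by decide)) (D.el_mem _) hs' hq hq' e e'

theorem m3_p_pow_comm {u : G} (hu : u ∈ D.X) (i : ℕ) : D.p ^ i * u = u * D.p ^ i :=
  ((show Commute u D.p from (D.mem_X.1 hu).2).pow_right i).eq.symm

theorem cent_U' {g : G} (hg : g ∈ D.X) (h : ∀ u ∈ D.U, D.Md (g * u * g⁻¹) u) :
    ∃ i : ℕ, ∃ u ∈ D.U, g = D.p ^ i * u := by
  obtain ⟨q, hq, e⟩ := D.m3_md_Q (D.L_le_H (D.el_mem _)) (h _ (D.el_mem_U (u := nv 1) (by decide)))
  obtain ⟨q', hq', e'⟩ := D.m3_md_Q (D.L_le_H (D.el_mem _)) (h _ (D.el_mem_U (u := nv 2) (by decide)))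
  obtain ⟨i, g0, h0, rfl⟩ := D.XK_dec hg (D.m3_mem_K_of_el (D.X_le_H hg) hq hq' (D.el_mem _) e e')
  refine ⟨i, g0, D.cent_U h0 fun u hu => ?_, rfl⟩
  have hX := D.XA_le_X _ h0
  have := h u hu
  rwa [show D.p ^ i * g0 * u * (D.p ^ i * g0)⁻¹ = D.p ^ i * (g0 * u * g0⁻¹) * (D.p ^ i)⁻¹ by group,
    D.m3_p_pow_comm (mul_mem (mul_mem hX (D.XA_le_X _ (D.U_le_X0 hu))) (inv_mem hX)),
    mul_inv_cancel_right] at this

/-- members of `X` moving `ze 1` inside `Z` -/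
theorem m3_X_ze1 {n : G} (hn : n ∈ D.X) {d : W0} (h : n * D.ze (wv 1) * n⁻¹ = D.ze d) :
    (d = wv 1 → n ∈ D.X0) ∧ d ≠ wv 5 := by
  have hK := D.mem_K_of_conj (D.X_le_H hn) (by decide) (by decide) h
  obtain ⟨i, g0, h0, rfl⟩ := D.XK_dec3 (D.mem_X.1 hn).2 hK
  rw [D.conj_ze hK, D.rh_p_X0 _ h0] at h
  obtain rfl := D.ze_inj h
  fin_cases i
  · exact ⟨fun _ => by simpa using h0, by decide⟩
  · exact ⟨fun h => absurd h (by decide), by decide⟩
  · exact ⟨fun h => absurd h (by decide), by decide⟩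

theorem m3_ze1_z : D.ze (wv 1) * D.z = D.ze (wv 5) := by
  rw [Co.z, ← D.ze_add]; congr 1

theorem m3_sylIn_T0 {N : Subgroup G} (h1 : D.T0 ≤ N) (h2 : N ≤ D.X) : H42.SylIn 2 D.T0 N := by
  obtain ⟨P, hP, h⟩ := H42.exists_sylIn D.isPGroup_T0 h1
  rwa [D.syl_T0 hP.isP h (hP.le.trans h2)] at hP

theorem card_Cr (hC : ¬ D.Cr ≤ D.K) : Nat.card D.Cr = 2304 := by
  have h1 := H42.card_mul_relIndex D.T0_le_Cr
  have h2 := H42.card_mul_relIndex (inf_le_left : D.Cr ⊓ D.K ≤ D.Cr)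
  have h3 := (D.m3_sylIn_T0 D.T0_le_Cr D.m3_Cr_le_X).ndvd
  have h4 : (D.Cr ⊓ D.K).relIndex D.Cr ≠ 1 := fun h => hC ((relIndex_eq_one.1 h).trans inf_le_right)
  have h5 := (two_mul_le (N := D.Cr) (A := D.T0) (a := D.ze (wv 1)) D.z_sq
    (fun n hn => D.mem_H.1 (D.X_le_H hn.1)) (T := {a | a ∈ D.L ∧ D.ph a ∈ ind1}) (fun n hn => by
      obtain ⟨a1, b0, b1, a2⟩ := D.m3_inD_Cr hn (D.m3_inD_ze (wv 1))
      have a3 : D.ph (n * D.ze (wv 1) * n⁻¹) ∈ ind1 :=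
        Finset.mem_image.2 ⟨(b0, b1), Finset.mem_univ _, a2.symm⟩
      exact ⟨⟨a1, a3⟩, mul_mem a1 D.z_mem_L, by rwa [D.ph_mul a1 D.z_mem_L, D.ph_z, add_zero]⟩)
    (fun n hn h => D.mem_T0_of_Cr ((D.m3_X_ze1 hn.1 h).1 rfl) hn)
    (fun n hn h => (D.m3_X_ze1 hn.1 (h.trans D.m3_ze1_z)).2 rfl)).trans (ncard_ph_le D.toCo ind1)
  rw [card_ind1] at h5
  rw [D.card_T0] at h1
  rw [D.card_Cr_K] at h2
  by_contra hne
  have h6 : 5 ∣ Nat.card D.Cr := by omega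
  have : Fact (Nat.Prime 5) := ⟨by norm_num⟩
  obtain ⟨⟨g, hg⟩, h7⟩ := exists_prime_orderOf_dvd_card' 5 h6
  rw [orderOf_mk] at h7
  have g5 : g ^ 5 = 1 := h7 ▸ pow_orderOf_eq_one g
  have gz := D.mem_H.1 (D.X_le_H hg.1)
  have g1 : g * D.el (nv 1) = D.el (nv 1) * g := by
    rcases hg.2 with h | h
    · exact mul_inv_eq_iff_eq_mul.1 h
    · have h2 : Commute (g * g) (D.el (nv 1)) := by
        refine mul_inv_eq_iff_eq_mul.1 ?_
        calc _ = g * (g * D.el (nv 1) * g⁻¹) * g⁻¹ := by group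
          _ = g * (D.el (nv 1) * D.z) * g⁻¹ := by rw [h]
          _ = g * D.el (nv 1) * g⁻¹ * (g * D.z) * g⁻¹ := by group
          _ = D.el (nv 1) * (D.z * D.z) := by rw [gz, h]; group
          _ = _ := by rw [D.z_sq, mul_one]
      have := h2.pow_left 3
      rwa [← sq, ← pow_mul, show 2 * 3 = 5 + 1 from rfl, pow_succ, g5, one_mul] at this
  set F := D.U ⊓ centralizer {g}
  have h8 := ncard_modEq_fix 5 (fun u => g * u * g⁻¹) D.U (Set.toFinite _)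
    (fun u hu => conj_mem_of_mem_norm (D.Cr_le_norm hg) hu) fun u _ => by
      calc _ = g ^ 5 * u * (g ^ 5)⁻¹ := by simp only [Function.iterate_succ, pow_succ]; simp; group
        _ = u := by rw [g5]; simp
  have h9 : {x | x ∈ (D.U : Set G) ∧ g * x * g⁻¹ = x} = (F : Set G) := Set.ext fun x =>
    and_congr Iff.rfl (by
      rw [mul_inv_eq_iff_eq_mul, eq_comm]; exact mem_centralizer_singleton_iff.symm)
  rw [h9, ← Nat.card_coe_set_eq, ← Nat.card_coe_set_eq] at h8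
  change Nat.card D.U ≡ Nat.card F [MOD 5] at h8
  have h10 : Nat.card F ∣ 2 ^ 5 := (card_dvd_of_le inf_le_left).trans D.card_U.dvd
  have h11 : Nat.card F ≠ 2 := fun h => by
    have : zpowers D.z = F := eq_of_le_of_card_ge
      (zpowers_le_of_mem ⟨D.z_mem_U, mem_centralizer_singleton_iff.2 gz.symm⟩) (by rw [h, D.card_z])
    have h2 : D.el (nv 1) ∈ F :=
      ⟨D.el_mem_U (by decide), mem_centralizer_singleton_iff.2 g1.symm⟩
    rw [← this] at h2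
    exact D.m3_el_not_Q (by decide) (zpowers_le_of_mem (D.ze_mem_Q _) h2)
  rw [D.card_U] at h8
  obtain ⟨k, hk, h12⟩ := (Nat.dvd_prime_pow Nat.prime_two).1 h10
  have h13 : Nat.card F = 32 := by
    rw [h12] at h8 h11 ⊢
    interval_cases k <;> simp_all [Nat.ModEq]
  have h14 : F = D.U := eq_of_le_of_card_ge inf_le_left (by rw [h13, D.card_U])
  obtain ⟨i, u, hu, rfl⟩ := D.cent_U' hg.1 fun u hu => Or.inl (mul_inv_eq_iff_eq_mul.2
    (mem_centralizer_singleton_iff.1 (h14.ge hu).2).symm)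
  have h15 : (D.p ^ i * u) ^ 6 = 1 := by
    rw [(show Commute (D.p ^ i) u from D.m3_p_pow_comm (D.XA_le_X _ (D.U_le_X0 hu)) i).mul_pow,
      ← pow_mul, show i * 6 = 3 * (2 * i) by ring, pow_mul, D.p3, one_pow,
      show 6 = 2 * 3 from rfl, pow_mul, sq, D.U_sq hu]; simp
  have := orderOf_dvd_of_pow_eq_one h15
  rw [h7] at this
  exact absurd this (by decide)

theorem trans_all (hC : ¬ D.Cr ≤ D.K) {u : G} (hu : u ∈ D.U) (h1 : ¬ D.Md u 1) :
    ∃ n ∈ D.X, n ∈ normalizer (D.U : Set G) ∧ D.Md (n * D.el (nv 1) * n⁻¹) u := by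
  by_cases hE : u ∈ D.E
  · obtain ⟨g, hg, h⟩ := D.trans_EU hE hu h1
    exact ⟨g, D.XA_le_X _ hg, h⟩
  obtain ⟨c, hc, hK⟩ := SetLike.not_le_iff_exists.1 hC
  have h2 : D.el (nv 2) ∈ D.U := D.el_mem_U (by decide)
  obtain ⟨q, hq, e⟩ := D.m3_md_Q (D.L_le_H (D.el_mem _)) hc.2
  obtain ⟨g, hg, hn, h3⟩ := D.trans_U (conj_mem_of_mem_norm (D.Cr_le_norm hc) h2) (fun h =>
    hK (D.m3_mem_K_of_el (D.X_le_H hc.1) hq (one_mem _) h.1 e (one_mul _).symm)) hu hE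
  obtain ⟨g', hg', hn', h4⟩ := D.trans_EU (D.el_mem_E _) h2 fun h =>
    D.m3_el_not_Q (by decide) (h.mem (D.ze_mem_Q _) (one_mem _))
  have hX := D.XA_le_X _ hg
  refine ⟨g * c * g', mul_mem (mul_mem hX hc.1) (D.XA_le_X _ hg'),
    mul_mem (mul_mem hn (D.Cr_le_norm hc)) hn', ?_⟩
  have := ((h4.conj (D.X_le_H hc.1)).conj (D.X_le_H hX)).trans h3
  rwa [show g * (c * (g' * D.el (nv 1) * g'⁻¹) * c⁻¹) * g⁻¹ =
    g * c * g' * D.el (nv 1) * (g * c * g')⁻¹ by group] at this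

theorem m3_card_NU (hC : ¬ D.Cr ≤ D.K) :
    34560 ≤ Nat.card (D.X ⊓ normalizer (D.U : Set G) : Subgroup G) := by
  have h1 := H42.card_mul_relIndex (le_inf D.m3_Cr_le_X D.Cr_le_norm)
  have h2 := le_two_mul (N := D.X ⊓ normalizer (D.U : Set G)) (A := D.Cr) (a := D.el (nv 1)) D.z_sq
    (fun n hn => D.mem_H.1 (D.X_le_H hn.1)) (T := (D.U : Set G) \ zpowers D.z) (fun u hu => by
      obtain ⟨n, a1, a2, a3⟩ := D.trans_all hC hu.1 fun h => hu.2 (D.md_one_iff.1 h)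
      exact ⟨n, ⟨a1, a2⟩, a3⟩) fun n hn => hn.2
  rw [Set.ncard_sdiff (zpowers_le_of_mem D.z_mem_U), ← Nat.card_coe_set_eq, ← Nat.card_coe_set_eq] at h2
  change Nat.card D.U - Nat.card (zpowers D.z) ≤ _ at h2
  rw [D.card_U, D.card_z] at h2
  rw [D.card_Cr hC] at h1
  omega

theorem m3_exists_indep (hC : ¬ D.Cr ≤ D.K) : ∃ n ∈ D.X, n * D.ze (wv 1) * n⁻¹ ∈ D.L ∧
    ∃ b0 b1 : N0, b0 ≠ 0 ∧ b1 ≠ 0 ∧ b0 ≠ b1 ∧ D.ph (n * D.ze (wv 1) * n⁻¹) = (b0, b1, 0) := by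
  by_contra hne
  have h1 := H42.card_mul_relIndex (X := D.XA (MulAction.stabilizer _ (4 : Fin 5)))
    (Y := D.X ⊓ normalizer (D.U : Set G))
    (le_inf (D.XA_le_X _) fun g hg => (D.mem_norm_U (D.XA_mono le_top hg)).2 hg.2.2.2)
  have h2 := (two_mul_le (N := D.X ⊓ normalizer (D.U : Set G))
    (A := D.XA (MulAction.stabilizer _ (4 : Fin 5))) (a := D.ze (wv 1)) D.z_sq
    (fun n hn => D.mem_H.1 (D.X_le_H hn.1)) (T := {a | a ∈ D.L ∧ D.ph a ∈ dep}) (fun n hn => by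
      have hq := D.conj_Q (D.X_le_H hn.1) (D.ze_mem_Q (wv 1))
      have hc : ∀ u ∈ D.U, u * (n * D.ze (wv 1) * n⁻¹) * u⁻¹ = n * D.ze (wv 1) * n⁻¹ := fun u hu => by
        have h0 := D.U_le_X0 (conj_mem_of_mem_norm' hn.2 hu)
        have := D.ze_comm_of_rh h0.1 h0.2.2.1 (wv 1)
        calc _ = n * (n⁻¹ * u * n * D.ze (wv 1)) * n⁻¹ * u⁻¹ := by group
          _ = _ := by rw [this]; group
      have a1 := D.mem_L_of_fx (D.el_mem _) (D.m3_el_not_Q (u := nv 1) (by decide)) hq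
        (Or.inl (hc _ (D.el_mem_U (by decide))))
      have a2 := (D.mem_Q a1).1 hq
      have a3 := D.conj_ph (D.sg_mem v1) a1
      rw [hc _ (D.sg_mem_U v1_mem), D.pi_sg, D.rh_sg, ac_e3] at a3
      have b0 := ell_of_fix v1_mem (by decide) (congrArg (·.1) a3).symm
      have b1 := ell_of_fix v1_mem (by decide) (congrArg (·.2.1) a3).symm
      have a4 : D.ph (n * D.ze (wv 1) * n⁻¹) ∈ dep := by
        refine Finset.mem_image.2 ⟨(_, _), Finset.mem_filter.2 ⟨Finset.mem_univ _, b0, b1, ?_⟩,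
          by rw [← a2]⟩
        by_contra h
        simp only [not_or] at h
        exact hne ⟨n, hn.1, a1, _, _, h.1, h.2.1, h.2.2, by rw [← a2]⟩
      exact ⟨⟨a1, a4⟩, mul_mem a1 D.z_mem_L, by rwa [D.ph_mul a1 D.z_mem_L, D.ph_z, add_zero]⟩)
    (fun n hn h => by
      have h0 := (D.m3_X_ze1 hn.1 h).1 rfl
      exact ⟨h0.1, h0.2.1, h0.2.2.1, (D.mem_norm_U h0).1 hn.2⟩)
    (fun n hn h => (D.m3_X_ze1 hn.1 (h.trans D.m3_ze1_z)).2 rfl)).trans (ncard_ph_le D.toCo dep)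
  have h3 := D.m3_card_NU hC
  rw [D.card_XA, card_st4] at h1
  rw [card_dep] at h2
  omega

theorem all_good (hC : ¬ D.Cr ≤ D.K) {h : G} (hh : h ∈ D.H) : D.Good h := by
  set v := h * D.ze (wv 1) * h⁻¹ with hv
  have hvQ : v ∈ D.Q := D.conj_Q hh (D.ze_mem_Q _)
  have hvK := D.Q_le_K hvQ
  by_cases hL : v ∈ D.L
  · exact D.good hh (by decide) (by decide) hL
  obtain ⟨w, hw, hr⟩ := D.rh_Q hvQ
  have hw0 : w ≠ 0 := fun h0 => hL ((D.mem_L hvK).2 ⟨D.pi_Q hvQ, by rw [hr, h0, tv_zero]⟩)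
  obtain ⟨n, hn, hb, b0, b1, c0, c1, c2, hph⟩ := D.m3_exists_indep hC
  set b := n * D.ze (wv 1) * n⁻¹ with hb'
  have hbQ : b ∈ D.Q := D.conj_Q (D.X_le_H hn) (D.ze_mem_Q _)
  have sgn : ∀ q ∈ D.Q, ∃ a : Bool, v * q * v⁻¹ = q * D.ze (smW a (wv 4)) := fun q hq => by
    rcases D.comm_Q hvQ hq with e | e
    · exact ⟨false, by rw [e]; simp [smW, D.ze_zero]⟩
    · exact ⟨true, by rw [e, mul_assoc _ v, D.mem_H.1 (D.Q_le_H hvQ)]; simp [smW, Co.z, mul_assoc]⟩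
  obtain ⟨α, hα⟩ := sgn b hbQ
  obtain ⟨β, hβ⟩ := sgn _ (D.conj_Q D.p_mem_H hbQ)
  obtain ⟨c, hc, e1, e2⟩ := sign_pair w hw hw0 α β
  obtain ⟨u, hu⟩ := sign_choice b0 b1 c0 c1 c2 c hc
  have key : ∀ (q : G) (a : Bool) (d : W0), v * q * v⁻¹ = q * D.ze (smW a (wv 4)) →
      zc (tv w) d = smW a (wv 4) + d → v * (q * D.ze d) * v⁻¹ = q * D.ze d := fun q a d k1 k2 => by
    rw [← conj_mul, k1, D.conj_ze hvK, hr, k2, mul_assoc, ← D.ze_add, ← add_assoc, W0.add_self,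
      zero_add]
  have hy : D.el u * n ∈ D.X := mul_mem (D.XA_le_X ⊤ (D.E_le_XA _ (D.el_mem_E u))) hn
  set y := D.el u * n with hy'
  have y1 : y * D.ze (wv 1) * y⁻¹ = b * D.ze c := by
    rw [← hu, ← hph, ← D.ph_el, ← D.conj_L (D.el_mem u) hb, hy', hb']; group
  have y3 : y * D.ze (wv 3) * y⁻¹ = D.p * b * D.p⁻¹ * D.ze (zc tp c) := by
    have e : D.ze (wv 3) = D.p * D.ze (wv 1) * D.p⁻¹ := by
      rw [D.conj_ze D.p_mem, D.rh_p]; congr 1
    rw [← D.rh_p, ← D.conj_ze D.p_mem, conj_mul, ← y1, e]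
    calc _ = (y * D.p) * D.ze (wv 1) * (y * D.p)⁻¹ := by group
      _ = _ := by rw [(D.mem_X.1 hy).2]; group
  have back : ∀ d, v * (y * D.ze d * y⁻¹) * v⁻¹ = y * D.ze d * y⁻¹ →
      Commute (y⁻¹ * v * y⁻¹⁻¹) (D.ze d) := fun d e => by
    change _ * _ = _ * _
    calc _ = y⁻¹ * (v * (y * D.ze d * y⁻¹) * v⁻¹) * v * y := by group
      _ = _ := by rw [e]; group
  have k1 := back _ (by rw [y1]; exact key _ _ _ hα e1)
  have k3 := back _ (by rw [y3]; exact key _ _ _ hβ e2)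
  have k2 : Commute (y⁻¹ * v * y⁻¹⁻¹) (D.ze (wv 2)) := by
    rw [show wv 2 = wv 1 + wv 3 by decide, D.ze_add]; exact k1.mul_right k3
  have hL' := D.mem_L_of_cent (D.conj_Q (inv_mem (D.X_le_H hy)) hvQ) k1 k2
  obtain ⟨x, hx, k, hk, e⟩ := D.good (mul_mem (inv_mem (D.X_le_H hy)) hh) (c := wv 1) (by decide)
    (by decide) (by convert hL' using 1; rw [hv]; group)
  exact ⟨y * x, mul_mem hy hx, k, hk, by rw [mul_assoc, ← e]; group⟩

end Qd

end Cfsg.Agent.J4K
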