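/-
Project J4K: determination of `Q = O_2(C(z))`.
-/
import Cfsg.Agent.J4K.XLocA
import Cfsg.Agent.H70.CharP

set_option autoImplicit false

namespace Cfsg.Agent.J4K

open Subgroup Equiv Cfsg.Agent.H70

namespace QD

theorem pow_gcd_mem {G : Type*} [Group G] {L : Subgroup G} {k : G} {m n : ℕ} (hm : k ^ m ∈ L) (hn : k ^ n ∈ L) :
    k ^ m.gcd n ∈ L := by
  rw [← zpow_natCast, Nat.gcd_eq_gcd_ab, zpow_add, zpow_mul, zpow_mul, zpow_natCast, zpow_natCast]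
  exact mul_mem (zpow_mem hm _) (zpow_mem hn _)

theorem be_small {u : U0} (h : ∀ v, be v u = 0 ∨ be v u = wv 4) : u = 0 := by
  have h1 : ∀ a b c : Bool, mkW a b c = 0 ∨ mkW a b c = wv 4 → a = false ∧ b = false := by decide
  have h2 : ∀ c : N0, (∀ d, B0 d c = false) → c = 0 := by decide +kernel
  refine Prod.ext (h2 _ fun d => ?_) (Prod.ext (h2 _ fun d => ?_) (h2 _ fun d => ?_))
  · simpa [B0_zero_left] using (h1 _ _ _ (h (0, 0, d))).2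
  · simpa [B0_zero_left] using (h1 _ _ _ (h (0, 0, d))).1
  · simpa [B0_zero_left] using (h1 _ _ _ (h (d, 0, 0))).2

theorem span {F : U0 → Prop} (hadd : ∀ u v, F u → F v → F (u + v))
    (hac : ∀ s t, Inv3 t → zc t (wv 4) = wv 4 → ∀ u, F u → F (ac s t u)) {v : U0} (hv : F v) (h0 : v ≠ 0) :
    (∀ a b, F (a, b, 0)) ∧ (v.2.2 ≠ 0 → ∀ u, F u) := by
  have hl : ∀ t, Inv3 t → zc t (wv 4) = wv 4 → ∀ u, F u → F (lin t u) := fun t h1 h2 u hu =>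
    ac_one t u ▸ hac 1 t h1 h2 u hu
  have hp := hl tp (by decide) (by decide)
  have hi := hl ti (by decide) (by decide)
  have hz : F 0 := U0.add_self v ▸ hadd v v hv hv
  have htr : ∀ c d : N0, c ≠ 0 → d ≠ 0 → ∃ s, act s c = d := fun c d hc hd => by
    obtain ⟨s, rfl⟩ := act_trans hc
    obtain ⟨r, rfl⟩ := act_trans hd
    exact ⟨r * s⁻¹, by rw [act_mul, act_inv_act]⟩
  obtain ⟨c, hc, h1⟩ : ∃ c, c ≠ 0 ∧ F (c, 0, 0) := by
    obtain ⟨a, b, c⟩ := v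
    by_cases h2 : c = 0
    · subst h2
      by_cases h3 : a = b
      · subst h3
        refine ⟨a, fun e => h0 (by rw [e]; rfl), ?_⟩
        simpa [lin_tp, N0.add_self] using hp _ hv
      · refine ⟨a + b, fun e => h3 (N0.eq_of_add e), ?_⟩
        simpa [lin_tp, lin_ti, N0.add_self, add_comm b a] using hp _ (hadd _ _ hv (hi _ hv))
    · refine ⟨c, h2, ?_⟩
      have := hadd _ _ hv (hl (tv (wv 1)) (by decide) (by decide) _ hv)
      rw [lin_tv (by decide)] at this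
      simpa [show bit (wv 1) 0 = true from rfl, show bit (wv 1) 1 = false from rfl, sm, N0.add_self,
        ← add_assoc] using this
  have h2 : ∀ a, F (a, 0, 0) := fun a => by
    by_cases ha : a = 0
    · rw [ha]; exact hz
    · obtain ⟨s, rfl⟩ := htr c a hc ha
      simpa [ac_e3, act_zero] using hac s e3 (by decide) (by decide) _ h1
  have h3 : ∀ a b, F (a, b, 0) := fun a b => by simpa [lin_ti] using hadd _ _ (h2 a) (hi _ (h2 b))
  refine ⟨h3, fun h u => ?_⟩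
  have h4 : F (0, 0, v.2.2) := by
    have := hadd _ _ hv (h3 v.1 v.2.1)
    obtain ⟨a, b, c⟩ := v
    simpa [N0.add_self] using this
  by_cases hu : u.2.2 = 0
  · obtain ⟨a, b, c⟩ := u
    subst hu; exact h3 a b
  · obtain ⟨s, hs⟩ := htr _ _ h hu
    simpa [ac_e3, act_zero, hs] using hadd _ _ (h3 u.1 u.2.1) (hac s e3 (by decide) (by decide) _ h4)

variable {G : Type*} [Group G] (S : Sec G)

theorem mm_cancel {k : G} (hk : k ∈ S.K) {a b : M3} (h : mm a (S.rh k) = mm b (S.rh k)) : a = b := by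
  rw [← mm_e3 a, ← mm_e3 b, ← S.rh_mul_inv hk, ← mm_assoc, h, mm_assoc]

/-- `O_2(K ∩ H)` -/
def R : Subgroup G where
  carrier := {k | k ∈ S.K ∧ S.pi k = 1 ∧ ∃ w : W0, w.cd < 4 ∧ S.rh k = tv w}
  mul_mem' := by
    rintro a b ⟨a1, a2, v, a3, a4⟩ ⟨b1, b2, w, b3, b4⟩
    have h : ∀ v w : W0, v.cd < 4 → w.cd < 4 → (v + w).cd < 4 ∧ mm (tv v) (tv w) = tv (v + w) := by decide
    exact ⟨mul_mem a1 b1, by rw [S.pi_mul a1 b1, a2, b2, mul_one], v + w, (h v w a3 b3).1,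
      by rw [S.rh_mul a1 b1, a4, b4, (h v w a3 b3).2]⟩
  one_mem' := ⟨one_mem _, S.pi_one, 0, by decide, by rw [S.rh_one, tv_zero]⟩
  inv_mem' := by
    rintro a ⟨a1, a2, v, a3, a4⟩
    have h : ∀ v : W0, v.cd < 4 → mm (tv v) (tv v) = e3 := by decide
    exact ⟨inv_mem a1, by rw [S.pi_inv a1, a2, inv_one], v, a3,
      mm_cancel S a1 (by rw [S.rh_inv_mul a1, a4, h v a3])⟩

theorem sq_mem_L {r : G} (hr : r ∈ R S) : r * r ∈ S.L := by
  obtain ⟨a1, a2, v, a3, a4⟩ := hr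
  have h : ∀ v : W0, v.cd < 4 → mm (tv v) (tv v) = e3 := by decide
  exact (S.mem_L (mul_mem a1 a1)).2 ⟨by rw [S.pi_mul a1 a1, a2, mul_one], by rw [S.rh_mul a1 a1, a4, h v a3]⟩
theorem R_two : IsPGroup 2 (R S) := fun r => ⟨3, Subtype.ext (by
  change (r : G) ^ (2 * 4) = 1
  rw [pow_mul, pow_two]; exact S.pow_four (sq_mem_L S r.2))⟩
theorem R_le_H : R S ≤ S.H := by
  rintro a ⟨a1, -, v, a3, a4⟩
  have h : ∀ v : W0, v.cd < 4 → zc (tv v) (wv 4) = wv 4 := by decide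
  exact S.mem_H_of_rh a1 (by rw [a4, h v a3])
theorem conj_R {k r : G} (hk : k ∈ S.K) (hH : k ∈ S.H) (hr : r ∈ R S) : k * r * k⁻¹ ∈ R S := by
  obtain ⟨a1, a2, v, a3, a4⟩ := hr
  have h : ∀ t : M3, Inv3 t → zc t (wv 4) = wv 4 → ∀ v : W0, v.cd < 4 → ∃ w : W0, w.cd < 4 ∧
      mm t (tv v) = mm (tv w) t := mat_forall (by decide +kernel)
  obtain ⟨w, h1, h2⟩ := h _ (S.rh_inv3 hk) (S.zc_of_mem_H hk hH) v a3
  exact ⟨mul_mem (mul_mem hk a1) (inv_mem hk), by rw [S.pi_conj hk a1, a2]; simp, w, h1,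
    mm_cancel S hk (by rw [S.rh_conj hk a1, a4, h2])⟩

theorem sg_mem_H (s : Perm (Fin 5)) : S.sg s ∈ S.H := S.X_le_H (S.XA_le_X _ (S.sg_X0 s))

theorem le_R {A : Subgroup G} (hK : A ≤ S.K) (hH : A ≤ S.H) (h2 : IsPGroup 2 A)
    (hn : ∀ k ∈ S.K, k ∈ S.H → ∀ a ∈ A, k * a * k⁻¹ ∈ A) : A ≤ R S := by
  have hP : (S.piH A hK).range.Normal := ⟨by
    rintro _ ⟨a, rfl⟩ s
    exact ⟨⟨_, hn _ (S.sg_mem s) (sg_mem_H S s) a a.2⟩, by
      rw [S.piH_apply, S.piH_apply, S.pi_conj (S.sg_mem s) (hK a.2), S.pi_sg]⟩⟩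
  have h1 : ∀ a ∈ A, S.pi a = 1 := fun a ha => by
    by_contra h
    have : Nontrivial (S.piH A hK).range := ⟨⟨⟨_, ⟨a, ha⟩, rfl⟩, 1, fun e => h (congrArg Subtype.val e)⟩⟩
    obtain ⟨n, hn⟩ := h2.of_surjective _ (S.piH A hK).rangeRestrict_surjective
      ⟨xq, Perm.alternatingGroup_le_of_normal (α := Fin 5) (by simp) this
        (Perm.mem_alternatingGroup.2 (by decide))⟩
    have h3 : orderOf xq = 3 := orderOf_eq_prime (by decide) (by decide)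
    have h4 := orderOf_dvd_of_pow_eq_one (show xq ^ 2 ^ n = 1 from congrArg Subtype.val hn)
    exact absurd (Nat.prime_three.dvd_of_dvd_pow (h3 ▸ h4)) (by decide)
  have h3 : ∀ a ∈ A, mpow (S.rh a) 4 = e3 := fun a ha => by
    have h : ∀ t : M3, Inv3 t → zc t (wv 4) = wv 4 → mpow t 12 = e3 := mat_forall (by decide +kernel)
    obtain ⟨n, hn⟩ := h2 ⟨a, ha⟩
    have h4 := pow_gcd_mem ((S.mem_L (pow_mem (hK ha) 12)).2 ⟨h1 _ (pow_mem ha _), by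
      rw [S.rh_pow (hK ha), h _ (S.rh_inv3 (hK ha)) (S.zc_of_mem_H (hK ha) (hH ha))]⟩)
      (show a ^ 2 ^ n ∈ S.L by rw [show a ^ 2 ^ n = 1 from congrArg Subtype.val hn]; exact one_mem _)
    obtain ⟨m, hm⟩ : Nat.gcd 12 (2 ^ n) ∣ 4 :=
      (((by norm_num : Nat.Coprime 2 3).pow_left n).coprime_dvd_left
        (Nat.gcd_dvd_right 12 _)).dvd_of_dvd_mul_left (Nat.gcd_dvd_left 12 _)
    rw [← S.rh_pow (hK ha), hm, pow_mul]
    exact S.rh_L (pow_mem h4 m)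
  intro a ha
  have h : ∀ t : M3, Inv3 t → zc t (wv 4) = wv 4 → mpow t 4 = e3 →
      mpow (mm t (mm (mm tp t) (mpow tp 2))) 4 = e3 → ∃ w : W0, w.cd < 4 ∧ t = tv w :=
    mat_forall (by decide +kernel)
  refine ⟨hK ha, h1 a ha, h _ (S.rh_inv3 (hK ha)) (S.zc_of_mem_H (hK ha) (hH ha)) (h3 a ha) ?_⟩
  have h4 := hn _ S.p_mem S.p_mem_H a ha
  have h5 := h3 _ (mul_mem ha h4)
  rwa [S.rh_mul (hK ha) (hK h4), show S.p⁻¹ = S.p ^ 2 from
    inv_eq_of_mul_eq_one_right (by rw [← pow_succ', S.p3]), S.rh_mul (mul_mem S.p_mem (hK ha)) (pow_mem S.p_mem _),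
    S.rh_mul S.p_mem (hK ha), S.rh_p_pow, S.rh_p] at h5

theorem mem_K_of_norm {A : Subgroup G} (h1 : S.L ≤ A) (h2 : A ≤ R S) {g : G} (hg : g ∈ S.H)
    (hn : g ∈ normalizer (A : Set G)) : g ∈ S.K := by
  refine S.mem_K g fun c => ?_
  obtain ⟨a, ha⟩ : ∃ a, a = g * S.ze c * g⁻¹ := ⟨_, rfl⟩
  have h3 : a ∈ A := ha ▸ conj_mem_of_mem_norm hn (h1 (S.ze_mem c))
  have h4 : ∀ l ∈ S.L, S.Md (l * a * l⁻¹) a := fun l hl => by
    obtain ⟨b1, -, v, b3, b4⟩ := h2 (conj_mem_of_mem_norm (inv_mem hn) (h1 hl))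
    have h : ∀ v : W0, v.cd < 4 → ∀ c, zc (tv v) c = c ∨ zc (tv v) c = c + wv 4 := by decide
    have h5 : S.Md (S.ze (zc (tv v) c)) (S.ze c) := by
      rcases h v b3 c with e | e <;> rw [e]
      exacts [Or.inl rfl, Or.inr (S.ze_add _ _)]
    have h6 := h5.conj hg
    rwa [← b4, ← S.conj_ze b1, ← ha, show g * (g⁻¹ * l * g⁻¹⁻¹ * S.ze c * (g⁻¹ * l * g⁻¹⁻¹)⁻¹) * g⁻¹ =
      l * a * l⁻¹ by rw [ha]; group] at h6
  obtain ⟨a1, a2, v, a3, a4⟩ := h2 h3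
  have h5 : a ∈ S.L := by
    refine (S.mem_L a1).2 ⟨a2, ?_⟩
    have l1 := S.el_mem (nv 1)
    have h6 := ((h4 _ (inv_mem l1)).mul_left (S.el (nv 1))).mul_right (inv_mem (R_le_H S (h2 h3)))
    rw [inv_inv, mul_inv_cancel_right, mul_assoc (S.el _)⁻¹, mul_inv_cancel_left] at h6
    have h7 := h6.ph_eq l1
    rw [S.conj_ph a1 l1, a2, a4, ac_one, S.ph_el] at h7
    have h : ∀ v : W0, v.cd < 4 → lin (tv v) (0, 0, nv 1) = (0, 0, nv 1) → tv v = e3 := by decide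
    rw [a4, h v a3 h7]
  rw [← ha]
  refine S.ph_ker h5 (be_small fun u => ?_)
  obtain ⟨l, hl, rfl⟩ := S.ph_surj u
  have h6 := h4 l hl
  rw [S.conj_L hl h5] at h6
  rcases h6 with e | e
  exacts [Or.inl (S.ze_eq_one (mul_eq_left.1 e)), Or.inr (S.ze_inj (mul_left_cancel e))]

theorem span_sub {A : Subgroup G} (hn : ∀ k ∈ S.K, k ∈ S.H → ∀ a ∈ A, k * a * k⁻¹ ∈ A) {a : G}
    (ha : a ∈ A) (hL : a ∈ S.L) (h0 : S.ph a ≠ 0) : (∀ u v, ∃ b ∈ A, b ∈ S.L ∧ S.ph b = (u, v, 0)) ∧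
      ((S.ph a).2.2 ≠ 0 → ∀ u, ∃ b ∈ A, b ∈ S.L ∧ S.ph b = u) :=
  span (F := fun u => ∃ b ∈ A, b ∈ S.L ∧ S.ph b = u)
    (by rintro _ _ ⟨b, b1, b2, rfl⟩ ⟨c, c1, c2, rfl⟩; exact ⟨b * c, mul_mem b1 c1, mul_mem b2 c2, S.ph_mul b2 c2⟩)
    (by
      rintro s t h1 h2 _ ⟨b, b1, b2, rfl⟩
      obtain ⟨k, hk, rfl, rfl⟩ := S.surj s t h1
      exact ⟨_, hn k hk (S.mem_H_of_rh hk h2) b b1, S.conj_mem_L hk b2, S.conj_ph hk b2⟩)
    ⟨a, ha, hL, rfl⟩ h0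

end QD

open QD in
theorem Sec.exists_qd {G : Type*} [Group G] [Finite G] (h2 : IsCharacteristicTwoType G) (S : Sec G)
    (hn : ¬ S.H ≤ S.K) : Nonempty (Qd G) := by
  obtain ⟨Q, hQ⟩ : ∃ Q, Q = pCoreOf 2 S.H := ⟨_, rfl⟩
  have QH : Q ≤ S.H := hQ ▸ pCoreOf_le _
  have Q2 : IsPGroup 2 Q := hQ ▸ pCoreOf_isPGroup _
  have QN : S.H ≤ normalizer (Q : Set G) := hQ ▸ le_norm_pCoreOf _
  have cQ : ∀ {h q}, h ∈ S.H → q ∈ Q → h * q * h⁻¹ ∈ Q := fun hh hq => conj_mem_of_le_norm QN hh hq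
  have hC : ∀ {h}, h ∈ S.H → (∀ q ∈ Q, h * q = q * h) → h ∈ Q := fun {h} hh hc => by
    have h1 : normalizer (zpowers S.z : Set G) = S.H := by
      refine le_antisymm (fun g hg => ?_) (norm_of_cent fun g hg a ha => ?_)
      · rcases S.md_one_iff.2 (conj_mem_of_mem_norm hg (mem_zpowers _)) with e | e
        · exact absurd (conj_eq_one_iff.1 e) S.z_ne_one
        · exact S.mem_H.2 (mul_inv_eq_iff_eq_mul.1 (e.trans (one_mul _)))
      · obtain ⟨n, rfl⟩ := ha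
        exact ((show Commute g S.z from S.mem_H.1 hg).zpow_right n).symm
    have h3 := h2.2 (zpowers S.z) (IsPGroup.of_card (n := 1) S.card_z) (by simpa using S.z_ne_one)
    rw [h1] at h3
    rw [hQ] at hc ⊢
    exact isChar_iff.2 h3 ⟨hh, fun q hq => (hc q hq).symm⟩
  have RN : ∀ k ∈ S.K, k ∈ S.H → k ∈ normalizer (R S : Set G) := fun k hk hH =>
    mem_normalizer_of_cj_le (cj_le_iff.2 fun r hr => conj_R S hk hH hr)
  have LR : S.L ≤ R S := fun a ha => ⟨S.L_le ha, S.pi_L ha, 0, by decide, by rw [S.rh_L ha, tv_zero]⟩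
  have QR : Q ≤ R S := by
    have hP : IsPGroup 2 (Q ⊔ R S : Subgroup G) := Q2.to_sup_of_normal_left' (R_two S) ((R_le_H S).trans QN)
    have hH : Q ⊔ R S ≤ S.H := sup_le QH (R_le_H S)
    refine le_sup_left.trans (eq_of_inf_norm_le hP le_sup_right (le_R S
      (fun g hg => mem_K_of_norm S LR le_rfl (hH hg.1) hg.2) (inf_le_left.trans hH) hP.to_inf_left
      fun k hk hH a ha => mem_inf.2 ⟨?_, mul_mem (mul_mem (RN k hk hH) ha.2) (inv_mem (RN k hk hH))⟩)).ge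
    exact conj_mem_of_le_norm (L := zpowers k) (norm_sup (zpowers_le.2 (QN hH)) (zpowers_le.2 (RN k hk hH)))
      (mem_zpowers k) ha.1
  obtain ⟨τ, τQ, τL⟩ : ∃ τ ∈ Q, τ ∉ S.L := by
    by_contra h
    push Not at h
    refine hn fun g hg => S.mem_K g fun c => ?_
    have h1 : ∀ k ∈ S.H, ∀ a ∈ Q ⊓ centralizer (Q : Set G), k * a * k⁻¹ ∈ Q ⊓ centralizer (Q : Set G) :=
      fun k hk a ha => conj_mem_of_le_norm (norm_inf QN (norm_centralizer QN)) hk ha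
    have h3 := h1 g hg (S.ze c) ⟨hC (S.L_le_H (S.ze_mem c)) fun q hq => (S.ze_comm_L (h q hq) c).symm,
      fun q hq => S.ze_comm_L (h q hq) c⟩
    refine S.ph_ker (h _ h3.1) (by_contra fun h0 => ?_)
    obtain ⟨h4, -⟩ := span_sub S (fun k _ => h1 k) h3 (h _ h3.1) h0
    obtain ⟨a, a1, a2, a3⟩ := h4 (nv 1) 0
    obtain ⟨b, b1, b2, b3⟩ := h4 0 (nv 8)
    have := (S.comm_iff a2 b2).1 (b1.2 a a1.1)
    rw [a3, b3] at this
    exact absurd this (by decide)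
  obtain ⟨τ1, τ2, w, τ3, τ4⟩ := QR τQ
  have w0 : w ≠ 0 := fun e => τL ((S.mem_L τ1).2 ⟨τ2, by rw [τ4, e, tv_zero]⟩)
  have hsurj : ∀ v : W0, v.cd < 4 → ∃ q ∈ Q, S.rh q = tv v := by
    have h : ∀ v : W0, v.cd < 4 → mm (tv (ap tp v)) tp = mm tp (tv v) := by decide
    have h1 : ∀ v : W0, v.cd < 4 → (∃ q ∈ Q, S.rh q = tv v) → ∃ q ∈ Q, S.rh q = tv (ap tp v) := by
      rintro v hv ⟨q, hq, e⟩
      exact ⟨_, cQ S.p_mem_H hq, mm_cancel S S.p_mem (by rw [S.rh_conj S.p_mem (QR hq).1, e, S.rh_p, h v hv])⟩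
    have h3 : ∀ w v : W0, w.cd < 4 → w ≠ 0 → v.cd < 4 → (ap tp w).cd < 4 ∧
        (v = 0 ∨ v = w ∨ v = ap tp w ∨ v = ap tp (ap tp w)) := by decide
    intro v hv
    obtain ⟨h4, rfl | rfl | rfl | rfl⟩ := h3 w v τ3 w0 hv
    exacts [⟨1, one_mem _, by rw [S.rh_one, tv_zero]⟩, ⟨τ, τQ, τ4⟩, h1 _ τ3 ⟨τ, τQ, τ4⟩,
      h1 _ h4 (h1 _ τ3 ⟨τ, τQ, τ4⟩)]
  have l1 := S.el_mem (nv 1)
  obtain ⟨hsp, -⟩ := span_sub S (fun k _ hk a ha => cQ hk ha) (a := S.el (nv 1) * τ⁻¹ * (S.el (nv 1))⁻¹ * τ)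
    (mul_mem (cQ (S.L_le_H l1) (inv_mem τQ)) τQ)
    (by simpa [mul_assoc] using mul_mem l1 (S.conj_mem_L (inv_mem τ1) (inv_mem l1))) (by
      have h : ∀ w : W0, w.cd < 4 → lin (tv w) (0, 0, nv 1) + (0, 0, nv 1) = 0 → w = 0 := by decide
      intro e
      have l2 : S.el (nv 1) * τ⁻¹ * (S.el (nv 1))⁻¹ * τ ∈ S.L := by
        simpa [mul_assoc] using mul_mem l1 (S.conj_mem_L (inv_mem τ1) (inv_mem l1))
      have e1 := S.conj_ph τ1 l2
      rw [e, ac_zero, show τ * (S.el (nv 1) * τ⁻¹ * (S.el (nv 1))⁻¹ * τ) * τ⁻¹ =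
        τ * S.el (nv 1) * τ⁻¹ * (S.el (nv 1))⁻¹ by group, S.ph_mul (S.conj_mem_L τ1 l1) (inv_mem l1),
        S.conj_ph τ1 l1, S.ph_inv l1, τ2, τ4, ac_one, S.ph_el] at e1
      exact w0 (h w τ3 e1))
  have ZQ : ∀ c, S.ze c ∈ Q := fun c => by
    have h : ∀ c : W0, ∃ a a' a'' b b' : Bool,
        be (sm a (nv 8), sm a' (nv 8), sm a'' (nv 8)) (sm b (nv 1), sm b' (nv 1), 0) = c := by decide +kernel
    obtain ⟨a, a', a'', b, b', rfl⟩ := h c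
    obtain ⟨j, j1, j2, j3⟩ := hsp (sm b (nv 1)) (sm b' (nv 1))
    obtain ⟨l, hl, l2⟩ := S.ph_surj (sm a (nv 8), sm a' (nv 8), sm a'' (nv 8))
    have := cQ (S.L_le_H hl) j1
    rwa [S.conj_L hl j2, mul_mem_cancel_left j1, l2, j3] at this
  have hmem : ∀ {a}, a ∈ S.L → (a ∈ Q ↔ (S.ph a).2.2 = 0) := fun {a} ha => by
    refine ⟨fun h => by_contra fun h0 => hn fun g hg => mem_K_of_norm S (fun l hl => ?_) QR hg (QN hg),
      fun h => ?_⟩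
    · obtain ⟨b, b1, b2, b3⟩ := (span_sub S (fun k _ hk a ha => cQ hk ha) h ha
        fun e => h0 (by rw [e]; rfl)).2 h0 (S.ph l)
      obtain ⟨c, rfl⟩ := S.ph_eq hl b2 b3.symm
      exact mul_mem b1 (ZQ c)
    · obtain ⟨b, b1, b2, b3⟩ := hsp (S.ph a).1 (S.ph a).2.1
      obtain ⟨c, rfl⟩ := S.ph_eq ha b2 (by rw [b3, ← h])
      exact mul_mem b1 (ZQ c)
  have hsqZ : ∀ {q}, q ∈ Q → ∃ c, q * q = S.ze c := fun {q} hq => by
    have q2 := sq_mem_L S (QR hq)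
    obtain ⟨q3, q4, v, q5, q6⟩ := QR hq
    have x1 := S.sg_mem xq
    have x2 := cQ (sg_mem_H S xq) hq
    obtain ⟨l, hl⟩ : ∃ l, S.sg xq * q * (S.sg xq)⁻¹ = l * q := ⟨_, (inv_mul_cancel_right _ q).symm⟩
    have l1 : l ∈ S.L := by
      have := (S.coset_L' q3).2 ⟨(QR x2).1, by rw [(QR x2).2.1, q4], S.rh_conj_of_e3 x1 q3 (S.rh_sg _)⟩
      rwa [hl, mul_inv_cancel_right] at this
    have l2 := (hmem l1).1 ((mul_mem_cancel_right hq).1 (hl ▸ x2))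
    have e := S.conj_ph x1 q2
    rw [← conj_mul, hl, show l * q * (l * q) = l * (q * l * q⁻¹) * (q * q) by group,
      S.ph_mul (mul_mem l1 (S.conj_mem_L q3 l1)) q2, S.ph_mul l1 (S.conj_mem_L q3 l1), S.conj_ph q3 l1, q4, q6,
      ac_one, lin_tv q5, l2, S.pi_sg, S.rh_sg, ac_e3] at e
    have h : ∀ c, c = act xq c → c = 0 := by decide +kernel
    have h1 : ∀ b, sm b (0 : N0) = 0 := by decide
    rw [h1, h1, add_zero, add_zero, ← l2, U0.add_self, zero_add] at e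
    exact S.ph_ker q2 (Prod.ext (h _ (congrArg Prod.fst e)) (Prod.ext (h _ (congrArg (fun v : U0 => v.2.1) e))
      (h _ (congrArg (fun v : U0 => v.2.2) e))))
  have hsq : ∀ {q}, q ∈ Q → S.Md (q * q) 1 := fun {q} hq => by
    obtain ⟨c, hc⟩ := hsqZ hq
    by_contra h0
    have h : ∀ c : W0, c ≠ 0 → c ≠ wv 4 → ∀ d, ∃ a b e : Bool,
        d = smW a c + smW b (zc tp c) + smW e (wv 4) := by decide
    refine hn fun g hg => S.mem_K g fun d => ?_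
    obtain ⟨a, b, e, rfl⟩ := h c (fun e => h0 (Or.inl (by rw [hc, e, S.ze_zero])))
      (fun e => h0 (Or.inr (by rw [hc, e, one_mul]; rfl))) d
    have h1 : ∀ (a : Bool) d, g * S.ze d * g⁻¹ ∈ S.Zs → g * S.ze (smW a d) * g⁻¹ ∈ S.Zs := fun a d h => by
      cases a
      · exact ⟨0, by change g * S.ze 0 * g⁻¹ = _; rw [S.ze_zero, mul_one, mul_inv_cancel]⟩
      · exact h
    rw [S.ze_add, S.ze_add, ← conj_mul, ← conj_mul]
    refine mul_mem (s := S.Zs) (mul_mem (h1 _ _ ?_) (h1 _ _ ?_)) (h1 _ _ ⟨wv 4, ?_⟩)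
    · rw [← hc, ← conj_mul]; exact hsqZ (cQ hg hq)
    · rw [← S.rh_p, ← S.conj_ze S.p_mem, ← hc, ← conj_mul (b := S.p), ← conj_mul (b := g)]
      exact hsqZ (cQ hg (cQ S.p_mem_H hq))
    · exact mul_inv_eq_iff_eq_mul.2 (S.mem_H.1 hg)
  refine ⟨{ S with
    Q := Q, Q_eq := hQ, Q_le_K := fun q hq => (QR hq).1, Q_le_H := QH, conj_Q := cQ
    pi_Q := fun hq => (QR hq).2.1, rh_Q := fun hq => (QR hq).2.2, surj_Q := hsurj, mem_Q := hmem, sq_Q := hsq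
    comm_Q := fun {q r} hq hr => ?_, card_Q := ?_, cent_Q := hC
    max_Q := fun A h1 h3 h4 => hQ ▸ le_pCoreOf h3 h4 h1, not_le := hn }⟩
  · refine S.md_iff.2 ?_
    have h1 := (hsq hr).conj (QH hq)
    rw [mul_one, mul_inv_cancel] at h1
    rw [show (r * q)⁻¹ * (q * r) = (q * q)⁻¹ * (q * (r * r) * q⁻¹)⁻¹ * (q * r * (q * r)) by group]
    exact mul_mem (mul_mem (inv_mem (S.md_one_iff.1 (hsq hq))) (inv_mem (S.md_one_iff.1 h1)))
      (S.md_one_iff.1 (hsq (mul_mem hq hr)))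
  · have h : ∀ v w : W0, v.cd < 4 → w.cd < 4 →
        (mm (tv v) (tv w)).2.2 + wv 4 = (tv v).2.2 + wv 4 + ((tv w).2.2 + wv 4) := by decide
    have h' : ∀ v : W0, (tv v).2.2 + wv 4 = v := by decide
    let f : Q →* Multiplicative W0 := MonoidHom.mk' (fun q => Multiplicative.ofAdd ((S.rh q).2.2 + wv 4))
      fun a b => by
        obtain ⟨a1, -, v, a3, a4⟩ := QR a.2
        obtain ⟨b1, -, w, b3, b4⟩ := QR b.2
        rw [← ofAdd_add, Subgroup.coe_mul, S.rh_mul a1 b1, a4, b4, h v w a3 b3]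
    let g : (Q ⊓ S.L : Subgroup G) →* Multiplicative (N0 × N0) :=
      MonoidHom.mk' (fun q => Multiplicative.ofAdd ((S.ph q).1, (S.ph q).2.1)) fun a b => by
        rw [← ofAdd_add, Subgroup.coe_mul, S.ph_mul a.2.2 b.2.2]; rfl
    have e1 := card_of_hom (N := Q ⊓ S.L) inf_le_left f fun a => by
      obtain ⟨a1, a2, v, a3, a4⟩ := QR a.2
      change (S.rh a).2.2 + wv 4 = 0 ↔ _
      refine ⟨fun e => ⟨a.2, (S.mem_L a1).2 ⟨a2, ?_⟩⟩, fun e => by rw [S.rh_L e.2]; decide⟩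
      rw [a4, h'] at e
      rw [a4, e, tv_zero]
    have e2 := card_of_hom (N := S.Zs) (by rintro _ ⟨c, rfl⟩; exact ⟨ZQ c, S.ze_mem c⟩) g fun a =>
      ⟨fun e => have e : ((S.ph a).1, (S.ph a).2.1) = 0 := e
        S.ph_ker a.2.2 (Prod.ext (Prod.mk.inj e).1 (Prod.ext (Prod.mk.inj e).2
        ((hmem a.2.2).1 a.2.1))), fun ⟨c, e⟩ => by
          change ((S.ph a).1, (S.ph a).2.1) = 0
          rw [e, S.ph_ze]; rfl⟩
    have e3 : g.range = ⊤ := MonoidHom.range_eq_top.2 fun u => by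
      obtain ⟨b, b1, b2, b3⟩ := hsp u.toAdd.1 u.toAdd.2
      exact ⟨⟨b, b1, b2⟩, by change ((S.ph b).1, (S.ph b).2.1) = u.toAdd; rw [b3]⟩
    have e4 : Nat.card f.range = 4 := by
      have : (f.range : Set (Multiplicative W0)) = {v : W0 | v.cd < 4} := by
        ext v
        refine ⟨?_, fun hv => ?_⟩
        · rintro ⟨a, rfl⟩
          obtain ⟨-, -, v, a3, a4⟩ := QR a.2
          change ((S.rh a).2.2 + wv 4).cd < 4
          rwa [a4, h']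
        · obtain ⟨q, hq, e⟩ := hsurj v hv
          exact ⟨⟨q, hq⟩, by change (S.rh q).2.2 + wv 4 = v; rw [e]; exact h' v⟩
      change Set.ncard (f.range : Set (Multiplicative W0)) = 4
      rw [this]
      change Set.ncard {v : W0 | v.cd < 4} = 4
      rw [Set.ncard_eq_toFinset_card']; decide
    rw [e1, e2, e3, e4, S.card_Zs, card_top, Nat.card_congr Multiplicative.toAdd, Nat.card_prod, card_N0]
    norm_num

end Cfsg.Agent.J4K
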