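/-
Project J4K: the complement `S5` and the elements `p`, `io`, `el u`.
-/
import Cfsg.Agent.J4K.Basic

set_option autoImplicit false

namespace Cfsg.Agent.J4K

open Subgroup Equiv Cfsg.Agent.H70

theorem Co.exists_sec {G : Type*} [Group G] [Finite G] (C : Co G) : Nonempty (Sec G) := by
  have : Fact (Nat.Prime 7) := ⟨by norm_num⟩
  obtain ⟨y, yK, y1, y2, y7⟩ : ∃ y ∈ C.K, C.pi y = 1 ∧ C.rh y = ty ∧ y ^ 7 = 1 := by
    obtain ⟨k, hk, k1, k2⟩ := C.surj 1 ty (by decide)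
    refine ⟨k ^ 8, pow_mem hk _, by rw [C.pi_pow hk, k1, one_pow], by rw [C.rh_pow hk, k2]; decide, ?_⟩
    have := C.pow_four ((C.mem_L (pow_mem hk 7)).2
      ⟨by rw [C.pi_pow hk, k1, one_pow], by rw [C.rh_pow hk, k2]; decide⟩)
    rw [← pow_mul, show 8 * 7 = 7 * 4 * 2 from rfl, pow_mul, pow_mul, this, one_pow]
  have yc : ∀ {a}, a ∈ C.L → C.ph (y * a * y⁻¹) = lin ty (C.ph a) := fun ha => by
    rw [C.conj_ph yK ha, y1, y2, ac_one]
  have yz : ∀ c, y * C.ze c * y⁻¹ = C.ze (zc ty c) := fun c => by rw [C.conj_ze yK, y2]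
  have hfp : ∀ l ∈ C.L, y * l * y⁻¹ = l → l = 1 := fun l hl h => by
    have h1 := yc hl
    rw [h, lin_ty] at h1
    have a1 : (C.ph l).2.1 = 0 := left_eq_add.1 (congrArg Prod.fst h1)
    have a2 : (C.ph l).2.2 = 0 := left_eq_add.1 (congrArg (fun v : U0 => v.2.1) h1)
    have a3 : (C.ph l).2.2 = (C.ph l).1 := congrArg (fun v : U0 => v.2.2) h1
    obtain ⟨c, rfl⟩ := C.ph_ker hl (Prod.ext (a3.symm.trans a2) (Prod.ext a1 a2))
    have h2 : ∀ c, zc ty c = c → c = 0 := by decide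
    rw [h2 c (C.ze_inj ((yz c).symm.trans h)), C.ze_zero]
  have huniq : ∀ {k k'}, k ∈ C.K → k' ∈ C.K → C.pi k' = C.pi k → C.rh k' = C.rh k → Commute y k → Commute y k' →
      k = k' := fun {k k'} hk hk' e1 e2 c1 c2 => inv_mul_eq_one.1 (hfp _ ((C.coset_L hk).2 ⟨hk', e1, e2⟩)
        (mul_inv_eq_iff_eq_mul.2 (c1.inv_right.mul_right c2)))
  have y6 : y ^ 6 = y⁻¹ := eq_inv_of_mul_eq_one_left (by rw [← pow_succ, y7])
  have yi : C.rh y⁻¹ = mpow ty 6 := by rw [← y6, C.rh_pow yK, y2]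
  have yi7 : y⁻¹ ^ 7 = 1 := by rw [inv_pow, y7, inv_one]
  have hs : ∀ s, ∃ k, k ∈ C.K ∧ C.pi k = s ∧ C.rh k = e3 ∧ Commute y k := fun s => by
    obtain ⟨k, k1, k2, k3, k4⟩ := C.adjust 7 (by decide) yK (inv_mem yK) y7 yi7 s (t := e3) (by decide)
      (by rw [C.pi_inv yK, y1]; simp) (by rw [yi, y2]; decide)
    exact ⟨k, k1, k2, k3, mul_inv_eq_iff_eq_mul.1 k4⟩
  choose sg s1 s2 s3 s4 using hs
  have hmul : ∀ s r, sg (s * r) = sg s * sg r := fun s r => huniq (s1 _) (mul_mem (s1 _) (s1 _))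
    (by rw [C.pi_mul (s1 _) (s1 _), s2, s2, s2]) (by rw [C.rh_mul (s1 _) (s1 _), s3, s3, s3, mm_e3]) (s4 _)
    ((s4 _).mul_right (s4 _))
  obtain ⟨p, pK, p1, p2, p4⟩ := C.adjust 7 (by decide) (pow_mem yK 2) (inv_mem yK)
    (by rw [← pow_mul, mul_comm, pow_mul, y7, one_pow]) yi7 1 (t := tp) (by decide)
    (by rw [C.pi_inv yK, C.pi_pow yK, y1]; simp) (by rw [yi, C.rh_pow yK, y2]; decide)
  have p5 : p * y * p⁻¹ = y ^ 2 := by rw [mul_inv_eq_iff_eq_mul, ← mul_inv_eq_iff_eq_mul.1 p4]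
  have p6 : ∀ n, p * y ^ n * p⁻¹ = y ^ (2 * n) := fun n => by rw [← conj_pow, p5, pow_mul]
  have p3 : p ^ 3 = 1 := (huniq (one_mem _) (pow_mem pK 3) (by rw [C.pi_pow pK, p1, one_pow, C.pi_one])
    (by rw [C.rh_pow pK, p2, C.rh_one]; decide) (Commute.one_right y) (by
      have : p ^ 3 * y * (p ^ 3)⁻¹ = y := by
        rw [show p ^ 3 * y * (p ^ 3)⁻¹ = p * (p * (p * y * p⁻¹) * p⁻¹) * p⁻¹ by rw [pow_three]; group, p5, p6, p6,
          show 2 * (2 * 2) = 7 + 1 from rfl, pow_succ, y7, one_mul]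
      exact (mul_inv_eq_iff_eq_mul.1 this).symm)).symm
  have psg : ∀ s, sg s * p = p * sg s := fun s => (mul_inv_eq_iff_eq_mul.1 (huniq (s1 s)
    (mul_mem (mul_mem pK (s1 s)) (inv_mem pK)) (by rw [C.pi_conj pK (s1 s), p1]; simp)
    (by rw [C.rh_conj_e3 pK (s1 s) (s3 s), s3]) (s4 s) (by
      have e : y = p * y ^ 4 * p⁻¹ := by rw [p6, show 2 * 4 = 7 + 1 from rfl, pow_succ, y7, one_mul]
      change y * _ = _ * y
      conv_lhs => rw [e]
      conv_rhs => rw [e]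
      rw [conj_mul, conj_mul, ((s4 s).pow_left 4).eq])).symm).symm
  obtain ⟨io, iK, i1, i2, i3⟩ := C.adjust 3 (by decide) pK pK p3 p3 1 (t := ti) (by decide)
    (by rw [p1]; simp) (by rw [p2]; decide)
  have hel : ∀ u : N0, ∃ l, l ∈ C.L ∧ C.ph l = (0, 0, u) ∧ p * l * p⁻¹ = l := fun u =>
    C.adjust_Z 3 (by decide) pK p3 (by rw [p1, p2, ac_one, lin_tp]; simp)
  choose el e1 e2 e4 using hel
  refine ⟨{ C with
    sg := MonoidHom.mk' sg hmul, p := p, io := io, el := el, sg_mem := s1, pi_sg := s2, rh_sg := s3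
    p_mem := pK, pi_p := p1, rh_p := p2, p3 := p3, p_sg := psg, io_mem := iK, pi_io := i1, rh_io := i2
    io_p := by rw [mul_inv_eq_iff_eq_mul, eq_inv_mul_iff_mul_eq, ← mul_assoc, i3]
    el_mem := e1, ph_el := e2, p_el := fun u => (mul_inv_eq_iff_eq_mul.1 (e4 u)).symm
    sg_cent := fun s hs a ha a0 a1 a2 => ?_ }⟩
  change sg s * a = a * sg s
  obtain ⟨c, hc⟩ := C.ph_eq (C.conj_mem_L (s1 s) ha) ha (by
    rw [C.conj_ph (s1 s) ha, s2, s3, ac_e3, act_V4 hs a0, act_V4 hs a1, act_V4 hs a2])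
  have st : ∀ {a c}, sg s * a * (sg s)⁻¹ = a * C.ze c →
      sg s * (y * a * y⁻¹) * (sg s)⁻¹ = y * a * y⁻¹ * C.ze (zc ty c) := fun {a c} h => by
    rw [← yz, conj_mul, ← h, show sg s * (y * a * y⁻¹) * (sg s)⁻¹ = (sg s * y) * a * (sg s * y)⁻¹ by group,
      ← (s4 s).eq]; group
  have l1 := C.conj_mem_L yK ha
  have l2 := C.conj_mem_L yK l1
  obtain ⟨d, hd⟩ := C.ph_eq (C.conj_mem_L yK l2) (mul_mem l1 ha) (by
    rw [yc l2, yc l1, C.ph_mul l1 ha, yc ha]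
    simp only [lin_ty, Prod.ext_iff, Prod.fst_add, Prod.snd_add]
    generalize (C.ph a).1 = u, (C.ph a).2.1 = v, (C.ph a).2.2 = w
    refine ⟨?_, ?_, ?_⟩
    · rw [show u + v + (v + w) + (v + w + u) = u + v + u + (v + v) + (w + w) by abel]
      simp only [N0.add_self, add_zero]
    · rw [show v + w + u + (u + v) = v + w + v + (u + u) by abel, N0.add_self, add_zero]
    · rw [show u + v + (v + w) = u + w + (v + v) by abel, N0.add_self, add_zero])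
  have h3 := st (st (st hc))
  rw [hd, ← conj_mul, ← conj_mul, st hc, hc, C.conj_ze (s1 s), s3, zc_e3, mul_assoc _ (C.ze _),
    ← mul_assoc (C.ze _), ← C.ze_comm_L ha] at h3
  simp only [mul_assoc, mul_left_cancel_iff, ← C.ze_add] at h3
  have h4 : ∀ c d, zc ty c + c + d = d + zc ty (zc ty (zc ty c)) → c = 0 := by decide
  rw [h4 c d (C.ze_inj h3), C.ze_zero, mul_one] at hc
  exact mul_inv_eq_iff_eq_mul.1 hc

end Cfsg.Agent.J4K
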